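import Cfsg.Agent.H60.Qrc.End
import Cfsg.Agent.H74.PGroupAction
import Cfsg.Agent.H88.ThreeSubgroups

/-!
Commutators with `O²(H)` on `2`-subgroups, noncentral sections, and the pairing count.
-/

set_option autoImplicit false
set_option linter.style.haveILetI false
set_option linter.unusedSectionVars false

open scoped commutatorElement

namespace Cfsg.Agent.H60.Qrc

open Subgroup
open Cfsg.Agent
open Cfsg.Agent.H34.MinOffender (cj mem_cj card_cj conj_mem_cj)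
open Cfsg.Agent.H34.Para (cj_mul cj_one cj_mono cj_le cj_eq_self cj_eq_of_mem_normalizer mem_normalizer_of_cj_eq)

universe u

variable {G : Type u} [Group G] [Finite G]

theorem commutator_sup_le' {X A B W : Subgroup G} (hA : A ≤ normalizer (W : Set G))
    (hB : B ≤ normalizer (W : Set G)) (h1 : ⁅X, A⁆ ≤ W) (h2 : ⁅X, B⁆ ≤ W) : ⁅X, A ⊔ B⁆ ≤ W := by
  rw [sup_eq_iSup]
  refine commutator_iSup_le (fun b => ?_) fun b => ?_ <;> cases b <;> simp only [cond] <;> assumption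

theorem le_normalizer_of_le_centralizer {X W : Subgroup G} (h : X ≤ centralizer (W : Set G)) :
    X ≤ normalizer (W : Set G) := h.trans (centralizer_le_normalizer _)

theorem le_normalizer_inf' {A X Y : Subgroup G} (h1 : A ≤ normalizer (X : Set G))
    (h2 : A ≤ normalizer (Y : Set G)) : A ≤ normalizer ((X ⊓ Y : Subgroup G) : Set G) :=
  (le_inf h1 h2).trans inf_normalizer_le_normalizer_inf

theorem le_normalizer_centralizer {A X : Subgroup G} (h : A ≤ normalizer (X : Set G)) :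
    A ≤ normalizer (centralizer (X : Set G) : Set G) := fun a ha =>
  mem_normalizer_of_cj_eq (by rw [cj_centralizer, cj_eq_of_mem_normalizer (h ha)])

/-- Generation modulo a commutator with a `2`-group containing the abelian subgroup. -/
theorem le_of_le_sup_commutator {X Y U S : Subgroup G} (hS : IsPGroup 2 S) (hXS : X ≤ S) (hXU : X ≤ U)
    (hYU : Y ≤ U) (hUc : U ≤ centralizer (U : Set G)) (hSX : S ≤ normalizer (X : Set G))
    (hSY : S ≤ normalizer (Y : Set G)) (h : X ≤ Y ⊔ ⁅X, S⁆) : X ≤ Y := by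
  classical
  haveI : Fact (Nat.Prime 2) := ⟨Nat.prime_two⟩
  obtain ⟨X', ⟨hX', hX'X, hSX'⟩, hmin⟩ := Set.exists_min_image
    {X' : Subgroup G | X ≤ Y ⊔ X' ∧ X' ≤ X ∧ S ≤ normalizer (X' : Set G)} (fun X' => Nat.card X')
    (Set.toFinite _) ⟨X, le_sup_right, le_rfl, hSX⟩
  by_cases hbot : X' = ⊥
  · rwa [hbot, sup_bot_eq] at hX'
  exfalso
  have hlt : ¬ X' ≤ ⁅X', S⁆ := H74.not_le_commutator_of_nilpotent hS.isNilpotent (hX'X.trans hXS) le_rfl hbot
  have hle : ⁅X', S⁆ ≤ X' := le_normalizer_iff_commutator_le_left.1 hSX'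
  refine hlt (eq_of_le_of_card_ge hle (hmin _ ⟨?_, hle.trans hX'X, H83.le_normalizer_commutator hSX' le_normalizer⟩)).ge
  refine h.trans (sup_le le_sup_left ?_)
  have hWU : Y ⊔ ⁅X', S⁆ ≤ U := sup_le hYU ((hle.trans hX'X).trans hXU)
  have hUW : U ≤ normalizer ((Y ⊔ ⁅X', S⁆ : Subgroup G) : Set G) :=
    le_normalizer_of_le_centralizer (hUc.trans (centralizer_le hWU))
  calc ⁅X, S⁆ ≤ ⁅Y ⊔ X', S⁆ := commutator_mono hX' le_rfl
    _ ≤ Y ⊔ ⁅X', S⁆ := by
      rw [commutator_comm]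
      refine commutator_sup_le' (hYU.trans hUW) ((hX'X.trans hXU).trans hUW) ?_ ?_
      · exact (le_normalizer_iff_commutator_le_right.1 hSY).trans le_sup_left
      · rw [commutator_comm]; exact le_sup_right

/-- A pairing into a group of order two with trivial left kernel bounds the left side. -/
theorem relIndex_le_of_pairing {V B C Z Z₁ : Subgroup G} (hB : IsPGroup 2 B) (hCB : C ≤ B)
    (hC : ∀ v ∈ V, ∀ q ∈ C, ⁅v, q⁆ ∈ Z₁) (hin : ∀ v ∈ V, ∀ q ∈ B, ⁅v, q⁆ ∈ Z)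
    (hVZ : ∀ v ∈ V, ∀ z ∈ Z, v * z = z * v) (hBZ : ∀ q ∈ B, ∀ z ∈ Z₁, q * z = z * q)
    (hcomm : ∀ z ∈ Z, ∀ z' ∈ Z, z * z' = z' * z)
    (htwo : ∀ z ∈ Z, ∀ z' ∈ Z, z ∉ Z₁ → z' ∉ Z₁ → z * z' ∈ Z₁) (hZ₁ : Z₁ ≤ Z) {V₀ : Subgroup G}
    (hV₀ : ∀ v ∈ V, (∀ q ∈ B, ⁅v, q⁆ ∈ Z₁) → v ∈ V₀) : V₀.relIndex V ≤ C.relIndex B := by
  classical
  let L : Subgroup G → Subgroup G := fun X =>
    { carrier := {v | v ∈ V ∧ ∀ q ∈ X ⊓ B, ⁅v, q⁆ ∈ Z₁}
      one_mem' := ⟨one_mem _, fun q _ => by simp [one_mem]⟩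
      mul_mem' := by
        rintro a b ⟨ha, a1⟩ ⟨hb, b1⟩
        refine ⟨mul_mem ha hb, fun q hq => ?_⟩
        rw [show ⁅a * b, q⁆ = a * ⁅b, q⁆ * a⁻¹ * ⁅a, q⁆ by simp only [commutatorElement_def]; group,
          hVZ a ha _ (hin b hb q hq.2), mul_inv_cancel_right]
        exact mul_mem (b1 q hq) (a1 q hq)
      inv_mem' := by
        rintro a ⟨ha, a1⟩
        refine ⟨inv_mem ha, fun q hq => ?_⟩
        rw [show ⁅a⁻¹, q⁆ = a⁻¹ * ⁅a, q⁆⁻¹ * a by simp only [commutatorElement_def]; group,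
          hVZ a⁻¹ (inv_mem ha) _ (inv_mem (hin a ha q hq.2)), inv_mul_cancel_right]
        exact inv_mem (a1 q hq) }
  suffices main : ∀ (n : ℕ) (X : Subgroup G), Nat.card X = n → C ≤ X → X ≤ B →
      (L X).relIndex V ≤ C.relIndex X by
    refine le_trans ?_ (main _ B rfl hCB le_rfl)
    exact relIndex_le_of_le_left (fun v hv => hV₀ v hv.1 fun q hq => hv.2 q ⟨hq, hq⟩) index_ne_zero_of_finite
  intro n
  induction n using Nat.strong_induction_on with
  | _ n ih =>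
  intro X hn hCX hXB
  by_cases hXC : X = C
  · subst hXC
    rw [relIndex_self, show (L X).relIndex V = 1 from relIndex_eq_one.2 fun v hv => ⟨hv, fun q hq => hC v hv q hq.1⟩]
  haveI : Fact (Nat.Prime 2) := ⟨Nat.prime_two⟩
  have hne' : C.subgroupOf X ≠ ⊤ := fun h => hXC (le_antisymm (subgroupOf_eq_top.1 h) hCX)
  obtain ⟨Xc, hXc, hle⟩ := (eq_top_or_exists_le_coatom (C.subgroupOf X)).resolve_left hne'
  set X₀ := Xc.map X.subtype with hX₀
  have hX₀X : X₀ ≤ X := map_subtype_le _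
  have hCX₀ : C ≤ X₀ := fun x hx => ⟨⟨x, hCX hx⟩, hle hx, rfl⟩
  have hsub : X₀.subgroupOf X = Xc := comap_map_eq_self_of_injective X.subtype_injective _
  have hX₀ne : X₀ ≠ X := fun e => hXc.1 (by rw [← hsub, e, subgroupOf_self])
  have hlt : Nat.card X₀ < Nat.card X :=
    lt_of_le_of_ne (card_le_of_le hX₀X) fun e => hX₀ne (eq_of_le_of_card_ge hX₀X e.ge)
  have htower : C.relIndex X₀ * X₀.relIndex X = C.relIndex X := relIndex_mul_relIndex _ _ _ hCX₀ hX₀X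
  have h2 : 2 ≤ X₀.relIndex X := by
    have h0 : X₀.relIndex X ≠ 0 := index_ne_zero_of_finite
    have h1 : X₀.relIndex X ≠ 1 := fun e => hX₀ne (le_antisymm hX₀X (relIndex_eq_one.1 e))
    omega
  refine le_trans (b := (L X₀).relIndex V * 2) ?_
    ((Nat.mul_le_mul (ih _ (hn ▸ hlt) X₀ rfl hCX₀ (hX₀X.trans hXB)) h2).trans htower.le)
  obtain ⟨q, hqX, hqX₀⟩ : ∃ q ∈ X, q ∉ X₀ := Set.not_subset.1 fun h => hX₀ne (le_antisymm hX₀X h)
  have hgen : X₀ ⊔ zpowers q = X := by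
    refine le_antisymm (sup_le hX₀X (zpowers_le.2 hqX)) fun x hx => ?_
    have hlt' : Xc < (X₀ ⊔ zpowers q).subgroupOf X := by
      refine lt_of_le_of_ne (fun y hy => mem_subgroupOf.2 (mem_sup_left ⟨y, hy, rfl⟩)) fun e => hqX₀ ?_
      have hm : (⟨q, hqX⟩ : ↥X) ∈ Xc := e ▸ mem_subgroupOf.2 (mem_sup_right (mem_zpowers q))
      exact ⟨_, hm, rfl⟩
    exact (hXc.2 _ hlt').ge (mem_top (⟨x, hx⟩ : ↥X))
  have hLX : L X ≤ L X₀ := fun v hv => ⟨hv.1, fun g hg => hv.2 g ⟨hX₀X hg.1, hg.2⟩⟩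
  have hstep : (L X).relIndex (L X₀) ≤ 2 := by
    let f : ↥(L X₀) ⧸ (L X).subgroupOf (L X₀) → Bool := fun x => decide (((x.out : ↥(L X₀)) : G) ∈ L X)
    refine le_trans (Nat.card_le_card_of_injective f ?_) (by simp)
    intro x y e
    rw [← QuotientGroup.out_eq' x, ← QuotientGroup.out_eq' y, QuotientGroup.eq, mem_subgroupOf]
    simp only [f, decide_eq_decide] at e
    simp only [Subgroup.coe_mul, Subgroup.coe_inv]
    by_cases hx : ((x.out : ↥(L X₀)) : G) ∈ L X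
    · exact mul_mem (inv_mem hx) (e.1 hx)
    have hy : ((y.out : ↥(L X₀)) : G) ∉ L X := fun h => hx (e.2 h)
    set v := ((x.out : ↥(L X₀)) : G)
    set w := ((y.out : ↥(L X₀)) : G)
    have hv : v ∈ L X₀ := (x.out).2
    have hw : w ∈ L X₀ := (y.out).2
    have hkey : ∀ u ∈ L X₀, ⁅u, q⁆ ∈ Z₁ → u ∈ L X := by
      intro u hu huq
      let S : Subgroup G :=
        { carrier := {g | g ∈ B ∧ ⁅u, g⁆ ∈ Z₁}
          one_mem' := ⟨one_mem _, by simp [one_mem]⟩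
          mul_mem' := by
            rintro a b ⟨ha, a1⟩ ⟨hb, b1⟩
            refine ⟨mul_mem ha hb, ?_⟩
            rw [show ⁅u, a * b⁆ = ⁅u, a⁆ * (a * ⁅u, b⁆ * a⁻¹) by simp only [commutatorElement_def]; group,
              hBZ a ha _ b1, mul_inv_cancel_right]
            exact mul_mem a1 b1
          inv_mem' := by
            rintro a ⟨ha, a1⟩
            refine ⟨inv_mem ha, ?_⟩
            rw [show ⁅u, a⁻¹⁆ = a⁻¹ * ⁅u, a⁆⁻¹ * a by simp only [commutatorElement_def]; group,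
              hBZ a⁻¹ (inv_mem ha) _ (inv_mem a1), inv_mul_cancel_right]
            exact inv_mem a1 }
      have hle' : X ≤ S := hgen ▸ sup_le (fun g hg => ⟨hXB (hX₀X hg), hu.2 g ⟨hg, hXB (hX₀X hg)⟩⟩)
        (zpowers_le.2 ⟨hXB hqX, huq⟩)
      exact ⟨hu.1, fun g hg => (hle' hg.1).2⟩
    refine hkey _ (mul_mem (inv_mem hv) hw) ?_
    have hqB : q ∈ B := hXB hqX
    have hvi : ⁅v⁻¹, q⁆ ∉ Z₁ := fun h => hx (by simpa using inv_mem (hkey _ (inv_mem hv) h))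
    rw [show ⁅v⁻¹ * w, q⁆ = v⁻¹ * ⁅w, q⁆ * v * ⁅v⁻¹, q⁆ by simp only [commutatorElement_def]; group,
      hVZ v⁻¹ (inv_mem hv.1) _ (hin w hw.1 q hqB), inv_mul_cancel_right]
    exact htwo _ (hin w hw.1 q hqB) _ (hin _ (inv_mem hv.1) q hqB) (fun h => hy (hkey w hw h)) hvi
  rw [← relIndex_mul_relIndex (L X) (L X₀) V hLX (fun v hv => hv.1), mul_comm]
  exact Nat.mul_le_mul_left _ hstep

variable {T : Sylow 2 G} {M₀ H N V : Subgroup G}

theorem le_of_odd_generated {X S : Subgroup G} (h : ∀ x ∈ X, Odd (orderOf x) → x ∈ S) :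
    Cfsg.oddGenerated X ≤ S := (closure_le _).2 fun x hx => h x hx.1 hx.2

variable (c : Ctx T M₀ H N V)
include c

/-- Commutation with `O²(H)` is idempotent on `2`-subgroups normalised by `H`. -/
theorem Ctx.comm_idem {W : Subgroup G} (hW : IsPGroup 2 W) (hHW : H ≤ normalizer (W : Set G)) :
    ⁅⁅W, Cfsg.oddGenerated H⁆, Cfsg.oddGenerated H⁆ = ⁅W, Cfsg.oddGenerated H⁆ := by
  haveI : Fact (Nat.Prime 2) := ⟨Nat.prime_two⟩
  set K := Cfsg.oddGenerated H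
  have hKW : K ≤ normalizer (W : Set G) := (oddGenerated_le H).trans hHW
  have h1 : ⁅W, K⁆ ≤ W := le_normalizer_iff_commutator_le_left.1 hKW
  refine le_antisymm (commutator_mono h1 le_rfl) ?_
  set W2 := ⁅⁅W, K⁆, K⁆
  have hKW2 : K ≤ normalizer (W2 : Set G) :=
    H83.le_normalizer_commutator (H83.le_normalizer_commutator hKW le_normalizer) le_normalizer
  refine commutator_le.2 fun w hw k hk => ?_
  have hle : K ≤ ⨆ x : {x : G // x ∈ H ∧ Odd (orderOf x)}, zpowers (x : G) :=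
    le_of_odd_generated fun x hx ho => mem_iSup_of_mem (⟨x, hx, ho⟩ : {x : G // x ∈ H ∧ Odd (orderOf x)})
      (mem_zpowers x)
  refine commutator_iSup_le (fun x => ?_) (fun x => ?_) (commutator_mem_commutator hw (hle hk))
  · exact zpowers_le.2 (hKW2 (c.odd_mem x.2.1 x.2.2))
  · have hxK : zpowers (x : G) ≤ K := zpowers_le.2 (c.odd_mem x.2.1 x.2.2)
    rw [← H20.commutator_commutator_eq (hxK.trans hKW)
      (H72.coprime_card_zpowers hW (Nat.coprime_two_right.2 x.2.2)) (Or.inl inferInstance)]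
    exact commutator_mono (commutator_mono le_rfl hxK) hxK

theorem Ctx.normalizes_of {Y : Subgroup G} (hT : (T : Subgroup G) ≤ normalizer (Y : Set G))
    (hK : Cfsg.oddGenerated H ≤ normalizer (Y : Set G)) : H ≤ normalizer (Y : Set G) := by
  rw [← oddGenerated_sup_sylow T c.hTH]
  exact sup_le hK hT

theorem Ctx.hHK : H ≤ normalizer (Cfsg.oddGenerated H : Set G) := le_normalizer_oddGenerated H

/-- A noncentral section on which `O₂(H)` is trivial. -/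
theorem Ctx.exists_section {U D W₀ : Subgroup G} (hUc : U ≤ centralizer (U : Set G))
    (hUQ : U ≤ Cfsg.pCoreOf 2 H) (hW₀U : W₀ ≤ U) (hDW : D ≤ W₀) (hD : H ≤ normalizer (D : Set G))
    (hW₀ : H ≤ normalizer (W₀ : Set G)) (hne : ¬ ⁅W₀, Cfsg.oddGenerated H⁆ ≤ D) :
    ∃ W₁ W₂ : Subgroup G, D ≤ W₁ ∧ W₁ ≤ W₂ ∧ W₂ ≤ W₀ ∧ H ≤ normalizer (W₁ : Set G) ∧
      H ≤ normalizer (W₂ : Set G) ∧ ⁅W₂, Cfsg.pCoreOf 2 H⁆ ≤ W₁ ∧ ¬ ⁅W₂, Cfsg.oddGenerated H⁆ ≤ W₁ := by
  classical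
  set K := Cfsg.oddGenerated H
  set Q := Cfsg.pCoreOf 2 H
  obtain ⟨W₂, ⟨hDW₂, hW₂W, hHW₂, hW₂ne⟩, hmin⟩ := Set.exists_min_image
    {W : Subgroup G | D ≤ W ∧ W ≤ W₀ ∧ H ≤ normalizer (W : Set G) ∧ ¬ ⁅W, K⁆ ≤ D} (fun W => Nat.card W)
    (Set.toFinite _) ⟨W₀, hDW, le_rfl, hW₀, hne⟩
  have hW₂U : W₂ ≤ U := hW₂W.trans hW₀U
  have hsmall : ∀ W, D ≤ W → W ≤ W₂ → H ≤ normalizer (W : Set G) → ¬ ⁅W, K⁆ ≤ D → W = W₂ :=
    fun W h1 h2 h3 h4 => eq_of_le_of_card_ge h2 (hmin W ⟨h1, h2.trans hW₂W, h3, h4⟩)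
  have hcomm : ⁅⁅W₂, Q⁆, K⁆ ≤ D := by
    by_contra hn
    have hle : ⁅W₂, Q⁆ ≤ W₂ := le_normalizer_iff_commutator_le_left.1 (c.hQH.trans hHW₂)
    have e := hsmall (D ⊔ ⁅W₂, Q⁆) le_sup_left (sup_le hDW₂ hle)
      (H83.le_normalizer_sup hD (H83.le_normalizer_commutator hHW₂ c.hHQ))
      (fun h => hn ((commutator_mono le_sup_right le_rfl).trans h))
    refine hW₂ne ((commutator_mono (le_of_le_sup_commutator c.hQp (hW₂U.trans hUQ) hW₂U
      (hDW₂.trans hW₂U) hUc (c.hQH.trans hHW₂) (c.hQH.trans hD) e.ge) le_rfl).trans ?_)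
    exact le_normalizer_iff_commutator_le_left.1 ((oddGenerated_le H).trans hD)
  let W₁ : Subgroup G :=
    { carrier := {w | w ∈ W₂ ∧ ∀ k ∈ K, ⁅w, k⁆ ∈ D}
      one_mem' := ⟨one_mem _, fun k _ => by simp [one_mem]⟩
      mul_mem' := by
        rintro a b ⟨ha, a1⟩ ⟨hb, b1⟩
        refine ⟨mul_mem ha hb, fun k hk => ?_⟩
        rw [show ⁅a * b, k⁆ = a * ⁅b, k⁆ * a⁻¹ * ⁅a, k⁆ by simp only [commutatorElement_def]; group]
        refine mul_mem ?_ (a1 k hk)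
        rw [← mem_centralizer_iff.1 (hUc (hW₂U ha)) _ (hW₂U (hDW₂ (b1 k hk))), mul_inv_cancel_right]
        exact b1 k hk
      inv_mem' := by
        rintro a ⟨ha, a1⟩
        refine ⟨inv_mem ha, fun k hk => ?_⟩
        rw [show ⁅a⁻¹, k⁆ = a⁻¹ * ⁅a, k⁆⁻¹ * a by simp only [commutatorElement_def]; group,
          ← mem_centralizer_iff.1 (hUc (hW₂U (inv_mem ha))) _ (inv_mem (hW₂U (hDW₂ (a1 k hk)))),
          inv_mul_cancel_right]
        exact inv_mem (a1 k hk) }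
  refine ⟨W₁, W₂, fun d hd => ⟨hDW₂ hd, fun k hk => ?_⟩, fun w hw => hw.1, hW₂W, ?_, hHW₂, ?_, ?_⟩
  · exact le_normalizer_iff_commutator_le_left.1 ((oddGenerated_le H).trans hD) (commutator_mem_commutator hd hk)
  · refine le_normalizer_of_forall fun h hh w hw => ⟨H34.conj_mem_of_mem_normalizer (hHW₂ hh) hw.1, fun k hk => ?_⟩
    have h1 := H34.conj_mem_of_mem_normalizer (hD hh) (hw.2 _ ((mem_normalizer_iff''.1 (c.hHK hh) k).1 hk))
    rwa [show h * ⁅w, h⁻¹ * k * h⁆ * h⁻¹ = ⁅h * w * h⁻¹, k⁆ by simp only [commutatorElement_def]; group] at h1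
  · exact commutator_le.2 fun w hw q hq => ⟨le_normalizer_iff_commutator_le_left.1 (c.hQH.trans hHW₂)
      (commutator_mem_commutator hw hq), fun k hk => hcomm (commutator_mem_commutator
      (commutator_mem_commutator hw hq) hk)⟩
  · intro h
    refine hW₂ne ?_
    rw [← c.comm_idem ((c.hQp.to_le hUQ).to_le hW₂U) hHW₂]
    refine commutator_le.2 fun w hw k hk => (h hw).2 k hk

/-- If exactly one chief factor is noncentral, `[O₂(H), O²(H)]` centralises `U`. -/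
theorem Ctx.one_factor (hq : QFail V) {U : Subgroup G} (hVU : V ≤ U) (hUel : Cfsg.IsElementaryAbelian 2 U)
    (hUQ : U ≤ Cfsg.pCoreOf 2 H) (hHU : H ≤ normalizer (U : Set G))
    (hUK : ¬ Cfsg.oddGenerated H ≤ centralizer (U : Set G))
    (hgen : ∀ Y : Subgroup G, Y ≤ U → V ≤ Y → H ≤ normalizer (Y : Set G) → Y = U)
    (hU2 : ∀ D : Subgroup G, D ≤ U → H ≤ normalizer (D : Set G) →
      Cfsg.oddGenerated H ≤ centralizer (D : Set G) ∨ ⁅U, Cfsg.oddGenerated H⁆ ≤ D)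
    (hQU : ⁅U, Cfsg.pCoreOf 2 H⁆ ≤ centralizer (Cfsg.oddGenerated H : Set G)) :
    ⁅Cfsg.pCoreOf 2 H, Cfsg.oddGenerated H⁆ ≤ centralizer (U : Set G) := by
  classical
  set K := Cfsg.oddGenerated H
  set Q := Cfsg.pCoreOf 2 H
  set Q₀ := ⁅Q, K⁆
  have hKH : K ≤ H := oddGenerated_le H
  have hQ₀Q : Q₀ ≤ Q := le_normalizer_iff_commutator_le_left.1 (hKH.trans c.hHQ)
  have hQ₀K : ⁅Q₀, K⁆ = Q₀ := c.comm_idem c.hQp c.hHQ
  have hHQ₀ : H ≤ normalizer (Q₀ : Set G) := H83.le_normalizer_commutator c.hHQ c.hHK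
  have hUc := le_centralizer_self hUel
  have hUQU : ⁅U, Q⁆ ≤ U := le_normalizer_iff_commutator_le_left.1 (c.hQH.trans hHU)
  set C₀ := U ⊓ centralizer (K : Set G)
  have hHC₀ : H ≤ normalizer (C₀ : Set G) := le_normalizer_inf' hHU (le_normalizer_centralizer c.hHK)
  -- `Q₀` centralises the fixed points
  have hQ₀C₀ : ⁅Q₀, C₀⁆ = ⊥ := by
    refine commutator_commutator_eq_bot_of_rotate ?_ ?_
    · rw [commutator_comm K C₀, commutator_eq_bot_iff_le_centralizer.2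
        (inf_le_right : C₀ ≤ centralizer (K : Set G))]
      exact le_bot_iff.1 (commutator_le.2 fun a ha b _ => by
        rw [mem_bot] at ha; rw [ha, commutatorElement_one_left]; exact one_mem _)
    · refine commutator_eq_bot_iff_le_centralizer.2 ((commutator_mono inf_le_left le_rfl).trans hQU)
  by_contra hne
  set Z := ⁅U, Q₀⁆
  have hZC₀ : Z ≤ C₀ :=
    le_inf ((commutator_mono le_rfl hQ₀Q).trans hUQU) ((commutator_mono le_rfl hQ₀Q).trans hQU)
  have hHZ : H ≤ normalizer (Z : Set G) := H83.le_normalizer_commutator hHU hHQ₀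
  have hZne : Z ≠ ⊥ := fun e => hne (le_centralizer_iff.1 (commutator_eq_bot_iff_le_centralizer.1 e))
  have hTH := c.hTH
  -- a maximal invariant subgroup of index two
  obtain ⟨Z₁, ⟨hZ₁Z, hZ₁ne, hTZ₁⟩, hmax⟩ := Set.exists_max_image
    {Y : Subgroup G | Y ≤ Z ∧ Y ≠ Z ∧ (T : Subgroup G) ≤ normalizer (Y : Set G)} (fun Y => Nat.card Y)
    (Set.toFinite _) ⟨⊥, bot_le, Ne.symm hZne, fun t _ => mem_normalizer_of_cj_eq (cj_bot t)⟩
  have hUT : U ≤ (T : Subgroup G) := hUQ.trans c.hQT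
  have hZU : Z ≤ U := hZC₀.trans inf_le_left
  have hZT : ⁅Z, (T : Subgroup G)⁆ ≤ Z₁ := by
    by_contra hn
    have hle : ⁅Z, (T : Subgroup G)⁆ ≤ Z := le_normalizer_iff_commutator_le_left.1 (hTH.trans hHZ)
    have hTn : (T : Subgroup G) ≤ normalizer ((Z₁ ⊔ ⁅Z, (T : Subgroup G)⁆ : Subgroup G) : Set G) :=
      H83.le_normalizer_sup hTZ₁ (H83.le_normalizer_commutator (hTH.trans hHZ) le_normalizer)
    by_cases he : Z₁ ⊔ ⁅Z, (T : Subgroup G)⁆ = Z
    · exact hZ₁ne (le_antisymm hZ₁Z (le_of_le_sup_commutator T.2 (hZU.trans hUT) hZU (hZ₁Z.trans hZU) hUc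
        (hTH.trans hHZ) hTZ₁ he.ge))
    · exact hn (le_trans le_sup_right (eq_of_le_of_card_ge le_sup_left
        (hmax _ ⟨sup_le hZ₁Z hle, he, hTn⟩)).ge)
  have htwo : ∀ z ∈ Z, ∀ z' ∈ Z, z ∉ Z₁ → z' ∉ Z₁ → z * z' ∈ Z₁ := by
    intro z hz z' hz' hn hn'
    have hS : Z₁ ⊔ zpowers z ≤ Z := sup_le hZ₁Z (zpowers_le.2 hz)
    have hTn : (T : Subgroup G) ≤ normalizer ((Z₁ ⊔ zpowers z : Subgroup G) : Set G) :=
      le_normalizer_iff_commutator_le_left.2 ((commutator_mono hS le_rfl).trans (hZT.trans le_sup_left))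
    have he : Z₁ ⊔ zpowers z = Z := by
      by_contra he
      exact hn ((eq_of_le_of_card_ge le_sup_left (hmax _ ⟨hS, he, hTn⟩)).ge (mem_sup_right (mem_zpowers z)))
    have hz'' : z' ∈ Z₁ ⊔ zpowers z := he.symm ▸ hz'
    rw [← SetLike.mem_coe, coe_mul_of_left_le_normalizer_right _ _ (le_normalizer_of_le_centralizer
      (((hZ₁Z.trans hZU).trans hUc).trans (centralizer_le (zpowers_le.2 (hZU hz)))))] at hz''
    obtain ⟨a, ha, _, ⟨k, rfl⟩, rfl⟩ := hz''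
    have hz2 : z ^ (2 : ℤ) = 1 := by rw [zpow_two, ← pow_two]; exact hUel.2 z (hZU hz)
    rcases Int.even_or_odd' k with ⟨j, rfl | rfl⟩
    · exfalso; refine hn' ?_
      show a * z ^ (2 * j) ∈ Z₁
      rw [zpow_mul, hz2, one_zpow, mul_one]; exact ha
    · show z * (a * z ^ (2 * j + 1)) ∈ Z₁
      have e : z * a = a * z := (mem_centralizer_iff.1 (hUc (hZU hz)) a (hZU (hZ₁Z ha))).symm
      rw [zpow_add, zpow_mul, hz2, one_zpow, one_mul, zpow_one, ← mul_assoc, e, mul_assoc, ← pow_two,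
        hUel.2 z (hZU hz), mul_one]
      exact ha
  have hKZ₁ : K ≤ centralizer (Z₁ : Set G) := le_centralizer_iff.1 ((hZ₁Z.trans hZC₀).trans inf_le_right)
  have hHZ₁ : H ≤ normalizer (Z₁ : Set G) := c.normalizes_of hTZ₁ (le_normalizer_of_le_centralizer hKZ₁)
  have hQ₀Z₁ : ∀ q ∈ Q₀, ∀ z ∈ Z₁, q * z = z * q := fun q hq z hz =>
    (mem_centralizer_iff.1 ((commutator_eq_bot_iff_le_centralizer.1 hQ₀C₀) hq) z (hZC₀ (hZ₁Z hz))).symm
  -- the left kernel
  let UZ : Subgroup G :=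
    { carrier := {x | x ∈ U ∧ ∀ q ∈ Q₀, ⁅x, q⁆ ∈ Z₁}
      one_mem' := ⟨one_mem _, fun q _ => by simp [one_mem]⟩
      mul_mem' := by
        rintro a b ⟨ha, a1⟩ ⟨hb, b1⟩
        refine ⟨mul_mem ha hb, fun q hq => ?_⟩
        rw [show ⁅a * b, q⁆ = a * ⁅b, q⁆ * a⁻¹ * ⁅a, q⁆ by simp only [commutatorElement_def]; group,
          ← mem_centralizer_iff.1 (hUc ha) _ (hZU (hZ₁Z (b1 q hq))), mul_inv_cancel_right]
        exact mul_mem (b1 q hq) (a1 q hq)
      inv_mem' := by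
        rintro a ⟨ha, a1⟩
        refine ⟨inv_mem ha, fun q hq => ?_⟩
        rw [show ⁅a⁻¹, q⁆ = a⁻¹ * ⁅a, q⁆⁻¹ * a by simp only [commutatorElement_def]; group,
          ← mem_centralizer_iff.1 (hUc (inv_mem ha)) _ (inv_mem (hZU (hZ₁Z (a1 q hq)))), inv_mul_cancel_right]
        exact inv_mem (a1 q hq) }
  have hHUZ : H ≤ normalizer (UZ : Set G) := le_normalizer_of_forall fun h hh w hw =>
    ⟨H34.conj_mem_of_mem_normalizer (hHU hh) hw.1, fun q hq => by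
      have h1 := H34.conj_mem_of_mem_normalizer (hHZ₁ hh) (hw.2 _ ((mem_normalizer_iff''.1 (hHQ₀ hh) q).1 hq))
      rwa [show h * ⁅w, h⁻¹ * q * h⁆ * h⁻¹ = ⁅h * w * h⁻¹, q⁆ by simp only [commutatorElement_def]; group] at h1⟩
  have hUZC : UZ ≤ C₀ := by
    rcases hU2 UZ (fun x hx => hx.1) hHUZ with h | h
    · exact le_inf (fun x hx => hx.1) (le_centralizer_iff.1 h)
    exfalso
    have hS : ⁅⁅U, K⁆, Q₀⁆ ≤ Z₁ := commutator_le.2 fun x hx q hq => (h hx).2 q hq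
    refine hZ₁ne (le_antisymm hZ₁Z ?_)
    -- three subgroups modulo `Z₁`
    haveI : (Z₁.subgroupOf H).Normal :=
      (normal_subgroupOf_iff_le_normalizer ((hZ₁Z.trans hZU).trans (hUQ.trans c.hQH))).2 hHZ₁
    have hUH : U ≤ H := hUQ.trans c.hQH
    have hQ₀H : Q₀ ≤ H := hQ₀Q.trans c.hQH
    have key : ⁅⁅Q₀.subgroupOf H, K.subgroupOf H⁆, U.subgroupOf H⁆ ≤ Z₁.subgroupOf H := by
      have hc : ∀ X Y : Subgroup G, X ≤ H → Y ≤ H → (⁅X.subgroupOf H, Y.subgroupOf H⁆).map H.subtype = ⁅X, Y⁆ :=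
        fun X Y hX hY => by
          rw [Subgroup.map_commutator, subgroupOf_map_subtype, subgroupOf_map_subtype, inf_eq_left.2 hX,
            inf_eq_left.2 hY]
      refine H88.commutator_commutator_le_of_rotate ?_ ?_
      · rw [← map_le_map_iff_of_injective H.subtype_injective, Subgroup.map_commutator, hc K U hKH hUH,
          subgroupOf_map_subtype, subgroupOf_map_subtype, inf_eq_left.2 hQ₀H,
          inf_eq_left.2 ((hZ₁Z.trans hZU).trans hUH), commutator_comm K U]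
        exact hS
      · rw [← map_le_map_iff_of_injective H.subtype_injective, Subgroup.map_commutator, hc U Q₀ hUH hQ₀H,
          subgroupOf_map_subtype, subgroupOf_map_subtype, inf_eq_left.2 hKH,
          inf_eq_left.2 ((hZ₁Z.trans hZU).trans hUH),
          commutator_eq_bot_iff_le_centralizer.2 (hZC₀.trans inf_le_right)]
        exact bot_le
    have h1 := map_mono (f := H.subtype) key
    rw [Subgroup.map_commutator, Subgroup.map_commutator, subgroupOf_map_subtype, subgroupOf_map_subtype,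
      subgroupOf_map_subtype, subgroupOf_map_subtype, inf_eq_left.2 hQ₀H, inf_eq_left.2 hKH, inf_eq_left.2 hUH,
      inf_eq_left.2 ((hZ₁Z.trans hZU).trans hUH), hQ₀K, commutator_comm] at h1
    exact h1
  -- the count
  have hVC : ¬ V ≤ centralizer (K : Set G) := by
    intro h
    refine hUK (le_centralizer_iff.1 ?_)
    rw [← hgen C₀ inf_le_left (le_inf hVU h) hHC₀]
    exact inf_le_right
  set Bc := Q₀ ⊓ centralizer (V : Set G)
  have hcount : C₀.relIndex V ≤ Bc.relIndex Q₀ := by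
    refine relIndex_le_of_pairing (Z := Z) (Z₁ := Z₁) (c.hQp.to_le hQ₀Q) inf_le_left
      (fun v hv q hq => ?_) (fun v hv q hq => commutator_mem_commutator (hVU hv) hq)
      (fun v hv z hz => (mem_centralizer_iff.1 (hUc (hVU hv)) z (hZU hz)).symm) hQ₀Z₁
      (fun z hz z' hz' => mem_centralizer_iff.1 (hUc (hZU hz')) z (hZU hz)) htwo hZ₁Z
      (fun v hv h => hUZC ⟨hVU hv, h⟩)
    rw [commutatorElement_eq_one_iff_mul_comm.2 (mem_centralizer_iff.1 hq.2 v hv)]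
    exact one_mem _
  have hQ₀C₀' : Q₀ ≤ centralizer (C₀ : Set G) := commutator_eq_bot_iff_le_centralizer.1 hQ₀C₀
  have hquad : ⁅⁅V, Q₀⁆, Q₀⁆ = ⊥ := commutator_eq_bot_iff_le_centralizer.2
    (((commutator_mono hVU le_rfl).trans hZC₀).trans (le_centralizer_iff.1 hQ₀C₀'))
  have hZsq : ∀ q ∈ Q₀, q ^ 2 ∈ centralizer (V : Set G) := fun q hq =>
    sq_mem_centralizer (A := C₀) (fun a ha => by rw [← pow_two]; exact hUel.2 a ha.1) (hQ₀C₀' hq)
      fun v hv => hZC₀ (commutator_mem_commutator (hVU hv) hq)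
  have hgain : (centralizer (V : Set G)).relIndex Q₀ = Bc.relIndex Q₀ := (inf_relIndex_left Q₀ _).symm
  have hcost : (centralizer (Q₀ : Set G)).relIndex V ≤ C₀.relIndex V := by
    rw [← inf_relIndex_right C₀]
    exact relIndex_le_of_le_left (fun x hx => (le_centralizer_iff.1 hQ₀C₀') hx.1) index_ne_zero_of_finite
  have hgt : ¬ Q₀ ≤ centralizer (V : Set G) := fun h => by
    have h1 : Bc.relIndex Q₀ = 1 := relIndex_eq_one.2 (le_inf le_rfl h)
    have h2 : C₀.relIndex V = 1 := le_antisymm (h1 ▸ hcount) (relIndex_pos _ _)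
    exact hVC ((relIndex_eq_one.1 h2).trans inf_le_right)
  have hcomm : ∀ a ∈ Q₀, ∀ b ∈ Q₀, a * b * a⁻¹ * b⁻¹ ∈ centralizer (V : Set G) := by
    intro a ha b hb
    have h1 : ∀ x ∈ Q₀, x * x ∈ centralizer (V : Set G) := fun x hx => by rw [← pow_two]; exact hZsq x hx
    have h2 : ∀ y ∈ centralizer (V : Set G), a * y * a⁻¹ ∈ centralizer (V : Set G) := fun y hy =>
      H34.conj_mem_of_mem_normalizer (le_normalizer_centralizer ((hQ₀Q.trans c.hQV)) ha) hy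
    have h3 : ∀ y ∈ centralizer (V : Set G), (a * b) * y * (a * b)⁻¹ ∈ centralizer (V : Set G) := fun y hy =>
      H34.conj_mem_of_mem_normalizer (le_normalizer_centralizer ((hQ₀Q.trans c.hQV)) (mul_mem ha hb)) hy
    rw [show a * b * a⁻¹ * b⁻¹ = (a * b) * (a * b) * ((b⁻¹ * (a⁻¹ * a⁻¹) * b) * (b⁻¹ * b⁻¹)) by group]
    refine mul_mem (h1 _ (mul_mem ha hb)) (mul_mem ?_ (h1 _ (inv_mem hb)))
    have := H34.conj_mem_of_mem_normalizer (le_normalizer_centralizer ((hQ₀Q.trans c.hQV)) (inv_mem hb))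
      (h1 _ (inv_mem ha))
    rwa [inv_inv] at this
  have hlt := hq Q₀ (c.hQp.to_le hQ₀Q) (hQ₀Q.trans c.hQV) ⟨hgt, hZsq, hcomm⟩ hquad
  rw [inf_centralizer_relIndex, hgain] at hlt
  have hpos := relIndex_pos Bc Q₀
  nlinarith

end Cfsg.Agent.H60.Qrc
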