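import Cfsg.Agent.H73.QT.Common
import Cfsg.Agent.H34.Para.Setup
import Cfsg.Agent.H28.BaerSuzuki
import Cfsg.Prelude.Def_Quasithin
import Mathlib

/-!
Tools for the qrc lemma: conjugation of parameters, mutual normalisation of conjugates of an abelian
subgroup, Sylow intersections with products of normal subgroups.
-/

set_option autoImplicit false
set_option linter.style.haveILetI false
set_option linter.unusedSectionVars false

open scoped commutatorElement

namespace Cfsg.Agent.H60.Qrc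

open Subgroup
open Cfsg.Agent.H34.MinOffender (cj mem_cj card_cj conj_mem_cj)
open Cfsg.Agent.H34.Para (cj_mul cj_one cj_mono cj_le cj_eq_self cj_inv_cj cj_cj_inv cj_eq_of_mem_normalizer mem_normalizer_of_cj_eq)

variable {G : Type*} [Group G]

theorem cj_inj {x : G} {A B : Subgroup G} (h : cj x A = cj x B) : A = B := by
  rw [← cj_inv_cj x A, h, cj_inv_cj]

theorem cj_le_cj_iff {x : G} {A B : Subgroup G} : cj x A ≤ cj x B ↔ A ≤ B :=
  ⟨fun h => by simpa [cj_inv_cj] using cj_mono x⁻¹ h, cj_mono x⟩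

theorem cj_sup (x : G) (A B : Subgroup G) : cj x (A ⊔ B) = cj x A ⊔ cj x B := Subgroup.map_sup _ _ _

theorem cj_inf (x : G) (A B : Subgroup G) : cj x (A ⊓ B) = cj x A ⊓ cj x B :=
  Subgroup.map_inf _ _ _ (MulAut.conj x).injective

theorem cj_iSup {ι : Sort*} (x : G) (A : ι → Subgroup G) : cj x (⨆ i, A i) = ⨆ i, cj x (A i) :=
  Subgroup.map_iSup _ _

theorem cj_comm (x : G) (A B : Subgroup G) : cj x ⁅A, B⁆ = ⁅cj x A, cj x B⁆ :=
  Subgroup.map_commutator _ _ _

theorem cj_bot (x : G) : cj x (⊥ : Subgroup G) = ⊥ := Subgroup.map_bot _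

theorem conj_mem_cj_iff {x v : G} {A : Subgroup G} : x * v * x⁻¹ ∈ cj x A ↔ v ∈ A := by
  rw [mem_cj]; simp [mul_assoc]

theorem cj_centralizer (x : G) (A : Subgroup G) :
    cj x (centralizer (A : Set G)) = centralizer (cj x A : Set G) := by
  refine le_antisymm ?_ ?_
  · rintro _ ⟨c, hc, rfl⟩
    exact mem_centralizer_iff.2 fun _ hw => by
      obtain ⟨a, ha, rfl⟩ := hw
      rw [← map_mul, ← map_mul, mem_centralizer_iff.1 hc a ha]
  · intro c hc
    rw [mem_cj, mem_centralizer_iff]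
    intro a ha
    have := mem_centralizer_iff.1 hc _ (conj_mem_cj (x := x) ha)
    calc a * (x⁻¹ * c * x) = x⁻¹ * (x * a * x⁻¹ * c) * x := by group
      _ = x⁻¹ * (c * (x * a * x⁻¹)) * x := by rw [this]
      _ = _ := by group

theorem cj_normalizer (x : G) (A : Subgroup G) :
    cj x (normalizer (A : Set G)) = normalizer (cj x A : Set G) := by
  ext g
  rw [mem_cj]
  constructor
  · intro h
    refine mem_normalizer_of_cj_eq ?_
    calc cj g (cj x A) = cj x (cj (x⁻¹ * g * x) A) := by rw [← cj_mul, ← cj_mul]; congr 1; group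
      _ = cj x A := by rw [cj_eq_of_mem_normalizer h]
  · intro h
    refine mem_normalizer_of_cj_eq (cj_inj (x := x) ?_)
    calc cj x (cj (x⁻¹ * g * x) A) = cj g (cj x A) := by rw [← cj_mul, ← cj_mul]; congr 1; group
      _ = cj x A := cj_eq_of_mem_normalizer h

theorem relIndex_cj (x : G) (A B : Subgroup G) : (cj x A).relIndex (cj x B) = A.relIndex B :=
  relIndex_map_map_of_injective A B (f := (MulAut.conj x).toMonoidHom) (MulAut.conj x).injective

theorem isPGroup_cj {p : ℕ} {B : Subgroup G} (h : IsPGroup p B) (x : G) : IsPGroup p (cj x B) :=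
  h.map _

theorem isElementaryAbelian_cj {p : ℕ} {B : Subgroup G} (h : Cfsg.IsElementaryAbelian p B) (x : G) :
    Cfsg.IsElementaryAbelian p (cj x B) := by
  refine ⟨IsMulCommutative.of_comm fun a b => Subtype.ext ?_, ?_⟩
  · obtain ⟨a', ha, ea⟩ := a.2
    obtain ⟨b', hb, eb⟩ := b.2
    haveI := h.1
    show (a : G) * b = b * a
    rw [← ea, ← eb, ← map_mul, ← map_mul, setLike_mul_comm (s := B) ha hb]
  · rintro _ ⟨a, ha, rfl⟩
    rw [← map_pow, h.2 a ha, map_one]

theorem isPGroup_two {B : Subgroup G} (h : Cfsg.IsElementaryAbelian 2 B) : IsPGroup 2 B :=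
  fun g => ⟨1, Subtype.ext (by simpa using h.2 g g.2)⟩

theorem le_centralizer_self {B : Subgroup G} (h : Cfsg.IsElementaryAbelian 2 B) :
    B ≤ centralizer (B : Set G) := by
  haveI := h.1
  exact le_centralizer B

theorem induces_cj {B V : Subgroup G} (h : Cfsg.InducesElemAbelianTwoGroupOn B V) (x : G) :
    Cfsg.InducesElemAbelianTwoGroupOn (cj x B) (cj x V) := by
  obtain ⟨h1, h2, h3⟩ := h
  refine ⟨?_, ?_, ?_⟩
  · rwa [← cj_centralizer, cj_le_cj_iff]
  · rintro _ ⟨b, hb, rfl⟩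
    rw [← cj_centralizer, ← map_pow]
    exact ⟨_, h2 b hb, rfl⟩
  · rintro _ ⟨b, hb, rfl⟩ _ ⟨b', hb', rfl⟩
    rw [← cj_centralizer, ← map_inv, ← map_inv, ← map_mul, ← map_mul, ← map_mul]
    exact ⟨_, h3 b hb b' hb', rfl⟩

theorem induces_of_elementary {B V : Subgroup G} (hB : Cfsg.IsElementaryAbelian 2 B)
    (hne : ¬ B ≤ centralizer (V : Set G)) : Cfsg.InducesElemAbelianTwoGroupOn B V := by
  haveI := hB.1
  refine ⟨hne, fun b hb => by rw [hB.2 b hb]; exact one_mem _, fun b hb b' hb' => ?_⟩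
  rw [setLike_mul_comm (s := B) hb hb']
  simp [one_mem]

/-! ### Failure of the parameters -/

/-- No `2`-subgroup of `N(V)` acts quadratically with cost at most the square of its gain. -/
def QFail (V : Subgroup G) : Prop :=
  ∀ B : Subgroup G, IsPGroup 2 B → B ≤ normalizer (V : Set G) →
    Cfsg.InducesElemAbelianTwoGroupOn B V → ⁅⁅V, B⁆, B⁆ = ⊥ →
      ((centralizer (V : Set G)).relIndex B) ^ 2 < (V ⊓ centralizer (B : Set G)).relIndex V

/-- The same for cubic action. -/
def CFail (V : Subgroup G) : Prop :=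
  ∀ B : Subgroup G, IsPGroup 2 B → B ≤ normalizer (V : Set G) →
    Cfsg.InducesElemAbelianTwoGroupOn B V → ⁅⁅⁅V, B⁆, B⁆, B⁆ = ⊥ →
      ((centralizer (V : Set G)).relIndex B) ^ 2 < (V ⊓ centralizer (B : Set G)).relIndex V

theorem QFail.cj {V : Subgroup G} (h : QFail V) (x : G) : QFail (cj x V) := by
  intro B hB hBN hind hquad
  have e : ∀ X : Subgroup G, X = H34.MinOffender.cj x (H34.MinOffender.cj x⁻¹ X) :=
    fun X => (cj_cj_inv x X).symm
  set B' := H34.MinOffender.cj x⁻¹ B with hB'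
  have hBe : B = H34.MinOffender.cj x B' := e B
  have hind' := induces_cj hind x⁻¹
  rw [cj_inv_cj] at hind'
  have hlt := h B' (isPGroup_cj hB _) ?_ hind' ?_
  · rw [hBe, ← cj_centralizer, ← cj_centralizer, ← cj_inf, relIndex_cj, relIndex_cj]
    exact hlt
  · rw [← cj_le_cj_iff (x := x), ← hBe, cj_normalizer]
    exact hBN
  · refine cj_inj (x := x) ?_
    rw [cj_comm, cj_comm, ← hBe, hquad, cj_bot]

theorem CFail.cj {V : Subgroup G} (h : CFail V) (x : G) : CFail (cj x V) := by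
  intro B hB hBN hind hquad
  have e : ∀ X : Subgroup G, X = H34.MinOffender.cj x (H34.MinOffender.cj x⁻¹ X) :=
    fun X => (cj_cj_inv x X).symm
  set B' := H34.MinOffender.cj x⁻¹ B with hB'
  have hBe : B = H34.MinOffender.cj x B' := e B
  have hind' := induces_cj hind x⁻¹
  rw [cj_inv_cj] at hind'
  have hlt := h B' (isPGroup_cj hB _) ?_ hind' ?_
  · rw [hBe, ← cj_centralizer, ← cj_centralizer, ← cj_inf, relIndex_cj, relIndex_cj]
    exact hlt
  · rw [← cj_le_cj_iff (x := x), ← hBe, cj_normalizer]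
    exact hBN
  · refine cj_inj (x := x) ?_
    rw [cj_comm, cj_comm, cj_comm, ← hBe, hquad, cj_bot]

theorem CFail.qfail {V : Subgroup G} (h : CFail V) : QFail V := fun B hB hBN hind hquad =>
  h B hB hBN hind (by rw [hquad]; exact le_bot_iff.1 (commutator_le.2 fun a ha b _ => by
    rw [mem_bot] at ha; rw [ha, commutatorElement_one_left]; exact one_mem _))

variable [Finite G]

theorem exists_conj_le {p : ℕ} [Fact p.Prime] (T : Sylow p G) {Y B : Subgroup G}
    (hTY : (T : Subgroup G) ≤ Y) (hBY : B ≤ Y) (hB : IsPGroup p B) :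
    ∃ x ∈ Y, cj x B ≤ (T : Subgroup G) := by
  obtain ⟨S, hS⟩ := (hB.of_equiv (subgroupOfEquivOfLe hBY).symm).exists_le_sylow
  obtain ⟨x, hx⟩ := MulAction.exists_smul_eq Y S (T.subtype hTY)
  refine ⟨x, x.2, ?_⟩
  rintro _ ⟨b, hb, rfl⟩
  have hm : x * ⟨b, hBY hb⟩ * x⁻¹ ∈ ((T.subtype hTY : Sylow p Y) : Subgroup Y) := by
    rw [← hx]; exact ⟨_, hS (show (⟨b, hBY hb⟩ : Y) ∈ B.subgroupOf Y from hb), rfl⟩
  rw [Sylow.coe_subtype] at hm
  exact mem_subgroupOf.1 hm

theorem qfail_of (T : Sylow 2 G) {M₀ V : Subgroup G} (hT : (T : Subgroup G) ≤ M₀)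
    (hV : M₀ ≤ normalizer (V : Set G)) (h : ¬ Cfsg.QuadParamLE M₀ V 2) : QFail V := by
  intro B hB hBN hind hquad
  obtain ⟨x, hx, hxB⟩ := exists_conj_le T (hT.trans hV) hBN hB
  have hVx : H34.MinOffender.cj x V = V := cj_eq_of_mem_normalizer hx
  by_contra hle
  rw [not_lt] at hle
  have hind' := induces_cj hind x
  rw [hVx] at hind'
  refine h ⟨_, hxB.trans hT, hind', ?_, ?_⟩
  · rw [← hVx, ← cj_comm, ← cj_comm, hquad, cj_bot]
  · rw [← hVx, ← cj_centralizer, ← cj_centralizer, ← cj_inf, relIndex_cj, relIndex_cj]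
    exact hle

theorem cfail_of (T : Sylow 2 G) {M₀ V : Subgroup G} (hT : (T : Subgroup G) ≤ M₀)
    (hV : M₀ ≤ normalizer (V : Set G)) (h : ¬ Cfsg.CubicParamLE M₀ V 2) : CFail V := by
  intro B hB hBN hind hquad
  obtain ⟨x, hx, hxB⟩ := exists_conj_le T (hT.trans hV) hBN hB
  have hVx : H34.MinOffender.cj x V = V := cj_eq_of_mem_normalizer hx
  by_contra hle
  rw [not_lt] at hle
  have hind' := induces_cj hind x
  rw [hVx] at hind'
  refine h ⟨_, hxB.trans hT, hind', ?_, ?_⟩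
  · rw [← hVx, ← cj_comm, ← cj_comm, ← cj_comm, hquad, cj_bot]
  · rw [← hVx, ← cj_centralizer, ← cj_centralizer, ← cj_inf, relIndex_cj, relIndex_cj]
    exact hle

theorem inf_centralizer_relIndex (W B : Subgroup G) :
    (W ⊓ centralizer (B : Set G)).relIndex W = (centralizer (B : Set G)).relIndex W :=
  inf_relIndex_left _ _

theorem relIndex_pos (A B : Subgroup G) : 1 ≤ A.relIndex B :=
  Nat.one_le_iff_ne_zero.2 index_ne_zero_of_finite

/-- Conjugates of `V` normalising each other commute. -/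
theorem asym {V : Subgroup G} (hq : QFail V) (hel : Cfsg.IsElementaryAbelian 2 V) {x y : G}
    (h1 : cj x V ≤ normalizer (cj y V : Set G)) (h2 : cj y V ≤ normalizer (cj x V : Set G)) :
    cj x V ≤ centralizer (cj y V : Set G) := by
  by_contra hne
  have key : ∀ {a b : G}, cj b V ≤ normalizer (cj a V : Set G) → cj a V ≤ normalizer (cj b V : Set G) →
      ¬ cj b V ≤ centralizer (cj a V : Set G) →
      ((centralizer (cj a V : Set G)).relIndex (cj b V)) ^ 2 <
        (centralizer (cj b V : Set G)).relIndex (cj a V) := by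
    intro a b hba hab hn
    rw [← inf_centralizer_relIndex (cj a V) (cj b V)]
    refine hq.cj a _ (isPGroup_cj (isPGroup_two hel) b) hba
      (induces_of_elementary (isElementaryAbelian_cj hel b) hn) (commutator_eq_bot_iff_le_centralizer.2 ?_)
    exact (le_normalizer_iff_commutator_le_right.1 hab).trans (le_centralizer_self (isElementaryAbelian_cj hel b))
  have k1 := key h1 h2 hne
  have k2 := key h2 h1 fun h => hne (le_centralizer_iff.1 h)
  have e1 := relIndex_pos (centralizer (cj y V : Set G)) (cj x V)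
  have e2 := relIndex_pos (centralizer (cj x V : Set G)) (cj y V)
  nlinarith

/-! ### Two-groups -/

/-- Elements stabilising a series with elementary bottom square into the centraliser. -/
theorem sq_mem_centralizer {Q A : Subgroup G} {x : G} (hA : ∀ a ∈ A, a * a = 1)
    (hx : x ∈ centralizer (A : Set G)) (h : ∀ v ∈ Q, ⁅v, x⁆ ∈ A) :
    x ^ 2 ∈ centralizer (Q : Set G) := by
  refine mem_centralizer_iff.2 fun v hv => ?_
  have ha := h v hv
  set a := ⁅v, x⁆ with hadef
  have hinv : a⁻¹ = a := inv_eq_of_mul_eq_one_right (hA a ha)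
  have h2 : x * a * x⁻¹ = a := by rw [← mem_centralizer_iff.1 hx a ha, mul_inv_cancel_right]
  have h1 : x * v * x⁻¹ = a * v := by
    conv_rhs => rw [← hinv, hadef, commutatorElement_def]
    group
  have : x ^ 2 * v * (x ^ 2)⁻¹ = v := by
    calc x ^ 2 * v * (x ^ 2)⁻¹ = x * (x * v * x⁻¹) * x⁻¹ := by rw [pow_two]; group
      _ = x * (a * v) * x⁻¹ := by rw [h1]
      _ = (x * a * x⁻¹) * (x * v * x⁻¹) := by group
      _ = v := by rw [h1, h2, ← mul_assoc, hA a ha, one_mul]
  conv_lhs => rw [← this]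
  group

theorem isPGroup_of_sq {X Q : Subgroup G} (hQ : IsPGroup 2 Q) (h : ∀ x ∈ X, x ^ 2 ∈ Q) : IsPGroup 2 X := by
  rintro ⟨x, hx⟩
  obtain ⟨k, hk⟩ := hQ ⟨x ^ 2, h x hx⟩
  refine ⟨k + 1, Subtype.ext ?_⟩
  have := congrArg Subtype.val hk
  show x ^ 2 ^ (k + 1) = 1
  rw [pow_succ', pow_mul]
  simpa using this

theorem card_sup_mul_card_inf_normal (A B : Subgroup G) [B.Normal] :
    Nat.card ↥(A ⊔ B) * Nat.card ↥(A ⊓ B) = Nat.card A * Nat.card B := by
  have h1 : Nat.card B * B.relIndex (A ⊔ B) = Nat.card ↥(A ⊔ B) := by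
    rw [← relIndex_bot_left, ← relIndex_bot_left, relIndex_mul_relIndex _ _ _ bot_le le_sup_right]
  have h2 : Nat.card ↥(A ⊓ B) * (A ⊓ B).relIndex A = Nat.card A := by
    rw [← relIndex_bot_left, ← relIndex_bot_left, relIndex_mul_relIndex _ _ _ bot_le inf_le_left]
  have h3 : (A ⊓ B).relIndex A = B.relIndex (A ⊔ B) := by
    rw [inf_relIndex_left, relIndex_sup_right]
  rw [← h1, ← h2, h3]
  ring

theorem card_sup_mul_card_inf_of_le_normalizer {A B : Subgroup G} (h : A ≤ normalizer (B : Set G)) :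
    Nat.card ↥(A ⊔ B) * Nat.card ↥(A ⊓ B) = Nat.card A * Nat.card B := by
  haveI : (B.subgroupOf (A ⊔ B)).Normal :=
    (normal_subgroupOf_iff_le_normalizer le_sup_right).2 (sup_le h le_normalizer)
  have e := card_sup_mul_card_inf_normal (A.subgroupOf (A ⊔ B)) (B.subgroupOf (A ⊔ B))
  rwa [← subgroupOf_sup le_sup_left le_sup_right, show A.subgroupOf (A ⊔ B) ⊓ B.subgroupOf (A ⊔ B) = (A ⊓ B).subgroupOf (A ⊔ B) from (comap_inf _ _ _).symm,
    Nat.card_congr (subgroupOfEquivOfLe (le_sup_left : A ≤ A ⊔ B)).toEquiv,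
    Nat.card_congr (subgroupOfEquivOfLe (le_sup_right : B ≤ A ⊔ B)).toEquiv,
    Nat.card_congr (subgroupOfEquivOfLe (le_refl (A ⊔ B))).toEquiv,
    Nat.card_congr (subgroupOfEquivOfLe (inf_le_left.trans le_sup_left : A ⊓ B ≤ A ⊔ B)).toEquiv] at e

theorem commutator_iSup_le {ι : Sort*} {X W : Subgroup G} {B : ι → Subgroup G}
    (hN : ∀ i, B i ≤ normalizer (W : Set G)) (h : ∀ i, ⁅X, B i⁆ ≤ W) : ⁅X, ⨆ i, B i⁆ ≤ W := by
  let S : Subgroup G :=
    { carrier := {g | g ∈ normalizer (W : Set G) ∧ ∀ v ∈ X, ⁅v, g⁆ ∈ W}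
      one_mem' := ⟨one_mem _, fun v _ => by simp [one_mem]⟩
      mul_mem' := by
        rintro a b ⟨ha, a1⟩ ⟨hb, b1⟩
        refine ⟨mul_mem ha hb, fun v hv => ?_⟩
        rw [show ⁅v, a * b⁆ = ⁅v, a⁆ * (a * ⁅v, b⁆ * a⁻¹) by simp only [commutatorElement_def]; group]
        exact mul_mem (a1 v hv) ((mem_normalizer_iff.1 ha _).1 (b1 v hv))
      inv_mem' := by
        rintro a ⟨ha, a1⟩
        refine ⟨inv_mem ha, fun v hv => ?_⟩
        rw [show ⁅v, a⁻¹⁆ = a⁻¹ * ⁅v, a⁆⁻¹ * a by simp only [commutatorElement_def]; group]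
        exact (mem_normalizer_iff''.1 ha _).1 (inv_mem (a1 v hv)) }
  have hle : (⨆ i, B i) ≤ S := iSup_le fun i g hg =>
    ⟨hN i hg, fun v hv => h i (commutator_mem_commutator hv hg)⟩
  exact commutator_le.2 fun v hv g hg => (hle hg).2 v hv

/-- A subgroup generating `2`-groups with all its conjugates in `Y` lies in `O₂(Y)`. -/
theorem baer_in {X Y : Subgroup G} (hXY : X ≤ Y) (h : ∀ g ∈ Y, IsPGroup 2 ↥(X ⊔ cj g X)) :
    X ≤ Cfsg.pCoreOf 2 Y := by
  obtain ⟨N, hN, hNp, hXN⟩ := H28.baer_suzuki_subgroup (p := 2) (X.subgroupOf Y) fun g => by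
    refine ((h g g.2).comap_of_injective Y.subtype Y.subtype_injective).to_le ?_
    refine sup_le (fun x hx => mem_sup_left hx) ?_
    rintro _ ⟨x, hx, rfl⟩
    exact mem_sup_right (conj_mem_cj (x := (g : G)) hx)
  exact fun x hx => ⟨⟨x, hXY hx⟩, H72.le_pCore hN hNp (hXN hx), rfl⟩

/-- In a `p`-group, a proper subgroup lies in a proper normalised one. -/
theorem exists_normal_proper {p : ℕ} [Fact p.Prime] {K E : Subgroup G} (hK : IsPGroup p K) (hE : E ≤ K)
    (hne : E ≠ K) : ∃ K₁, E ≤ K₁ ∧ K₁ ≤ K ∧ K₁ ≠ K ∧ K ≤ normalizer (K₁ : Set G) := by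
  have hne' : E.subgroupOf K ≠ ⊤ := fun h => hne (le_antisymm hE (subgroupOf_eq_top.1 h))
  obtain ⟨C, hC, hle⟩ := (eq_top_or_exists_le_coatom (E.subgroupOf K)).resolve_left hne'
  haveI := hK.isNilpotent
  haveI := NormalizerCondition.normal_of_coatom C Group.normalizerCondition_of_isNilpotent hC
  refine ⟨C.map K.subtype, fun x hx => ⟨⟨x, hE hx⟩, hle hx, rfl⟩, map_subtype_le _, fun e => hC.1 ?_, ?_⟩
  · refine eq_top_iff.2 fun y _ => ?_
    obtain ⟨z, hz, e'⟩ := e.ge y.2
    rwa [show y = z from Subtype.ext e'.symm]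
  · have h := Subgroup.le_normalizer_map (H := C) K.subtype
    rwa [normalizer_eq_top_iff.2 inferInstance, ← MonoidHom.range_eq_map, Subgroup.range_subtype] at h

/-- A Sylow subgroup meets a product of two normal subgroups in the product of the intersections. -/
theorem sylow_inf_sup {p : ℕ} [Fact p.Prime] (T : Sylow p G) (A B : Subgroup G) [A.Normal] [B.Normal] :
    (T : Subgroup G) ⊓ (A ⊔ B) = ((T : Subgroup G) ⊓ A) ⊔ ((T : Subgroup G) ⊓ B) := by
  set S := ((T : Subgroup G) ⊓ A) ⊔ ((T : Subgroup G) ⊓ B)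
  refine le_antisymm ?_ (sup_le (inf_le_inf_left _ le_sup_left) (inf_le_inf_left _ le_sup_right))
  have hle : S ≤ (T : Subgroup G) ⊓ (A ⊔ B) :=
    sup_le (inf_le_inf_left _ le_sup_left) (inf_le_inf_left _ le_sup_right)
  refine le_of_eq (eq_of_le_of_card_ge hle ?_).symm
  have hcardT : ∀ N : Subgroup G, N.Normal →
      Nat.card ↥((T : Subgroup G) ⊓ N) = p ^ (Nat.card N).factorization p := by
    intro N hN
    obtain ⟨S', hS'⟩ := Cfsg.Agent.H44.exists_sylow_eq_subgroupOf T N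
    have e := S'.card_eq_multiplicity
    rw [hS'] at e
    rw [← e]
    exact Nat.card_congr ((subgroupOfEquivOfLe inf_le_right).symm.trans
      (MulEquiv.subgroupCongr (inf_subgroupOf_right _ _))).toEquiv
  have e1 := hcardT A inferInstance
  have e2 := hcardT B inferInstance
  have e3 := hcardT (A ⊔ B) inferInstance
  have e4 := hcardT (A ⊓ B) inferInstance
  have hprod : Nat.card ↥(A ⊔ B) * Nat.card ↥(A ⊓ B) = Nat.card A * Nat.card B := card_sup_mul_card_inf_normal A B
  have hS : Nat.card ↥((T : Subgroup G) ⊓ A) * Nat.card ↥((T : Subgroup G) ⊓ B) ≤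
      Nat.card S * Nat.card ↥((T : Subgroup G) ⊓ (A ⊓ B)) := by
    refine (Cfsg.Agent.H34.card_mul_card_le _ _).trans (Nat.mul_le_mul_left _ (card_le_of_le ?_))
    exact le_inf (inf_le_left.trans inf_le_left) (inf_le_inf inf_le_right inf_le_right)
  rw [e1, e2, e4, ← pow_add] at hS
  rw [e3]
  have hf := congrArg (fun n : ℕ => n.factorization p) hprod
  simp only [Nat.factorization_mul Nat.card_pos.ne' Nat.card_pos.ne', Finsupp.coe_add, Pi.add_apply] at hf
  rw [← hf, pow_add] at hS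
  exact Nat.le_of_mul_le_mul_right hS (pow_pos (Fact.out : p.Prime).pos _)

end Cfsg.Agent.H60.Qrc
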