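import Cfsg.Agent.H60.Qrc.Ctx

/-!
The case `V ≰ O₂(H)`: some subgroup acts cubically with cost at most the square of its gain.
-/

set_option autoImplicit false
set_option linter.style.haveILetI false
set_option linter.unusedSectionVars false
set_option maxHeartbeats 1000000

open scoped commutatorElement

namespace Cfsg.Agent.H60.Qrc

open Subgroup
open Cfsg.Agent
open Cfsg.Agent.H34.MinOffender (cj mem_cj card_cj conj_mem_cj)
open Cfsg.Agent.H34.Para (cj_mul cj_one cj_mono cj_le cj_eq_self cj_inv_cj cj_cj_inv cj_eq_of_mem_normalizer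
  mem_normalizer_of_cj_eq)

universe u

variable {G : Type u} [Group G] [Finite G] {T : Sylow 2 G} {M₀ H N V : Subgroup G}

local notation "QQ" => Cfsg.pCoreOf 2 H
local notation "AA" => V ⊓ Cfsg.pCoreOf 2 H

/-- The elements `z ∈ H` whose `A` is that of `x`, gathered. -/
def memberSup (H V : Subgroup G) (x : G) : Subgroup G :=
  ⨆ z : {z : G // z ∈ H ∧ cj z (V ⊓ Cfsg.pCoreOf 2 H) = cj x (V ⊓ Cfsg.pCoreOf 2 H)}, cj (z : G) V

theorem le_memberSup {x z : G} (hz : z ∈ H) (h : cj z AA = cj x AA) : cj z V ≤ memberSup H V x :=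
  le_iSup (fun z : {z : G // z ∈ H ∧ cj z AA = cj x AA} => cj (z : G) V) ⟨z, hz, h⟩

variable (c : Ctx T M₀ H N V)
include c

theorem Ctx.cjA {h : G} (hh : h ∈ H) : cj h AA = cj h V ⊓ QQ := by rw [cj_inf, c.cj_Q hh]

theorem Ctx.comm_Q_cjV {h : G} (hh : h ∈ H) : ⁅QQ, cj h V⁆ ≤ cj h AA := by
  rw [c.cjA hh]
  exact le_inf (le_normalizer_iff_commutator_le_right.1 (c.Q_normalizes hh))
    (le_normalizer_iff_commutator_le_left.1 ((c.cjV_le hh).trans c.hHQ))

theorem Ctx.cjV_cent_A (h : G) : cj h V ≤ centralizer (cj h AA : Set G) :=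
  (le_centralizer_self (isElementaryAbelian_cj c.hVel h)).trans
    (centralizer_le (cj_mono h inf_le_left))

theorem Ctx.cjA_sq (h : G) : ∀ a ∈ cj h AA, a * a = 1 := fun a ha => by
  rw [← pow_two]; exact (isElementaryAbelian_cj c.hVel h).2 a (cj_mono h inf_le_left ha)

theorem Ctx.T_norm_A : (T : Subgroup G) ≤ normalizer ((AA : Subgroup G) : Set G) :=
  (le_inf c.hTV (c.hTH.trans c.hHQ)).trans inf_normalizer_le_normalizer_inf

/-- A subgroup stabilising `O₂(H) > A > 1` is a `2`-group. -/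
theorem Ctx.isPGroup_stab {X A : Subgroup G} (hX : X ≤ H) (hA : ∀ a ∈ A, a * a = 1)
    (hXA : X ≤ centralizer (A : Set G)) (h : ⁅QQ, X⁆ ≤ A) : IsPGroup 2 X :=
  isPGroup_of_sq c.hQp fun x hx => c.cent_Q (pow_mem (hX hx) 2)
    (sq_mem_centralizer hA (hXA hx) fun v hv => h (commutator_mem_commutator hv hx))

theorem Ctx.normalizer_A_le (hVQ : ¬ V ≤ QQ) : H ⊓ normalizer ((AA : Subgroup G) : Set G) ≤ N := by
  refine c.hmax _ (le_inf c.hTH c.T_norm_A) inf_le_left fun e => hVQ ?_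
  have hHA : H ≤ normalizer ((AA : Subgroup G) : Set G) := inf_eq_left.1 e
  set X := ⨆ h : ↥H, cj (h : G) V
  have hXH : X ≤ H := iSup_le fun h => c.cjV_le h.2
  have hA : ∀ h : ↥H, cj (h : G) AA = AA := fun h => cj_eq_of_mem_normalizer (hHA h.2)
  have hXc : X ≤ centralizer ((AA : Subgroup G) : Set G) := iSup_le fun h => (c.cjV_cent_A h).trans (by rw [hA h])
  have hX2 : IsPGroup 2 X := c.isPGroup_stab hXH (fun a ha => by
      rw [← pow_two]; exact c.hVel.2 a ha.1) hXc (commutator_iSup_le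
    (fun h => (c.cjV_le h.2).trans hHA) fun h => (c.comm_Q_cjV h.2).trans (hA h).le)
  have hXn : H ≤ normalizer (X : Set G) := fun g hg => by
    refine mem_normalizer_of_cj_eq (eq_of_le_of_card_ge ?_ (card_cj _ _).ge)
    rw [cj_iSup]
    refine iSup_le fun h => ?_
    rw [← cj_mul]
    exact le_iSup (fun h : ↥H => cj (h : G) V) (⟨g, hg⟩ * h)
  refine le_trans ?_ (H72.le_pCoreOf hXH hXn hX2)
  refine le_trans ?_ (le_iSup (fun h : ↥H => cj (h : G) V) 1)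
  rw [OneMemClass.coe_one, cj_one]

/-- Members over `A` all have the same centraliser in `O₂(H)`. -/
theorem Ctx.cent_eq (hVQ : ¬ V ≤ QQ) {n : G} (hn : n ∈ H) (hnA : n ∈ normalizer ((AA : Subgroup G) : Set G)) :
    QQ ⊓ centralizer (cj n V : Set G) = QQ ⊓ centralizer (V : Set G) := by
  have hnN : n ∈ N := c.normalizer_A_le hVQ ⟨hn, hnA⟩
  rcases c.hI with hK | hV
  swap
  · rw [cj_eq_of_mem_normalizer (hV hnN)]
  set K₀ := Cfsg.oddGenerated M₀
  set V₀ := ⨆ k : ↥K₀, cj (k : G) AA with hV₀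
  have hnorm : ∀ g : G, g ∈ normalizer (K₀ : Set G) → g ∈ normalizer ((AA : Subgroup G) : Set G) →
      g ∈ normalizer (V₀ : Set G) := by
    intro g hgK hgA
    refine mem_normalizer_of_cj_eq (eq_of_le_of_card_ge ?_ (card_cj _ _).ge)
    rw [hV₀, cj_iSup]
    refine iSup_le fun k => ?_
    have e : cj g (cj (k : G) AA) = cj (g * k * g⁻¹) AA := by
      conv_rhs => rw [← cj_eq_of_mem_normalizer (H := AA) hgA, ← cj_mul]
      rw [← cj_mul]; congr 1; group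
    rw [e]
    exact le_iSup (fun k : ↥K₀ => cj (k : G) AA) ⟨_, (mem_normalizer_iff.1 hgK k).1 k.2⟩
  have hAV₀ : AA ≤ V₀ := by
    refine le_trans ?_ (le_iSup (fun k : ↥K₀ => cj (k : G) AA) 1)
    rw [OneMemClass.coe_one, cj_one]
  have hV₀V : V₀ ≤ V := iSup_le fun k =>
    (cj_mono _ inf_le_left).trans (cj_eq_of_mem_normalizer (c.hM₀V (oddGenerated_le M₀ k.2))).le
  have hM₀V₀ : M₀ ≤ normalizer (V₀ : Set G) := by
    rw [← oddGenerated_sup_sylow T c.hTM₀]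
    refine sup_le (fun g hg => ?_) (fun t ht => hnorm t (le_normalizer_oddGenerated M₀ (c.hTM₀ ht))
      (c.T_norm_A ht))
    refine mem_normalizer_of_cj_eq (eq_of_le_of_card_ge ?_ (card_cj _ _).ge)
    rw [hV₀, cj_iSup]
    refine iSup_le fun k => ?_
    rw [← cj_mul]
    exact le_iSup (fun k : ↥K₀ => cj (k : G) AA) (⟨g, hg⟩ * k)
  set Y := ⨆ m : ↥M₀, cj (m : G) QQ with hY
  set X := Y ⊓ centralizer (V₀ : Set G)
  have hYM₀ : Y ≤ M₀ := iSup_le fun m => cj_le m.2 (c.hQT.trans c.hTM₀)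
  have hYcomm : ⁅V, Y⁆ ≤ V₀ := by
    refine commutator_iSup_le (fun m => (cj_le m.2 (c.hQT.trans c.hTM₀)).trans hM₀V₀) fun m => ?_
    rw [← cj_eq_of_mem_normalizer (c.hM₀V m.2), ← cj_comm, ← cj_eq_of_mem_normalizer (hM₀V₀ m.2)]
    refine cj_mono _ (le_trans ?_ hAV₀)
    have h1 := c.comm_Q_cjV (h := 1) H.one_mem
    rw [cj_one, cj_one, commutator_comm] at h1
    exact h1
  have hXM : X ≤ M₀ := inf_le_left.trans hYM₀
  have hM₀Y : M₀ ≤ normalizer (Y : Set G) := fun g hg => by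
    refine mem_normalizer_of_cj_eq (eq_of_le_of_card_ge ?_ (card_cj _ _).ge)
    rw [hY, cj_iSup]
    refine iSup_le fun m => ?_
    rw [← cj_mul]
    exact le_iSup (fun m : ↥M₀ => cj (m : G) QQ) (⟨g, hg⟩ * m)
  have hM₀X : M₀ ≤ normalizer (X : Set G) :=
    (le_inf hM₀Y fun g hg => mem_normalizer_of_cj_eq (by
      rw [cj_centralizer, cj_eq_of_mem_normalizer (hM₀V₀ hg)])).trans inf_normalizer_le_normalizer_inf
  set C := M₀ ⊓ centralizer (V : Set G)
  have hM₀C : M₀ ≤ normalizer (C : Set G) :=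
    (le_inf le_normalizer fun g hg => mem_normalizer_of_cj_eq (by
      rw [cj_centralizer, cj_eq_of_mem_normalizer (c.hM₀V hg)])).trans inf_normalizer_le_normalizer_inf
  have hsq : ∀ x ∈ X, x ^ 2 ∈ C := fun x hx => ⟨pow_mem (hXM hx) 2,
    sq_mem_centralizer (Q := V) (A := V₀) (fun a ha => by rw [← pow_two]; exact c.hVel.2 a (hV₀V ha))
      hx.2 fun v hv => hYcomm (commutator_mem_commutator hv hx.1)⟩
  have hX'C : X ⊔ C = C := by
    refine c.hred (X ⊔ C) (sup_le hXM inf_le_left) (H83.le_normalizer_sup hM₀X hM₀C) le_sup_right ?_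
    haveI : (C.subgroupOf (X ⊔ C)).Normal :=
      (normal_subgroupOf_iff_le_normalizer le_sup_right).2 ((sup_le hXM inf_le_left).trans hM₀C)
    have hp : IsPGroup 2 (↥(X ⊔ C) ⧸ C.subgroupOf (X ⊔ C)) := by
      intro q
      refine ⟨1, ?_⟩
      induction q using QuotientGroup.induction_on with
      | H x =>
        rw [pow_one, ← QuotientGroup.mk_pow, QuotientGroup.eq_one_iff, mem_subgroupOf]
        have hx : (x : G) ∈ X ⊔ C := x.2
        rw [← SetLike.mem_coe, coe_mul_of_left_le_normalizer_right _ _ (hXM.trans hM₀C)] at hx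
        obtain ⟨a, ha, b, hb, e⟩ := hx
        show ((x ^ 2 : ↥(X ⊔ C)) : G) ∈ C
        rw [SubmonoidClass.coe_pow, ← e, show (a * b) ^ 2 = a ^ 2 * (a⁻¹ * b * a) * b by
          rw [pow_two, pow_two]; group]
        exact mul_mem (mul_mem (hsq a ha) ((mem_normalizer_iff''.1 (hM₀C (hXM ha)) b).1 hb)) hb
    obtain ⟨k, hk⟩ := IsPGroup.iff_card.1 hp
    exact ⟨k, hk⟩
  have heq : QQ ⊓ centralizer (V₀ : Set G) = QQ ⊓ centralizer (V : Set G) := by
    refine le_antisymm (le_inf inf_le_left ?_) (inf_le_inf_left _ (centralizer_le hV₀V))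
    intro g hg
    refine (hX'C.le (mem_sup_left (show g ∈ X from ⟨?_, hg.2⟩))).2
    exact le_iSup (fun m : ↥M₀ => cj (m : G) QQ) 1 (by rw [OneMemClass.coe_one, cj_one]; exact hg.1)
  calc QQ ⊓ centralizer (cj n V : Set G) = cj n (QQ ⊓ centralizer (V : Set G)) := by
        rw [cj_inf, c.cj_Q hn, cj_centralizer]
    _ = QQ ⊓ centralizer (cj n V₀ : Set G) := by rw [← heq, cj_inf, c.cj_Q hn, cj_centralizer]
    _ = _ := by rw [cj_eq_of_mem_normalizer (hnorm n (hK hnN) hnA), heq]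

theorem Ctx.cjT_norm {z : G} : cj z (T : Subgroup G) ≤ normalizer (cj z V : Set G) := by
  rw [← cj_normalizer]
  exact cj_mono z c.hTV

theorem Ctx.cjT_normA {z x : G} (hz : z ∈ H) (h : cj z AA = cj x AA) :
    cj z (T : Subgroup G) ≤ H ⊓ normalizer (cj x AA : Set G) := by
  refine le_inf (cj_le hz c.hTH) ?_
  rw [← h, ← cj_normalizer]
  exact cj_mono z c.T_norm_A

theorem Ctx.memberSup_le (x : G) :
    memberSup H V x ≤ H ⊓ centralizer (cj x AA : Set G) :=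
  iSup_le fun z => le_inf (c.cjV_le z.2.1) ((c.cjV_cent_A z).trans (by rw [z.2.2]))

theorem Ctx.memberSup_normal (x : G) :
    H ⊓ normalizer (cj x AA : Set G) ≤ normalizer (memberSup H V x : Set G) := by
  intro g hg
  refine mem_normalizer_of_cj_eq (eq_of_le_of_card_ge ?_ (card_cj _ _).ge)
  rw [memberSup, cj_iSup]
  refine iSup_le fun z => ?_
  rw [← cj_mul]
  exact le_memberSup (H.mul_mem hg.1 z.2.1) (by rw [cj_mul, z.2.2, cj_eq_of_mem_normalizer hg.2])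

theorem Ctx.memberSup_comm (x : G) : ⁅QQ, memberSup H V x⁆ ≤ cj x AA :=
  commutator_iSup_le (fun z => (c.cjV_cent_A z).trans ((centralizer_le_normalizer _).trans (by rw [z.2.2])))
    fun z => (c.comm_Q_cjV z.2.1).trans z.2.2.le

theorem Ctx.memberSup_isPGroup (x : G) : IsPGroup 2 (memberSup H V x) :=
  c.isPGroup_stab ((c.memberSup_le x).trans inf_le_left) (c.cjA_sq x)
    ((c.memberSup_le x).trans inf_le_right) (c.memberSup_comm x)

theorem Ctx.memberSup_le_cjT {x z : G} (hz : z ∈ H) (h : cj z AA = cj x AA) :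
    memberSup H V x ≤ cj z (T : Subgroup G) := by
  have hp : IsPGroup 2 ↥(cj z (T : Subgroup G) ⊔ memberSup H V x) :=
    (isPGroup_cj T.2 z).to_sup_of_normal_right' (c.memberSup_isPGroup x)
      ((c.cjT_normA hz h).trans (c.memberSup_normal x))
  have h' := T.is_maximal' (isPGroup_cj hp z⁻¹)
    (by rw [cj_sup, cj_inv_cj]; exact le_sup_left)
  refine le_trans (le_sup_right (a := cj z (T : Subgroup G))) ((cj_le_cj_iff (x := z⁻¹)).1 ?_)
  rw [cj_inv_cj, h']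

theorem Ctx.member_normalizes {x z : G} (hz : z ∈ H) (h : cj z AA = cj x AA) :
    memberSup H V x ≤ normalizer (cj z V : Set G) := (c.memberSup_le_cjT hz h).trans c.cjT_norm

theorem Ctx.member_comm (hq : QFail V) {x z : G} (hz : z ∈ H) (h : cj z AA = cj x AA) :
    cj z V ≤ centralizer (memberSup H V x : Set G) :=
  le_centralizer_iff.1 (iSup_le fun w => asym hq c.hVel
    ((le_memberSup w.2.1 w.2.2).trans (c.member_normalizes hz h))
    ((le_memberSup hz h).trans (c.member_normalizes w.2.1 w.2.2)))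

/-- A `2`-subgroup normalising `A^x` normalises some member over it. -/
theorem Ctx.exists_member {x : G} (hx : x ∈ H) {S : Subgroup G}
    (hS : S ≤ H ⊓ normalizer (cj x AA : Set G)) (hS2 : IsPGroup 2 S) :
    ∃ z ∈ H, cj z AA = cj x AA ∧ S ≤ cj z (T : Subgroup G) := by
  have hTY : (T : Subgroup G) ≤ cj x⁻¹ (H ⊓ normalizer (cj x AA : Set G)) := by
    rw [cj_inf, cj_normalizer, cj_inv_cj, cj_eq_self (H.inv_mem hx)]
    exact le_inf c.hTH c.T_norm_A
  obtain ⟨n, hn, hle⟩ := exists_conj_le T hTY (cj_mono x⁻¹ hS) (isPGroup_cj hS2 x⁻¹)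
  have hn' : n ∈ H ∧ n ∈ normalizer ((AA : Subgroup G) : Set G) := by
    rw [cj_inf, cj_normalizer, cj_inv_cj] at hn
    exact ⟨(cj_le (H.inv_mem hx) le_rfl) hn.1, hn.2⟩
  refine ⟨x * n⁻¹, H.mul_mem hx (H.inv_mem hn'.1), ?_, ?_⟩
  · rw [cj_mul, cj_eq_of_mem_normalizer (H := AA) ((normalizer ((AA : Subgroup G) : Set G)).inv_mem hn'.2)]
  · have e : S = cj (x * n⁻¹) (cj n (cj x⁻¹ S)) := by
      rw [← cj_mul, ← cj_mul, show x * n⁻¹ * n * x⁻¹ = 1 by group, cj_one]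
    rw [e]
    exact cj_mono _ hle

/-- The data of a minimal pair. -/
structure Pair (c : Ctx T M₀ H N V) (y : G) : Prop where
  hy : y ∈ H
  hyD : y ∈ normalizer ((AA ⊔ cj y AA : Subgroup G) : Set G)
  bad : ¬ IsPGroup 2 ↥(V ⊔ cj y V)
  hne : cj y AA ≠ AA
  min : ∀ x ∈ H, ∀ x' ∈ H, ¬ IsPGroup 2 ↥(cj x V ⊔ cj x' V) →
    Nat.card ↥(AA ⊔ cj y AA) ≤ Nat.card ↥(cj x AA ⊔ cj x' AA)
  centA : (AA ⊔ cj y AA) ⊓ centralizer (V : Set G) = AA

theorem Ctx.exists_pair (hVQ : ¬ V ≤ QQ) : ∃ y, Pair c y := by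
  classical
  have hex : ∃ y ∈ H, ¬ IsPGroup 2 ↥(V ⊔ cj y V) := by
    by_contra hall
    push Not at hall
    exact hVQ (baer_in c.hVH hall)
  let S₁ : Set G := {y | y ∈ H ∧ ¬ IsPGroup 2 ↥(V ⊔ cj y V)}
  obtain ⟨y₀, hy₀, hmin₀⟩ := Set.exists_min_image S₁ (fun y => Nat.card ↥(AA ⊔ cj y AA))
    (Set.toFinite _) hex
  obtain ⟨y₁, ⟨hy₁, hy₁D⟩, hmin₁⟩ := Set.exists_min_image
    {y | y ∈ S₁ ∧ Nat.card ↥(AA ⊔ cj y AA) = Nat.card ↥(AA ⊔ cj y₀ AA)}
    (fun y => Nat.card ↥(V ⊔ cj y V)) (Set.toFinite _) ⟨y₀, hy₀, rfl⟩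
  set D := AA ⊔ cj y₁ AA with hD
  set U := V ⊔ cj y₁ V with hU
  have hDQ : D ≤ QQ := sup_le inf_le_right ((c.cjA hy₁.1).le.trans inf_le_right)
  have hV1 : cj (1 : G) V = V := cj_one V
  have hUH : U ≤ H := sup_le c.hVH (c.cjV_le hy₁.1)
  have hVD : ∀ h : G, h ∈ H → cj h AA ≤ D → cj h V ≤ normalizer (D : Set G) := fun h hh hle =>
    le_normalizer_iff_commutator_le_left.2 ((commutator_mono hDQ le_rfl).trans ((c.comm_Q_cjV hh).trans hle))
  have hUD : U ≤ normalizer (D : Set G) := by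
    refine sup_le ?_ (hVD _ hy₁.1 le_sup_right)
    have := hVD 1 H.one_mem (by rw [cj_one]; exact le_sup_left)
    rwa [hV1] at this
  have hg : ∃ g ∈ U, ¬ IsPGroup 2 ↥(V ⊔ cj g V) := by
    by_contra hall
    push Not at hall
    have h1 : V ≤ Cfsg.pCoreOf 2 U := baer_in le_sup_left hall
    have h2 : IsPGroup 2 ↥(cj y₁ V ⊔ Cfsg.pCoreOf 2 U) :=
      (isPGroup_cj (isPGroup_two c.hVel) y₁).to_sup_of_normal_right' (H72.pCoreOf_isPGroup 2 U)
        (le_sup_right.trans (H72.le_normalizer_pCoreOf 2 U))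
    exact hy₁.2 (h2.to_le (sup_le (h1.trans le_sup_right) le_sup_left))
  obtain ⟨g, hgU, hgbad⟩ := hg
  have hgH : g ∈ H := hUH hgU
  have hle : AA ⊔ cj g AA ≤ D :=
    sup_le le_sup_left ((cj_mono g le_sup_left).trans (cj_eq_of_mem_normalizer (hUD hgU)).le)
  have hDeq : AA ⊔ cj g AA = D :=
    eq_of_le_of_card_ge hle (le_of_eq_of_le hy₁D (hmin₀ g ⟨hgH, hgbad⟩))
  have hUeq : V ⊔ cj g V = U := by
    refine eq_of_le_of_card_ge (sup_le le_sup_left ((cj_mono g le_sup_left).trans (cj_eq_self hgU).le))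
      (hmin₁ g ⟨⟨hgH, hgbad⟩, ?_⟩)
    rw [hDeq]; exact hy₁D
  have hne : cj g AA ≠ AA := by
    intro e
    refine hgbad (c.isPGroup_stab (A := AA) (sup_le c.hVH (c.cjV_le hgH))
      (fun a ha => by rw [← pow_two]; exact c.hVel.2 a ha.1) (sup_le ?_ ?_) ?_)
    · have := c.cjV_cent_A (1 : G); rwa [cj_one, cj_one] at this
    · have := c.cjV_cent_A g; rwa [e] at this
    · rw [sup_eq_iSup]
      refine commutator_iSup_le (fun b => ?_) fun b => ?_ <;> cases b <;> simp only [cond]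
      · rw [← e]; exact (c.cjV_cent_A g).trans (centralizer_le_normalizer _)
      · have := c.cjV_cent_A (1 : G); rw [cj_one, cj_one] at this
        exact this.trans (centralizer_le_normalizer _)
      · exact (c.comm_Q_cjV hgH).trans e.le
      · have := c.comm_Q_cjV H.one_mem; rwa [cj_one, cj_one] at this
  have hAn : AA ≤ normalizer (cj g AA : Set G) :=
    ((inf_le_left : AA ≤ V).trans (le_refl V)).trans' le_rfl |> fun _ => by
      rw [c.cjA hgH]
      exact (le_inf (inf_le_right.trans (c.Q_normalizes hgH)) ((inf_le_right : AA ≤ QQ).trans le_normalizer)).trans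
        inf_normalizer_le_normalizer_inf
  refine ⟨g, hgH, by rw [hDeq]; exact hUD hgU, hgbad, hne, fun x hx x' hx' hb => ?_, ?_⟩
  · rw [hDeq]
    have hb' : ¬ IsPGroup 2 ↥(V ⊔ cj (x⁻¹ * x') V) := fun h => hb (by
      have := isPGroup_cj h x
      rwa [cj_sup, ← cj_mul, mul_inv_cancel_left] at this)
    refine (le_of_eq_of_le hy₁D (hmin₀ _ ⟨H.mul_mem (H.inv_mem hx) hx', hb'⟩)).trans ?_
    rw [← card_cj x (AA ⊔ _), cj_sup, ← cj_mul, mul_inv_cancel_left]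
  · refine le_antisymm ?_ (le_inf le_sup_left ((inf_le_left : AA ≤ V).trans (le_centralizer_self c.hVel)))
    rintro e ⟨he, hec⟩
    replace he : e ∈ (AA ⊔ cj g AA : Subgroup G) := he
    rw [← SetLike.mem_coe, coe_mul_of_left_le_normalizer_right _ _ hAn] at he
    obtain ⟨a, ha, b, hb, rfl⟩ := he
    have hbc : b ∈ centralizer (V : Set G) := by
      have := mul_mem (inv_mem (le_centralizer_self c.hVel ha.1)) hec
      simpa using this
    have hbU : g ∈ centralizer ({b} : Set G) := by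
      have hgm : g ∈ V ⊔ cj g V := hUeq.symm ▸ hgU
      refine (sup_le ?_ ?_ : V ⊔ cj g V ≤ centralizer ({b} : Set G)) hgm
      · exact fun v hv => mem_centralizer_singleton_iff.2 (mem_centralizer_iff.1 hbc v hv)
      · exact fun v hv => mem_centralizer_singleton_iff.2
          ((mem_centralizer_iff.1 (c.cjV_cent_A g hv) b hb).symm)
    have hbA : b ∈ AA := by
      have := mem_cj.1 hb
      rwa [mul_assoc, ← mem_centralizer_singleton_iff.1 hbU, inv_mul_cancel_left] at this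
    exact mul_mem ha hbA


variable {c}

theorem Pair.centD {y : G} (P : Pair c y) (hVQ : ¬ V ≤ QQ) {x x₀ : G} (hx : x ∈ H) (hx₀ : x₀ ∈ H)
    (hx₀D : x₀ ∈ normalizer ((AA ⊔ cj y AA : Subgroup G) : Set G)) (e : cj x AA = cj x₀ AA) :
    (AA ⊔ cj y AA) ⊓ centralizer (cj x V : Set G) = cj x AA := by
  set D := AA ⊔ cj y AA with hD
  have hDQ : D ≤ QQ := sup_le inf_le_right ((c.cjA P.hy).le.trans inf_le_right)
  have hn : x₀⁻¹ * x ∈ normalizer ((AA : Subgroup G) : Set G) := mem_normalizer_of_cj_eq (H := AA) (by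
    rw [cj_mul, e, cj_inv_cj])
  have h1 := c.cent_eq hVQ (H.mul_mem (H.inv_mem hx₀) hx) hn
  have h2 : D ⊓ centralizer (cj (x₀⁻¹ * x) V : Set G) = AA := by
    rw [← inf_eq_left.2 hDQ, inf_assoc, h1, ← inf_assoc, inf_eq_left.2 hDQ]
    exact P.centA
  have h3 := congrArg (cj x₀) h2
  rwa [cj_inf, cj_eq_of_mem_normalizer hx₀D, cj_centralizer, ← cj_mul, mul_inv_cancel_left, ← e] at h3


/-- Two members of `A^(N_H(D))` agree or generate `D`. -/
theorem Pair.dichotomy {y : G} (P : Pair c y) (hVQ : ¬ V ≤ QQ) (hq : QFail V) : ∀ (n : ℕ) (x₁ x₂ : G),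
    Nat.card ↥(memberSup H V x₁ ⊔ memberSup H V x₂) = n → x₁ ∈ H → x₂ ∈ H →
    (∃ a ∈ H, a ∈ normalizer ((AA ⊔ cj y AA : Subgroup G) : Set G) ∧ cj x₁ AA = cj a AA) →
    (∃ a ∈ H, a ∈ normalizer ((AA ⊔ cj y AA : Subgroup G) : Set G) ∧ cj x₂ AA = cj a AA) →
    cj x₁ AA ⊔ cj x₂ AA ≠ AA ⊔ cj y AA → cj x₁ AA = cj x₂ AA := by
  classical
  intro n
  induction n using Nat.strong_induction_on with
  | _ n ih =>
  intro x₁ x₂ hn hx₁ hx₂ g₁ g₂ hjoin
  set D := AA ⊔ cj y AA with hD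
  have hDQ : D ≤ QQ := sup_le inf_le_right ((c.cjA P.hy).le.trans inf_le_right)
  have hgD : ∀ {x : G}, (∃ a ∈ H, a ∈ normalizer (D : Set G) ∧ cj x AA = cj a AA) → cj x AA ≤ D := by
    rintro x ⟨a, -, haD, e⟩
    rw [e]
    exact (cj_mono a le_sup_left).trans (cj_eq_of_mem_normalizer haD).le
  set E₁ := memberSup H V x₁
  set E₂ := memberSup H V x₂
  set A₁ := cj x₁ AA with hA₁
  set A₂ := cj x₂ AA with hA₂
  set W := A₁ ⊔ A₂ with hW
  set K := E₁ ⊔ E₂
  have hA₁D : A₁ ≤ D := hgD g₁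
  have hA₂D : A₂ ≤ D := hgD g₂
  have hWD : W ≤ D := sup_le hA₁D hA₂D
  have hWlt : Nat.card W < Nat.card D :=
    lt_of_le_of_ne (card_le_of_le hWD) fun e => hjoin (eq_of_le_of_card_ge hWD e.ge)
  have hKH : K ≤ H := sup_le ((c.memberSup_le x₁).trans inf_le_left) ((c.memberSup_le x₂).trans inf_le_left)
  have hKn : ∀ Y : Subgroup G, Y ≤ QQ → A₁ ≤ Y → A₂ ≤ Y → K ≤ normalizer (Y : Set G) := fun Y hY h1 h2 =>
    sup_le (le_normalizer_iff_commutator_le_left.2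
        ((commutator_mono hY le_rfl).trans ((c.memberSup_comm x₁).trans h1)))
      (le_normalizer_iff_commutator_le_left.2
        ((commutator_mono hY le_rfl).trans ((c.memberSup_comm x₂).trans h2)))
  have hKD : K ≤ normalizer (D : Set G) := hKn D hDQ hA₁D hA₂D
  have hKW : K ≤ normalizer (W : Set G) := hKn W (hWD.trans hDQ) le_sup_left le_sup_right
  have hO : ∀ x, x ∈ H → cj x AA ≤ W → cj x V ≤ K → cj x V ≤ Cfsg.pCoreOf 2 K := by
    intro x hx hxW hxK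
    refine baer_in hxK fun g hg => ?_
    by_contra hb
    rw [← cj_mul] at hb
    refine absurd (P.min x hx (g * x) (H.mul_mem (hKH hg) hx) hb) (not_le.2 (lt_of_le_of_lt ?_ hWlt))
    refine card_le_of_le (sup_le hxW ?_)
    rw [cj_mul]
    exact (cj_mono g hxW).trans (cj_eq_of_mem_normalizer (hKW hg)).le
  have hK2 : IsPGroup 2 K := by
    refine (H72.pCoreOf_isPGroup 2 K).to_le (sup_le (iSup_le fun z => ?_) (iSup_le fun z => ?_))
    · exact hO z z.2.1 (z.2.2.le.trans le_sup_left) ((le_memberSup z.2.1 z.2.2).trans le_sup_left)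
    · exact hO z z.2.1 (z.2.2.le.trans le_sup_right) ((le_memberSup z.2.1 z.2.2).trans le_sup_right)
  -- if one member group is all of `K`
  have hfull : ∀ {u v : G}, u ∈ H → v ∈ H → (∃ a ∈ H, a ∈ normalizer (D : Set G) ∧ cj v AA = cj a AA) →
      cj u AA ≤ D → memberSup H V v ≤ memberSup H V u → cj u AA = cj v AA := by
    intro u v hu hv gv huD hle
    obtain ⟨a, ha, haD, e⟩ := gv
    refine eq_of_le_of_card_ge ?_ (by rw [card_cj, card_cj])
    rw [← P.centD hVQ hv ha haD e]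
    refine le_inf huD ?_
    rw [le_centralizer_iff]
    refine ((le_memberSup hv rfl).trans hle).trans (((c.memberSup_le u)).trans inf_le_right)
  -- each member group normalises the other `A`
  have hnorm : ∀ {u v : G}, u ∈ H → v ∈ H → (∃ a ∈ H, a ∈ normalizer (D : Set G) ∧ cj u AA = cj a AA) →
      (∃ a ∈ H, a ∈ normalizer (D : Set G) ∧ cj v AA = cj a AA) →
      memberSup H V u ⊔ memberSup H V v = K → cj u AA ⊔ cj v AA = W → cj u AA = cj v AA ∨
        memberSup H V v ≤ normalizer (cj u AA : Set G) := by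
    intro u v hu hv gu gv eK eW
    have hEK : memberSup H V u ≤ K := eK ▸ le_sup_left
    by_cases hfl : memberSup H V u = K
    · exact Or.inl (hfull hu hv gv (hgD gu) (hfl ▸ eK ▸ le_sup_right))
    refine Or.inr fun p hp => mem_normalizer_of_cj_eq ?_
    have hpK : p ∈ K := eK ▸ mem_sup_right hp
    obtain ⟨a, ha, haD, e⟩ := gu
    obtain ⟨K₁, hEK₁, hK₁K, hK₁ne, hK₁n⟩ := exists_normal_proper hK2 hEK hfl
    have hle : memberSup H V u ⊔ memberSup H V (p * u) ≤ K₁ := by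
      refine sup_le hEK₁ (iSup_le fun z => ?_)
      have hz : cj (p⁻¹ * (z : G)) AA = cj u AA := by rw [cj_mul, z.2.2, cj_mul, cj_inv_cj]
      have := (cj_mono p ((le_memberSup (H.mul_mem (H.inv_mem (hKH hpK)) z.2.1) hz).trans hEK₁)).trans
        (cj_eq_of_mem_normalizer (hK₁n hpK)).le
      rwa [← cj_mul, mul_inv_cancel_left] at this
    have hlt : Nat.card ↥(memberSup H V u ⊔ memberSup H V (p * u)) < n := by
      rw [← hn]
      refine lt_of_le_of_lt (card_le_of_le hle) (lt_of_le_of_ne (card_le_of_le hK₁K) fun e' => hK₁ne ?_)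
      exact eq_of_le_of_card_ge hK₁K e'.ge
    have hu' : cj u AA ≤ W := eW ▸ le_sup_left
    have := ih _ hlt u (p * u) rfl hu (H.mul_mem (hKH hpK) hu) ⟨a, ha, haD, e⟩
      ⟨p * a, H.mul_mem (hKH hpK) ha, (normalizer (D : Set G)).mul_mem (hKD hpK) haD,
        by rw [cj_mul, e, cj_mul]⟩ (fun e' => by
        refine absurd (card_le_of_le (e'.ge.trans (sup_le hu' ?_))) (not_le.2 hWlt)
        rw [cj_mul]
        exact (cj_mono p hu').trans (cj_eq_of_mem_normalizer (hKW hpK)).le)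
    rw [← cj_mul]
    exact this.symm
  rcases hnorm hx₁ hx₂ g₁ g₂ rfl rfl with h | h₂
  · exact h
  rcases hnorm hx₂ hx₁ g₂ g₁ (sup_comm _ _) (sup_comm _ _) with h | h₁
  · exact h.symm
  have hKX₁ : K ≤ H ⊓ normalizer (A₁ : Set G) := le_inf hKH
    (sup_le ((c.memberSup_le x₁).trans (inf_le_right.trans (centralizer_le_normalizer _))) h₂)
  have hKX₂ : K ≤ H ⊓ normalizer (A₂ : Set G) := le_inf hKH
    (sup_le h₁ ((c.memberSup_le x₂).trans (inf_le_right.trans (centralizer_le_normalizer _))))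
  obtain ⟨z₁, hz₁, e₁, hK₁⟩ := c.exists_member hx₁ hKX₁ hK2
  obtain ⟨z₂, hz₂, e₂, hK₂⟩ := c.exists_member hx₂ hKX₂ hK2
  have hzK₁ : cj z₁ V ≤ K := (le_memberSup hz₁ e₁).trans le_sup_left
  have hzK₂ : cj z₂ V ≤ K := (le_memberSup hz₂ e₂).trans le_sup_right
  have hcomm := asym hq c.hVel ((hzK₁.trans hK₂).trans c.cjT_norm) ((hzK₂.trans hK₁).trans c.cjT_norm)
  obtain ⟨a, ha, haD, e⟩ := g₂
  refine eq_of_le_of_card_ge ?_ (by rw [hA₁, hA₂, card_cj, card_cj])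
  rw [hA₁, hA₂, ← e₂, ← P.centD hVQ hz₂ ha haD (e₂.trans e)]
  exact le_inf hA₁D (by rw [← e₁]; exact (cj_mono z₁ inf_le_left).trans hcomm)


/-- The counting for a pair of members generating `D`. -/
theorem Pair.cost {y : G} (P : Pair c y) (hVQ : ¬ V ≤ QQ) (hc : CFail V) {z₁ z₂ : G} (hz₁ : z₁ ∈ H)
    (hz₂ : z₂ ∈ H)
    (g₁ : ∃ a ∈ H, a ∈ normalizer ((AA ⊔ cj y AA : Subgroup G) : Set G) ∧ cj z₁ AA = cj a AA)
    (g₂ : ∃ a ∈ H, a ∈ normalizer ((AA ⊔ cj y AA : Subgroup G) : Set G) ∧ cj z₂ AA = cj a AA)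
    (hjoin : cj z₁ AA ⊔ cj z₂ AA = AA ⊔ cj y AA) (hne : cj z₁ AA ≠ cj z₂ AA)
    (hS₁ : cj z₂ V ⊓ normalizer (cj z₁ AA : Set G) ≤ normalizer (cj z₁ V : Set G))
    (hS₂ : cj z₁ V ⊓ normalizer (cj z₂ AA : Set G) ≤ normalizer (cj z₂ V : Set G)) :
    (centralizer ((cj z₁ V ⊓ normalizer (cj z₂ AA : Set G) : Subgroup G) : Set G)).relIndex
        (cj z₂ V ⊓ normalizer (cj z₁ AA : Set G)) <
      (centralizer ((cj z₂ V ⊓ normalizer (cj z₁ AA : Set G) : Subgroup G) : Set G)).relIndex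
        (cj z₁ V ⊓ normalizer (cj z₂ AA : Set G)) := by
  classical
  by_contra hle
  rw [not_lt] at hle
  set D := AA ⊔ cj y AA with hD
  have hDQ : D ≤ QQ := sup_le inf_le_right ((c.cjA P.hy).le.trans inf_le_right)
  set A₁ := cj z₁ AA with hA₁
  set A₂ := cj z₂ AA with hA₂
  set V₁ := cj z₁ V with hV₁
  set V₂ := cj z₂ V with hV₂
  set A' := V₁ ⊓ normalizer (A₂ : Set G) with hA'
  set B' := V₂ ⊓ normalizer (A₁ : Set G) with hB'
  set Z := A₁ ⊓ A₂ with hZ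
  have hA₁D : A₁ ≤ D := hjoin ▸ le_sup_left
  have hA₂D : A₂ ≤ D := hjoin ▸ le_sup_right
  have hA₁V : A₁ ≤ V₁ := cj_mono z₁ inf_le_left
  have hA₂V : A₂ ≤ V₂ := cj_mono z₂ inf_le_left
  have hQA : ∀ {z : G}, z ∈ H → QQ ≤ normalizer (cj z AA : Set G) := fun {z} hz => by
    rw [c.cjA hz]
    exact (le_inf (c.Q_normalizes hz) le_normalizer).trans inf_normalizer_le_normalizer_inf
  have hA₂B : A₂ ≤ B' := le_inf hA₂V ((hA₂D.trans hDQ).trans (hQA hz₁))
  have hcentD₁ : D ⊓ centralizer (V₁ : Set G) = A₁ := by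
    obtain ⟨a, ha, haD, e⟩ := g₁
    exact P.centD hVQ hz₁ ha haD e
  have hV₁ab := le_centralizer_self (isElementaryAbelian_cj c.hVel z₁)
  have hV₂ab := le_centralizer_self (isElementaryAbelian_cj c.hVel z₂)
  have hcA₁ : ∀ v ∈ V₁, ∀ a ∈ A₁, v * a = a * v := fun v hv a ha =>
    (mem_centralizer_iff.1 (hV₁ab hv) a (hA₁V ha)).symm
  have hcA₂ : ∀ v ∈ V₂, ∀ a ∈ A₂, v * a = a * v := fun v hv a ha =>
    (mem_centralizer_iff.1 (hV₂ab hv) a (hA₂V ha)).symm
  have hinV₁ : ∀ e ∈ QQ, ∀ v ∈ V₁, ⁅e, v⁆ ∈ A₁ := fun e he v hv =>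
    c.comm_Q_cjV hz₁ (commutator_mem_commutator he hv)
  have hinV₂ : ∀ e ∈ QQ, ∀ v ∈ V₂, ⁅e, v⁆ ∈ A₂ := fun e he v hv =>
    c.comm_Q_cjV hz₂ (commutator_mem_commutator he hv)
  -- commutators of `B'` with `V₁` normalise `A₂`
  have hcomm : ⁅V₁, B'⁆ ≤ A' := by
    refine le_inf (le_normalizer_iff_commutator_le_left.1 hS₁) (commutator_le.2 fun v hv b hb => ?_)
    have key : ∀ e ∈ A₂, ⁅v, b⁆ * e * ⁅v, b⁆⁻¹ ∈ A₂ := by
      intro e he
      have heQ : e ∈ QQ := hDQ (hA₂D he)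
      obtain ⟨a, hadef⟩ : ∃ a, a = e⁻¹ * (v⁻¹ * e * v) := ⟨_, rfl⟩
      have ha : a ∈ A₁ := by
        have := hinV₁ e⁻¹ (inv_mem heQ) v⁻¹ (inv_mem hv)
        rwa [show ⁅e⁻¹, v⁻¹⁆ = a by rw [hadef, commutatorElement_def]; group] at this
      obtain ⟨z, hzdef⟩ : ∃ z, z = a⁻¹ * (b * a * b⁻¹) := ⟨_, rfl⟩
      have hz : z ∈ A₂ := by
        have := hinV₂ a⁻¹ (inv_mem (hDQ (hA₁D ha))) b hb.1
        rwa [show ⁅a⁻¹, b⁆ = z by rw [hzdef, commutatorElement_def]; group] at this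
      have hzA₁ : z ∈ A₁ := hzdef ▸ A₁.mul_mem (A₁.inv_mem ha) ((mem_normalizer_iff.1 hb.2 a).1 ha)
      have e1 : ⁅v, b⁆ * e * ⁅v, b⁆⁻¹ = e * z := by
        have hbe : b⁻¹ * e * b = e := by rw [mul_assoc, ← hcA₂ b hb.1 e he, inv_mul_cancel_left]
        have hbe' : b * e * b⁻¹ = e := by rw [hcA₂ b hb.1 e he, mul_inv_cancel_right]
        calc ⁅v, b⁆ * e * ⁅v, b⁆⁻¹ = v * (b * (v⁻¹ * (b⁻¹ * e * b) * v) * b⁻¹) * v⁻¹ := by
              rw [commutatorElement_def]; group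
          _ = v * (b * (e * a) * b⁻¹) * v⁻¹ := by rw [hbe, hadef, mul_inv_cancel_left]
          _ = v * ((b * e * b⁻¹) * (b * a * b⁻¹)) * v⁻¹ := by group
          _ = v * (e * a * z) * v⁻¹ := by rw [hbe', hzdef]; group
          _ = e * (v * z * v⁻¹) := by rw [hadef]; group
          _ = e * z := by rw [hcA₁ v hv z hzA₁, mul_inv_cancel_right]
      rw [e1]
      exact A₂.mul_mem he hz
    refine mem_normalizer_of_cj_eq (eq_of_le_of_card_ge ?_ (card_cj _ _).ge)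
    rintro _ ⟨e, he, rfl⟩
    exact key e he
  have hcub : ⁅⁅⁅V₁, B'⁆, B'⁆, B'⁆ = ⊥ := by
    have h1 : ⁅⁅V₁, B'⁆, B'⁆ ≤ V₂ := (commutator_mono hcomm inf_le_left).trans
      (le_normalizer_iff_commutator_le_right.1 hS₂)
    exact le_bot_iff.1 ((commutator_mono h1 inf_le_left).trans
      (commutator_eq_bot_iff_le_centralizer.2 hV₂ab).le)
  -- sizes
  have hA₂c : centralizer (V₁ : Set G) ⊓ A₂ = Z := by
    refine le_antisymm (fun g hg => ⟨hcentD₁.le ⟨hA₂D hg.2, hg.1⟩, hg.2⟩) (fun g hg => ⟨hV₁ab (hA₁V hg.1), hg.2⟩)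
  have hA₂n : A₂ ≤ normalizer (A₁ : Set G) := (hA₂D.trans hDQ).trans (hQA hz₁)
  have hZZ : Z.relIndex A₁ = Z.relIndex A₂ := by
    refine Nat.eq_of_mul_eq_mul_left (Nat.card_pos (α := Z)) ?_
    have key : ∀ X : Subgroup G, Z ≤ X → Nat.card Z * Z.relIndex X = Nat.card X := fun X hX => by
      rw [← relIndex_bot_left, ← relIndex_bot_left, relIndex_mul_relIndex _ _ _ bot_le hX]
    rw [key _ inf_le_left, key _ inf_le_right, hA₁, hA₂, card_cj, card_cj]
  obtain ⟨e₀, he₀, he₀Z⟩ : ∃ e ∈ A₂, e ∉ Z := by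
    refine Set.not_subset.1 fun h => hne ?_
    exact (eq_of_le_of_card_ge (fun g hg => (h hg).1) (by rw [hA₁, hA₂, card_cj, card_cj])).symm
  have hidx : A'.relIndex V₁ ≤ Z.relIndex A₁ := by
    let f : ↥V₁ ⧸ A'.subgroupOf V₁ → ↥A₁ ⧸ Z.subgroupOf A₁ := fun q =>
      (((⟨⁅e₀, ((q.out : ↥V₁) : G)⁆, hinV₁ e₀ (hDQ (hA₂D he₀)) _ (q.out).2⟩ : ↥A₁)) : ↥A₁ ⧸ Z.subgroupOf A₁)
    refine Nat.card_le_card_of_injective f fun q q' hqq => ?_
    rw [← QuotientGroup.out_eq' q, ← QuotientGroup.out_eq' q', QuotientGroup.eq, mem_subgroupOf]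
    simp only [f] at hqq
    rw [QuotientGroup.eq, mem_subgroupOf] at hqq
    simp only [Subgroup.coe_mul, Subgroup.coe_inv] at hqq ⊢
    obtain ⟨v, hv, hvdef⟩ : ∃ v, v ∈ V₁ ∧ v = ((q.out : ↥V₁) : G) := ⟨_, (q.out).2, rfl⟩
    obtain ⟨v', hv', hvdef'⟩ : ∃ v', v' ∈ V₁ ∧ v' = ((q'.out : ↥V₁) : G) := ⟨_, (q'.out).2, rfl⟩
    rw [← hvdef, ← hvdef'] at hqq ⊢
    set w := v⁻¹ * v' with hwdef
    have hw : w ∈ V₁ := mul_mem (inv_mem hv) hv'
    refine ⟨hw, ?_⟩
    by_contra hwn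
    have hwD : w ∈ normalizer (D : Set G) := (le_normalizer_iff_commutator_le_left.2
      ((commutator_mono hDQ le_rfl).trans ((c.comm_Q_cjV hz₁).trans hA₁D))) hw
    have hwH : w ∈ H := c.cjV_le hz₁ hw
    have hj : A₂ ⊔ cj w A₂ = D := by
      by_contra hn
      refine hwn (mem_normalizer_of_cj_eq ?_)
      obtain ⟨a, ha, haD, e⟩ := g₂
      have := P.dichotomy hVQ hc.qfail _ z₂ (w * z₂) rfl hz₂ (H.mul_mem hwH hz₂) ⟨a, ha, haD, e⟩
        ⟨w * a, H.mul_mem hwH ha, (normalizer (D : Set G)).mul_mem hwD haD, by rw [cj_mul w z₂, show cj z₂ AA = cj a AA from e, ← cj_mul]⟩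
        (by rwa [cj_mul])
      rw [cj_mul] at this
      exact this.symm
    have hZle : Z ≤ A₂ ⊓ cj w A₂ := fun g hg => ⟨hg.2, mem_cj.2 (by
      rw [mul_assoc, ← hcA₁ w hw g hg.1, inv_mul_cancel_left]; exact hg.2)⟩
    have hZeq : Z = A₂ ⊓ cj w A₂ := by
      refine eq_of_le_of_card_ge hZle ?_
      have hwn2 : A₂ ≤ normalizer (cj w A₂ : Set G) := by
        rw [hA₂, ← cj_mul]
        exact (hA₂D.trans hDQ).trans (hQA (H.mul_mem hwH hz₂))
      have k1 := card_sup_mul_card_inf_of_le_normalizer hwn2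
      have hA₁n : A₁ ≤ normalizer (A₂ : Set G) := (hA₁D.trans hDQ).trans (hQA hz₂)
      have k2 := card_sup_mul_card_inf_of_le_normalizer hA₁n
      rw [hj, card_cj w] at k1
      rw [hjoin, show Nat.card A₁ = Nat.card A₂ by rw [hA₁, hA₂, card_cj, card_cj]] at k2
      exact (Nat.eq_of_mul_eq_mul_left Nat.card_pos (k2.trans k1.symm)).ge
    obtain ⟨z, hz, hzdef⟩ : ∃ z, z ∈ Z ∧ z = ⁅e₀, v⁆⁻¹ * ⁅e₀, v'⁆ := ⟨_, hqq, rfl⟩
    have ha : ⁅e₀, v⁆ ∈ A₁ := hinV₁ e₀ (hDQ (hA₂D he₀)) v hv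
    have h1 : v' * e₀ * v'⁻¹ = z⁻¹ * (v * e₀ * v⁻¹) := by
      have e1 : v' * e₀ * v'⁻¹ = ⁅e₀, v'⁆⁻¹ * e₀ := by rw [commutatorElement_def]; group
      have e2 : v * e₀ * v⁻¹ = ⁅e₀, v⁆⁻¹ * e₀ := by rw [commutatorElement_def]; group
      have e3 : ⁅e₀, v'⁆ = ⁅e₀, v⁆ * z := by rw [hzdef, mul_inv_cancel_left]
      rw [e1, e2, e3, mul_inv_rev]
      group
    have h2 : w * e₀ * w⁻¹ = z⁻¹ * e₀ := by
      calc w * e₀ * w⁻¹ = v⁻¹ * (v' * e₀ * v'⁻¹) * v := by rw [hwdef]; group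
        _ = (v⁻¹ * z⁻¹) * (v * e₀) := by rw [h1]; group
        _ = (z⁻¹ * v⁻¹) * (v * e₀) := by rw [hcA₁ v⁻¹ (inv_mem hv) z⁻¹ (inv_mem hz.1)]
        _ = z⁻¹ * e₀ := by group
    have h3 : z⁻¹ * e₀ ∈ Z := hZeq.symm ▸ (⟨A₂.mul_mem (A₂.inv_mem hz.2) he₀, h2 ▸ conj_mem_cj he₀⟩ :
      z⁻¹ * e₀ ∈ A₂ ⊓ cj w A₂)
    exact he₀Z (by simpa using Z.mul_mem hz h3)
  have hB₂ : IsPGroup 2 B' := (isPGroup_two (isElementaryAbelian_cj c.hVel z₂)).to_le inf_le_left
  have hind : Cfsg.InducesElemAbelianTwoGroupOn B' V₁ := by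
    refine induces_of_elementary (H34.isElementaryAbelian_mono (isElementaryAbelian_cj c.hVel z₂) inf_le_left) ?_
    exact fun h => he₀Z (hA₂c.le ⟨h (hA₂B he₀), he₀⟩)
  have hlt := hc.cj z₁ B' hB₂ hS₁ hind hcub
  rw [inf_centralizer_relIndex] at hlt
  have hcost : (centralizer (B' : Set G)).relIndex V₁ ≤
      (centralizer (B' : Set G)).relIndex A' * A'.relIndex V₁ := by
    rw [← inf_relIndex_right (centralizer (B' : Set G)) A',
      relIndex_mul_relIndex _ _ _ inf_le_right (inf_le_left : A' ≤ V₁)]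
    exact relIndex_le_of_le_left inf_le_left index_ne_zero_of_finite
  have hg1 : (centralizer (A' : Set G)).relIndex B' ≤ (centralizer (V₁ : Set G)).relIndex B' :=
    relIndex_le_of_le_left (centralizer_le inf_le_left) index_ne_zero_of_finite
  have hg2 : Z.relIndex A₂ ≤ (centralizer (V₁ : Set G)).relIndex B' := by
    rw [← hA₂c, inf_relIndex_right]
    exact relIndex_le_of_le_right hA₂B index_ne_zero_of_finite
  rw [← hV₁, pow_two] at hlt
  have := Nat.mul_le_mul (hle.trans hg1) ((hidx.trans hZZ.le).trans hg2)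
  omega

variable (c)

/-- The case `V ≰ O₂(H)`. -/
theorem Ctx.not_cfail (hVQ : ¬ V ≤ QQ) : ¬ CFail V := by
  intro hc
  obtain ⟨y, P⟩ := c.exists_pair hVQ
  set E₁ := memberSup H V (1 : G)
  set E₂ := memberSup H V y
  set A' := E₁ ⊓ normalizer (cj y AA : Set G)
  set B' := E₂ ⊓ normalizer (cj (1 : G) AA : Set G)
  have hA'X : A' ≤ H ⊓ (normalizer (cj (1 : G) AA : Set G) ⊓ normalizer (cj y AA : Set G)) :=
    le_inf (inf_le_left.trans ((c.memberSup_le _).trans inf_le_left))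
      (le_inf (inf_le_left.trans ((c.memberSup_le _).trans (inf_le_right.trans (centralizer_le_normalizer _))))
        inf_le_right)
  have hB'X : B' ≤ H ⊓ (normalizer (cj (1 : G) AA : Set G) ⊓ normalizer (cj y AA : Set G)) :=
    le_inf (inf_le_left.trans ((c.memberSup_le _).trans inf_le_left))
      (le_inf inf_le_right
        (inf_le_left.trans ((c.memberSup_le _).trans (inf_le_right.trans (centralizer_le_normalizer _)))))
  have hXA' : H ⊓ (normalizer (cj (1 : G) AA : Set G) ⊓ normalizer (cj y AA : Set G)) ≤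
      normalizer (A' : Set G) :=
    (le_inf (le_trans (inf_le_inf_left _ inf_le_left) (c.memberSup_normal _))
      ((inf_le_right.trans inf_le_right).trans le_normalizer)).trans inf_normalizer_le_normalizer_inf
  have hS2 : IsPGroup 2 ↥(B' ⊔ A') :=
    ((c.memberSup_isPGroup y).to_le inf_le_left).to_sup_of_normal_right'
      ((c.memberSup_isPGroup 1).to_le inf_le_left) (hB'X.trans hXA')
  have hSX := sup_le hB'X hA'X
  obtain ⟨z₁, hz₁, e₁, hS₁⟩ := c.exists_member H.one_mem (hSX.trans (inf_le_inf_left _ inf_le_left)) hS2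
  obtain ⟨z₂, hz₂, e₂, hS₂⟩ := c.exists_member P.hy (hSX.trans (inf_le_inf_left _ inf_le_right)) hS2
  have h12 : cj z₁ V ⊓ normalizer (cj z₂ AA : Set G) ≤ normalizer (cj z₂ V : Set G) := by
    refine le_trans (le_trans ?_ ((le_sup_right : A' ≤ B' ⊔ A').trans hS₂)) c.cjT_norm
    rw [e₂]
    exact inf_le_inf_right _ (le_memberSup hz₁ e₁)
  have h21 : cj z₂ V ⊓ normalizer (cj z₁ AA : Set G) ≤ normalizer (cj z₁ V : Set G) := by
    refine le_trans (le_trans ?_ ((le_sup_left : B' ≤ B' ⊔ A').trans hS₁)) c.cjT_norm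
    rw [e₁]
    exact inf_le_inf_right _ (le_memberSup hz₂ e₂)
  have g₁ : ∃ a ∈ H, a ∈ normalizer ((AA ⊔ cj y AA : Subgroup G) : Set G) ∧ cj z₁ AA = cj a AA :=
    ⟨1, H.one_mem, one_mem _, e₁⟩
  have g₂ : ∃ a ∈ H, a ∈ normalizer ((AA ⊔ cj y AA : Subgroup G) : Set G) ∧ cj z₂ AA = cj a AA :=
    ⟨y, P.hy, P.hyD, e₂⟩
  have hj : cj z₁ AA ⊔ cj z₂ AA = AA ⊔ cj y AA := by rw [e₁, e₂, cj_one]
  have hne : cj z₁ AA ≠ cj z₂ AA := by rw [e₁, e₂, cj_one]; exact Ne.symm P.hne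
  have k1 := P.cost hVQ hc hz₁ hz₂ g₁ g₂ hj hne h21 h12
  have k2 := P.cost hVQ hc hz₂ hz₁ g₂ g₁ (by rw [sup_comm, hj]) (Ne.symm hne) h12 h21
  omega

end Cfsg.Agent.H60.Qrc
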