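import Cfsg.Agent.H60.Qrc.Ctx
import Mathlib

/-!
Distances between cosets in the qrc lemma, and the square bound on the join of the conjugates.
-/

set_option autoImplicit false
set_option linter.style.haveILetI false
set_option linter.unusedSectionVars false

open scoped commutatorElement Pointwise

namespace Cfsg.Agent.H60.Qrc

open Subgroup
open Cfsg.Agent
open Cfsg.Agent.H34.MinOffender (cj mem_cj card_cj conj_mem_cj)
open Cfsg.Agent.H34.Para (cj_mul cj_one cj_mono cj_le cj_eq_self cj_inv_cj cj_cj_inv cj_eq_of_mem_normalizer mem_normalizer_of_cj_eq)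

universe u

variable {G : Type u} [Group G] [Finite G]

/-- Products of `k` alternating factors from `H` and `M₀`, preceded by one from `M₀`. -/
def altProd (M₀ H : Subgroup G) (k : ℕ) : Set G := (M₀ : Set G) * ((H : Set G) * (M₀ : Set G)) ^ k

section sets

variable {M₀ H : Subgroup G}

theorem altProd_mul_succ {k : ℕ} {g h m : G} (hg : g ∈ altProd M₀ H k) (hh : h ∈ H) (hm : m ∈ M₀) :
    g * h * m ∈ altProd M₀ H (k + 1) := by
  rw [altProd, pow_succ, ← mul_assoc, mul_assoc g]
  exact Set.mul_mem_mul hg (Set.mul_mem_mul hh hm)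

theorem one_mem_altProd (k : ℕ) : (1 : G) ∈ altProd M₀ H k := by
  induction k with
  | zero => exact ⟨1, M₀.one_mem, 1, by simp, by simp⟩
  | succ k ih => simpa using altProd_mul_succ ih H.one_mem M₀.one_mem

theorem altProd_mul_right {k : ℕ} {g m : G} (hg : g ∈ altProd M₀ H k) (hm : m ∈ M₀) :
    g * m ∈ altProd M₀ H k := by
  induction k with
  | zero =>
    obtain ⟨a, ha, b, hb, rfl⟩ := hg
    rw [pow_zero, Set.mem_one] at hb
    subst hb
    exact ⟨a * m, M₀.mul_mem ha hm, 1, by simp, by simp⟩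
  | succ k _ =>
    rw [altProd, pow_succ, ← mul_assoc] at hg
    obtain ⟨r, hr, _, ⟨h, hh, m', hm', rfl⟩, rfl⟩ := hg
    rw [show r * (h * m') * m = r * h * (m' * m) by group]
    exact altProd_mul_succ hr hh (M₀.mul_mem hm' hm)

theorem inv_pow_prod (k : ℕ) :
    (((H : Set G) * (M₀ : Set G)) ^ k)⁻¹ = ((M₀ : Set G) * (H : Set G)) ^ k := by
  rw [← inv_pow, mul_inv_rev, inv_coe_set, inv_coe_set]

theorem pow_prod_subset {k : ℕ} {r : G} (hr : r ∈ ((H : Set G) * (M₀ : Set G)) ^ k) :
    r ∈ altProd M₀ H k := by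
  have := Set.mul_mem_mul (M₀.one_mem : (1 : G) ∈ (M₀ : Set G)) hr
  rwa [one_mul] at this

end sets

variable {T : Sylow 2 G} {M₀ H N V : Subgroup G} (c : Ctx T M₀ H N V)
include c

theorem Ctx.cj_V {m : G} (hm : m ∈ M₀) : cj m V = V := cj_eq_of_mem_normalizer (c.hM₀V hm)

/-- Two conjugates of `U` normalising each other, the first outside the second `O₂`. -/
theorem Ctx.exists_far_pair (hq : QFail V)
    (hno : ∀ R₀ : Subgroup G, R₀ ≠ ⊥ → R₀ ≤ Cfsg.pCoreOf 2 M₀ → ¬ M₀ ⊔ H ≤ normalizer (R₀ : Set G))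
    (hVne : V ≠ ⊥) {U : Subgroup G} (hU : U = ⨆ h : ↥H, cj (h : G) V)
    (hUQ : U ≤ Cfsg.pCoreOf 2 H) (hUR : U ≤ Cfsg.pCoreOf 2 M₀) :
    ∃ g : G, U ≤ cj g H ∧ cj g U ≤ H ∧ U ≤ normalizer (cj g U : Set G) ∧
      cj g U ≤ normalizer (U : Set G) ∧ ¬ U ≤ cj g (Cfsg.pCoreOf 2 H) := by
  set R := Cfsg.pCoreOf 2 M₀ with hRdef
  set Q := Cfsg.pCoreOf 2 H with hQdef
  have hVU : ∀ h ∈ H, cj h V ≤ U := fun h hh => by
    rw [hU]; exact le_iSup (fun h : ↥H => cj (h : G) V) ⟨h, hh⟩
  have hVU1 : V ≤ U := by simpa [cj_one] using hVU 1 H.one_mem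
  have hHU : H ≤ normalizer (U : Set G) := fun x hx => by
    refine mem_normalizer_of_cj_eq (eq_of_le_of_card_ge ?_ (card_cj _ _).ge)
    conv_lhs => rw [hU, cj_iSup]
    refine iSup_le fun h => ?_
    rw [← cj_mul]
    exact hVU _ (H.mul_mem hx h.2)
  have hQM : Q ≤ M₀ := c.hQT.trans c.hTM₀
  by_contra hcon
  push Not at hcon
  -- the odd step
  have stepB : ∀ k, (∀ g ∈ altProd M₀ H k, V ≤ cj g R) →
      ∀ g ∈ altProd M₀ H k, ∀ h ∈ H, V ≤ cj (g * h) Q := by
    intro k hA g hg hlast hl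
    obtain ⟨m₀, hm₀, r, hr, rfl⟩ := hg
    show V ≤ cj (m₀ * r * hlast) Q
    rcases k with _ | k
    · rw [pow_zero, Set.mem_one] at hr
      subst hr
      rw [mul_one, cj_mul, c.cj_Q hl]
      calc V = cj m₀ V := (c.cj_V hm₀).symm
        _ ≤ cj m₀ Q := cj_mono _ (hVU1.trans hUQ)
    rw [pow_succ'] at hr
    obtain ⟨_, ⟨h₁, hh₁, m₁, hm₁, rfl⟩, r', hr', rfl⟩ := hr
    set g' := h₁ * m₁ * r' with hg'
    set g := g' * hlast with hgdef
    have hsuff : V ≤ cj g Q := by
      have hg'mem : ∀ h ∈ H, h * g' ∈ altProd M₀ H (k + 1) := fun h hh => pow_prod_subset (by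
        rw [pow_succ', hg', show h * (h₁ * m₁ * r') = h * h₁ * m₁ * r' by group]
        exact Set.mul_mem_mul (Set.mul_mem_mul (H.mul_mem hh hh₁) hm₁) hr')
      have h1 : U ≤ cj g H := by
        rw [hgdef, cj_mul, cj_eq_self hl, hU]
        refine iSup_le fun h => ?_
        have h2 := hA _ (hg'mem _ (H.inv_mem h.2))
        calc cj (h : G) V ≤ cj (h : G) (cj ((h : G)⁻¹ * g') R) := cj_mono _ h2
          _ = cj g' R := by rw [← cj_mul, mul_inv_cancel_left]
          _ ≤ cj g' H := cj_mono _ (c.hRT.trans c.hTH)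
      have h2 : cj g U ≤ H := by
        conv_lhs => rw [hU, cj_iSup]
        refine iSup_le fun h => ?_
        rw [← cj_mul]
        have hmem : (g * (h : G))⁻¹ * h₁ ∈ altProd M₀ H (k + 1) := by
          have hr'' : r'⁻¹ ∈ ((M₀ : Set G) * (H : Set G)) ^ k := by
            rw [← inv_pow_prod, Set.inv_mem_inv]; exact hr'
          have e : (g * (h : G))⁻¹ * h₁ = ((h : G)⁻¹ * hlast⁻¹) * r'⁻¹ * m₁⁻¹ := by
            rw [hgdef, hg']; group
          rw [e]
          refine pow_prod_subset ?_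
          have hx : ((h : G)⁻¹ * hlast⁻¹) * r'⁻¹ ∈ (H : Set G) * ((M₀ : Set G) * (H : Set G)) ^ k :=
            Set.mul_mem_mul (H.mul_mem (H.inv_mem h.2) (H.inv_mem hl)) hr''
          rw [← mul_pow_mul] at hx
          rw [pow_succ, ← mul_assoc]
          exact Set.mul_mem_mul hx (M₀.inv_mem hm₁)
        have h2 := hA _ hmem
        calc cj (g * (h : G)) V ≤ cj (g * (h : G)) (cj ((g * (h : G))⁻¹ * h₁) R) := cj_mono _ h2
          _ = cj h₁ R := by rw [← cj_mul, mul_inv_cancel_left]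
          _ ≤ H := cj_le hh₁ (c.hRT.trans c.hTH)
      have h3 : U ≤ normalizer (cj g U : Set G) := by
        rw [← cj_normalizer]; exact h1.trans (cj_mono g hHU)
      exact hVU1.trans (hcon g h1 h2 h3 (h2.trans hHU))
    rw [show m₀ * (h₁ * m₁ * r') * hlast = m₀ * g by rw [hgdef, hg']; group, cj_mul]
    calc V = cj m₀ V := (c.cj_V hm₀).symm
      _ ≤ cj m₀ (cj g Q) := cj_mono _ hsuff
  -- the even step
  have stepA : ∀ k, (∀ g ∈ altProd M₀ H k, ∀ h ∈ H, V ≤ cj (g * h) Q) →
      ∀ g ∈ altProd M₀ H (k + 1), V ≤ cj g R := by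
    intro k hB g hg
    have hg1 := hg
    rw [altProd, pow_succ, ← mul_assoc] at hg1
    obtain ⟨g₁, hg₁, _, ⟨hk, hhk, mk, hmk, rfl⟩, hgeq⟩ := hg1
    have hgeq' : g = g₁ * hk * mk := by rw [← hgeq]; group
    obtain ⟨m₀, hm₀, r, hr, hgr⟩ := hg
    have hgr' : g = m₀ * r := hgr.symm
    -- the conjugate lies in `M₀`
    have hW : cj g V ≤ normalizer (V : Set G) := by
      have hr1 : r⁻¹ ∈ ((M₀ : Set G) * (H : Set G)) ^ (k + 1) := by
        rw [← inv_pow_prod, Set.inv_mem_inv]; exact hr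
      rw [pow_succ', mul_assoc, ← mul_pow_mul, ← mul_assoc] at hr1
      obtain ⟨a, ha, b, hb, e⟩ := hr1
      have h1 : V ≤ cj r⁻¹ Q := by rw [← e]; exact hB a ha b hb
      have h2 : cj r V ≤ Q := by
        have := cj_mono r h1
        rwa [cj_cj_inv] at this
      rw [hgr', cj_mul]
      exact (cj_le hm₀ (h2.trans hQM)).trans c.hM₀V
    have hB' := hB g₁ hg₁ hk hhk
    have hV : V ≤ normalizer (cj g V : Set G) := by
      rw [← cj_normalizer]
      refine hB'.trans ?_
      have : cj (g₁ * hk) Q ≤ cj g M₀ := by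
        rw [hgeq', cj_mul (g₁ * hk) mk, cj_eq_self hmk]
        exact cj_mono _ hQM
      exact this.trans (cj_mono g c.hM₀V)
    have hcomm : V ≤ centralizer (cj g V : Set G) := by
      have := asym hq c.hVel (x := 1) (y := g) (by rwa [cj_one]) (by rwa [cj_one])
      rwa [cj_one] at this
    rw [hgeq', cj_mul (g₁ * hk) mk, hRdef, cj_eq_of_mem_normalizer (c.hM₀R hmk), c.hR, cj_inf, cj_centralizer]
    refine le_inf (hB'.trans (cj_mono _ c.hQT)) ?_
    rwa [hgeq', cj_mul (g₁ * hk) mk, c.cj_V hmk] at hcomm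
  have hall : ∀ k, ∀ g ∈ altProd M₀ H k, V ≤ cj g R := by
    intro k
    induction k with
    | zero =>
      intro g hg
      obtain ⟨a, ha, b, hb, rfl⟩ := hg
      rw [pow_zero, Set.mem_one] at hb
      subst hb
      calc V ≤ R := c.hVR
        _ = cj (a * 1) R := by rw [mul_one, cj_eq_of_mem_normalizer (c.hM₀R ha)]
    | succ k ih => exact stepA k (stepB k ih)
  -- all conjugates lie in `R`
  let S := {g : G // ∃ k, g ∈ altProd M₀ H k}
  let R₀ : Subgroup G := ⨆ g : S, cj (g : G)⁻¹ V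
  have hle : ∀ g : G, ∀ k, g ∈ altProd M₀ H k → cj g⁻¹ V ≤ R₀ := fun g k hg =>
    le_iSup (fun g : S => cj (g : G)⁻¹ V) ⟨g, k, hg⟩
  refine hno R₀ ?_ (iSup_le fun g => ?_) ?_
  · intro e
    refine hVne (le_bot_iff.1 ?_)
    rw [← e]
    simpa [cj_one] using hle 1 0 (one_mem_altProd 0)
  · obtain ⟨g, k, hg⟩ := g
    have := cj_mono g⁻¹ (hall k g hg)
    rwa [cj_inv_cj] at this
  · have key : ∀ x, (∀ g k, g ∈ altProd M₀ H k → ∃ k', g * x⁻¹ ∈ altProd M₀ H k') →
        x ∈ normalizer (R₀ : Set G) := by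
      intro x hx
      refine mem_normalizer_of_cj_eq (eq_of_le_of_card_ge ?_ (card_cj _ _).ge)
      rw [cj_iSup]
      refine iSup_le fun g => ?_
      obtain ⟨g, k, hg⟩ := g
      obtain ⟨k', hk'⟩ := hx g k hg
      rw [← cj_mul, show x * g⁻¹ = (g * x⁻¹)⁻¹ by group]
      exact hle _ k' hk'
    refine sup_le (fun m hm => key m fun g k hg => ⟨k, altProd_mul_right hg (M₀.inv_mem hm)⟩)
      fun h hh => key h fun g k hg => ⟨k + 1, ?_⟩
    simpa using altProd_mul_succ hg (H.inv_mem hh) M₀.one_mem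

/-- The bound for quadratic subgroups of `O₂(H)` passes to the join of the conjugates. -/
theorem Ctx.sq_bound (hq : QFail V) {U B : Subgroup G} (hU : U = ⨆ h : ↥H, cj (h : G) V)
    (hUel : Cfsg.IsElementaryAbelian 2 U) (hB : B ≤ Cfsg.pCoreOf 2 H)
    (hBel : Cfsg.IsElementaryAbelian 2 B) (hquad : ⁅⁅U, B⁆, B⁆ = ⊥) :
    B ≤ centralizer (U : Set G) ∨
      ((centralizer (U : Set G)).relIndex B) ^ 2 < (centralizer (B : Set G)).relIndex U := by
  classical
  haveI : Fintype ↥H := Fintype.ofFinite _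
  have hVU : ∀ h : ↥H, cj (h : G) V ≤ U := fun h => by
    rw [hU]; exact le_iSup (fun h : ↥H => cj (h : G) V) h
  set C₀ := U ⊓ centralizer (B : Set G)
  have main : ∀ s : Finset ↥H,
      let X := B ⊓ centralizer ((⨆ h ∈ s, cj (h : G) V : Subgroup G) : Set G)
      (X = B ∨ (X.relIndex B) ^ 2 < C₀.relIndex (U ⊓ centralizer (X : Set G))) := by
    intro s
    induction s using Finset.induction with
    | empty =>
      left
      refine inf_eq_left.2 fun b _ => mem_centralizer_iff.2 fun x hx => ?_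
      simp only [Finset.notMem_empty, iSup_false, iSup_bot, SetLike.mem_coe, mem_bot] at hx
      simp [hx]
    | @insert a s has ih =>
      intro X'
      set X := B ⊓ centralizer ((⨆ h ∈ s, cj (h : G) V : Subgroup G) : Set G) with hX
      set W := cj (a : G) V
      have hXeq : X' = X ⊓ centralizer (W : Set G) := by
        show B ⊓ centralizer ((⨆ h ∈ insert a s, cj (h : G) V : Subgroup G) : Set G) = _
        rw [Finset.iSup_insert, Cfsg.Agent.H34.centralizer_sup_eq, hX]
        ac_rfl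
      by_cases hXW : X ≤ centralizer (W : Set G)
      · rw [hXeq, inf_eq_left.2 hXW]
        exact ih
      right
      have hXB : X ≤ B := inf_le_left
      have hXel : Cfsg.IsElementaryAbelian 2 X := by
        haveI := hBel.1
        exact ⟨IsMulCommutative.of_comm fun x y => Subtype.ext
          (setLike_mul_comm (s := B) (hXB x.2) (hXB y.2)), fun x hx => hBel.2 x (hXB hx)⟩
      have hstep := hq.cj (a : G) X (isPGroup_two hXel) ((hXB.trans hB).trans (c.Q_normalizes a.2))
        (induces_of_elementary hXel hXW) (le_bot_iff.1 (hquad ▸ commutator_mono (commutator_mono (hVU a) hXB) hXB))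
      rw [inf_centralizer_relIndex] at hstep
      set F := U ⊓ centralizer (X : Set G) with hF
      set F' := U ⊓ centralizer (X' : Set G) with hF'
      have hX'X : X' ≤ X := hXeq.le.trans inf_le_left
      have hFF' : F ≤ F' := inf_le_inf_left _ (centralizer_le hX'X)
      have hC₀F : C₀ ≤ F := inf_le_inf_left _ (centralizer_le hXB)
      have hWF' : W ≤ F' := le_inf (hVU a) (le_centralizer_iff.1 (hXeq.le.trans inf_le_right))
      have e1 : X'.relIndex B = (centralizer (W : Set G)).relIndex X * X.relIndex B := by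
        rw [← relIndex_mul_relIndex X' X B hX'X hXB, hXeq, inf_relIndex_left]
      have e2 : C₀.relIndex F' = C₀.relIndex F * F.relIndex F' :=
        (relIndex_mul_relIndex C₀ F F' hC₀F hFF').symm
      have e3 : (centralizer (X : Set G)).relIndex W ≤ F.relIndex F' := by
        refine (relIndex_le_of_le_right hWF' index_ne_zero_of_finite).trans (le_of_eq ?_)
        rw [hF, ← inf_relIndex_left F' (centralizer (X : Set G)), ← inf_relIndex_left F' (U ⊓ _),
          ← inf_assoc, inf_eq_left.2 (inf_le_left : F' ≤ U)]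
      have e4 : X.relIndex B ^ 2 ≤ C₀.relIndex F := by
        rcases ih with h | h
        · rw [h, relIndex_self, one_pow]; exact relIndex_pos _ _
        · exact h.le
      rw [e1, e2, mul_pow, mul_comm (C₀.relIndex F)]
      calc _ < (centralizer (X : Set G)).relIndex W * X.relIndex B ^ 2 :=
            Nat.mul_lt_mul_of_pos_right hstep (pow_pos (relIndex_pos _ _) 2)
        _ ≤ _ := Nat.mul_le_mul e3 e4
  have h := main Finset.univ
  have e : (⨆ h ∈ (Finset.univ : Finset ↥H), cj (h : G) V) = U := by simp [hU]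
  simp only [e] at h
  rcases h with h | h
  · exact Or.inl (inf_eq_left.1 h)
  · refine Or.inr ?_
    rw [inf_relIndex_left] at h
    refine h.trans_le ((relIndex_le_of_le_right inf_le_left index_ne_zero_of_finite).trans (le_of_eq ?_))
    exact inf_relIndex_left _ _

end Cfsg.Agent.H60.Qrc
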