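import Cfsg.Agent.H60.Qrc.Abelian
import Cfsg.Agent.H60.Qrc.Dist

/-!
The case `V ≤ O₂(H)` of the qrc lemma.
-/

set_option autoImplicit false
set_option linter.style.haveILetI false
set_option linter.unusedSectionVars false
set_option maxHeartbeats 1000000

open scoped commutatorElement

namespace Cfsg.Agent.H60.Qrc

open Subgroup
open Cfsg.Agent
open Cfsg.Agent.H34.MinOffender (cj mem_cj card_cj conj_mem_cj)
open Cfsg.Agent.H34.Para (cj_mul cj_one cj_mono cj_le cj_eq_self cj_inv_cj cj_cj_inv cj_eq_of_mem_normalizer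
  mem_normalizer_of_cj_eq)

universe u

variable {G : Type u} [Group G] [Finite G] {T : Sylow 2 G} {M₀ H N V : Subgroup G}

variable (c : Ctx T M₀ H N V)
include c

/-- The bound on a noncentral section with trivial action of `O₂(H)`. -/
theorem Ctx.section_bound {W₁ W₂ : Subgroup G} (hW₁₂ : W₁ ≤ W₂) (hW₂Q : W₂ ≤ Cfsg.pCoreOf 2 H)
    (hW₂el : Cfsg.IsElementaryAbelian 2 W₂) (hH₁ : H ≤ normalizer (W₁ : Set G))
    (hH₂ : H ≤ normalizer (W₂ : Set G)) (hQ : ⁅W₂, Cfsg.pCoreOf 2 H⁆ ≤ W₁)
    (hK : ¬ ⁅W₂, Cfsg.oddGenerated H⁆ ≤ W₁) {B : Subgroup G} (hB : B ≤ H)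
    (hBel : Cfsg.IsElementaryAbelian 2 B) :
    (Cfsg.pCoreOf 2 H).relIndex B ≤ (W₁ ⊔ (W₂ ⊓ centralizer (B : Set G))).relIndex W₂ := by
  classical
  haveI : Fact (Nat.Prime 2) := ⟨Nat.prime_two⟩
  set Q := Cfsg.pCoreOf 2 H
  have hW₂H : W₂ ≤ H := hW₂Q.trans c.hQH
  have hW₁H : W₁ ≤ H := hW₁₂.trans hW₂H
  haveI hn₁ : (W₁.subgroupOf H).Normal := (normal_subgroupOf_iff_le_normalizer hW₁H).2 hH₁
  let f : ↥H →* ↥H ⧸ W₁.subgroupOf H := QuotientGroup.mk' _
  have hfs : Function.Surjective f := QuotientGroup.mk'_surjective _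
  set U' := (W₂.subgroupOf H).map f
  haveI : U'.Normal := ((normal_subgroupOf_iff_le_normalizer hW₂H).2 hH₂).map f hfs
  set T' := T.subtype c.hTH
  have hT' : (T' : Subgroup ↥H) = (T : Subgroup G).subgroupOf H := Sylow.coe_subtype T c.hTH
  -- the kernel of the action on the section
  set S := ((centralizer (U' : Set (↥H ⧸ W₁.subgroupOf H))).comap f).map H.subtype with hSdef
  have hker : ∀ {g : G}, g ∈ S ↔ g ∈ H ∧ ∀ w ∈ W₂, ⁅w, g⁆ ∈ W₁ := by
    intro g
    constructor
    · rintro ⟨x, hx, rfl⟩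
      refine ⟨x.2, fun w hw => ?_⟩
      have := mem_centralizer_iff.1 hx (f ⟨w, hW₂H hw⟩) ⟨_, hw, rfl⟩
      rw [← commutatorElement_eq_one_iff_mul_comm, ← map_commutatorElement] at this
      exact mem_subgroupOf.1 ((QuotientGroup.eq_one_iff (N := W₁.subgroupOf H) _).1 this)
    · rintro ⟨hg, hw⟩
      refine ⟨⟨g, hg⟩, mem_centralizer_iff.2 ?_, rfl⟩
      rintro _ ⟨w, hwm, rfl⟩
      rw [← commutatorElement_eq_one_iff_mul_comm, ← map_commutatorElement]
      exact (QuotientGroup.eq_one_iff (N := W₁.subgroupOf H) _).2 (mem_subgroupOf.2 (hw w hwm))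
  have hSH : S ≤ H := map_subtype_le _
  have hQS : Q ≤ S := fun q hq => hker.2 ⟨c.hQH hq, fun w hw => hQ (commutator_mem_commutator hw hq)⟩
  have hHS : H ≤ normalizer (S : Set G) := by
    have hn : ((centralizer (U' : Set (↥H ⧸ W₁.subgroupOf H))).comap f).Normal := inferInstance
    have h := Subgroup.le_normalizer_map (H := (centralizer (U' : Set (↥H ⧸ W₁.subgroupOf H))).comap f) H.subtype
    rwa [normalizer_eq_top_iff.2 hn, ← MonoidHom.range_eq_map, Subgroup.range_subtype] at h
  have hKS : ¬ Cfsg.oddGenerated H ≤ S := fun h =>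
    hK (commutator_le.2 fun w hw k hk => (hker.1 (h hk)).2 w hw)
  have hTS : (T : Subgroup G) ⊓ S ≤ Q := (c.normal_dichotomy hSH hHS).resolve_left hKS
  have hsup : ∀ D : Subgroup ↥H, D.Normal → Cfsg.oddGenerated H ≤ D.map H.subtype →
      D ⊔ (T' : Subgroup ↥H) = ⊤ := fun D _ h => by
    refine eq_top_iff.2 fun y _ => ?_
    have hy : (y : G) ∈ (D.map H.subtype) ⊔ (T : Subgroup G) := by
      refine sup_le_sup_right h _ ?_
      rw [oddGenerated_sup_sylow T c.hTH]; exact y.2
    rw [← inf_eq_left.2 c.hTH, ← subgroupOf_map_subtype, ← hT', ← Subgroup.map_sup] at hy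
    obtain ⟨z, hz, e⟩ := hy
    rwa [show y = z from Subtype.ext e.symm]
  have hcomapT : ∀ Y : Subgroup (↥H ⧸ W₁.subgroupOf H), (T'.mapSurjective hfs : Subgroup _) ≤ Y →
      (T : Subgroup G) ≤ (Y.comap f).map H.subtype := by
    intro Y hY t ht
    refine ⟨⟨t, c.hTH ht⟩, hY ?_, rfl⟩
    rw [Sylow.coe_mapSurjective]
    exact ⟨_, by rw [hT']; exact ht, rfl⟩
  have m : Mdl (T'.mapSurjective hfs) ((N.subgroupOf H).map f) U' :=
    { el := ⟨IsMulCommutative.of_comm fun a b => Subtype.ext (by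
          obtain ⟨a', ha, ea⟩ := a.2
          obtain ⟨b', hb, eb⟩ := b.2
          haveI := hW₂el.1
          show (a : ↥H ⧸ W₁.subgroupOf H) * b = b * a
          rw [← ea, ← eb, ← map_mul, ← map_mul]
          exact congrArg f (Subtype.ext (setLike_mul_comm (s := W₂) ha hb))),
        by
          rintro _ ⟨a, ha, rfl⟩
          rw [← map_pow, show a ^ 2 = 1 from Subtype.ext (hW₂el.2 a ha), map_one]⟩
      hTN := by
        rw [Sylow.coe_mapSurjective, hT']
        exact map_mono fun x hx => c.hTN hx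
      hNne := fun e => c.hHne fun h hh => by
        obtain ⟨n, hn, e'⟩ := e.ge (mem_top (f ⟨h, hh⟩))
        have h1 : n⁻¹ * ⟨h, hh⟩ ∈ W₁.subgroupOf H := QuotientGroup.eq.1 e'
        have h2 : ((n⁻¹ * ⟨h, hh⟩ : ↥H) : G) ∈ N :=
          ((hW₁₂.trans hW₂Q).trans (c.hQT.trans c.hTN)) h1
        simpa using N.mul_mem hn h2
      hmax := fun Y hTY hY => by
        have hne : (Y.comap f).map H.subtype ≠ H := fun e => hY (eq_top_iff.2 fun y _ => by
          obtain ⟨x, rfl⟩ := hfs y
          obtain ⟨z, hz, e'⟩ := e.ge x.2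
          rwa [show x = z from Subtype.ext e'.symm])
        intro y hy
        obtain ⟨x, rfl⟩ := hfs y
        exact ⟨x, c.hmax _ (hcomapT Y hTY) (map_subtype_le _) hne ⟨x, hy, rfl⟩, rfl⟩
      dich := fun D hD => by
        rw [or_iff_not_imp_left]
        intro hne
        have hn : H ≤ normalizer ((D.comap f).map H.subtype : Set G) := by
          have h := Subgroup.le_normalizer_map (H := D.comap f) H.subtype
          rwa [normalizer_eq_top_iff.2 inferInstance, ← MonoidHom.range_eq_map, Subgroup.range_subtype] at h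
        rintro x ⟨hxT, hxD⟩
        rw [Sylow.coe_mapSurjective] at hxT
        obtain ⟨t, ht, rfl⟩ := hxT
        rw [hT', SetLike.mem_coe, mem_subgroupOf] at ht
        rcases c.normal_dichotomy (map_subtype_le _) hn with h | h
        · refine absurd (eq_top_iff.2 fun y _ => ?_) hne
          obtain ⟨z, rfl⟩ := hfs y
          have hz := mem_map_of_mem f ((hsup _ inferInstance h).ge (mem_top z))
          rw [Subgroup.map_sup, Subgroup.map_comap_eq_self_of_surjective hfs] at hz
          rwa [Sylow.coe_mapSurjective]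
        · obtain ⟨z, hz, e⟩ := hQS (h ⟨ht, ⟨t, hxD, rfl⟩⟩)
          rw [show t = z from Subtype.ext e.symm]
          exact hz
      nontriv := fun e => hKS <| c.oddGenerated_le_of_sup hSH hHS (le_antisymm (sup_le hSH c.hTH) fun h hh => by
          have hz := e.ge (mem_top (f ⟨h, hh⟩))
          rw [Sylow.coe_mapSurjective, ← Subgroup.map_comap_eq_self_of_surjective hfs
            (centralizer (U' : Set (↥H ⧸ W₁.subgroupOf H))), ← Subgroup.map_sup] at hz
          obtain ⟨z, hz', e'⟩ := hz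
          have hker' : f.ker ≤ (centralizer (U' : Set (↥H ⧸ W₁.subgroupOf H))).comap f := ker_le_comap _ _
          have h1 : z⁻¹ * ⟨h, hh⟩ ∈ (centralizer (U' : Set (↥H ⧸ W₁.subgroupOf H))).comap f :=
            hker' (by rw [MonoidHom.mem_ker, map_mul, map_inv, e', inv_mul_cancel])
          have h2 := mem_map_of_mem H.subtype (mul_mem hz' (mem_sup_left (T := (T' : Subgroup ↥H)) h1))
          rw [mul_inv_cancel_left, Subgroup.map_sup, hT', subgroupOf_map_subtype, inf_eq_left.2 c.hTH] at h2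
          exact h2) }
  have hcomm : ∀ b ∈ (B.subgroupOf H).map f, ∀ b' ∈ (B.subgroupOf H).map f,
      ⁅b, b'⁆ ∈ centralizer (U' : Set (↥H ⧸ W₁.subgroupOf H)) := by
    rintro _ ⟨b, hb, rfl⟩ _ ⟨b', hb', rfl⟩
    haveI := hBel.1
    rw [commutatorElement_eq_one_iff_mul_comm.2 (by
      rw [← map_mul, ← map_mul]; exact congrArg f (Subtype.ext (setLike_mul_comm (s := B) hb hb')))]
    exact one_mem _
  have hsq : ∀ b ∈ (B.subgroupOf H).map f, b ^ 2 ∈ centralizer (U' : Set (↥H ⧸ W₁.subgroupOf H)) := by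
    rintro _ ⟨b, hb, rfl⟩
    rw [← map_pow, show b ^ 2 = 1 from Subtype.ext (hBel.2 b hb), map_one]
    exact one_mem _
  have hb := m.bound hcomm hsq
  rw [← relIndex_comap, ← relIndex_comap] at hb
  refine le_trans ?_ (hb.trans ?_)
  · -- the kernel meets `B` inside `O₂(H)`
    have hBS : B ⊓ S ≤ Q := by
      obtain ⟨h, hh, hle⟩ := exists_conj_le T c.hTH (inf_le_left.trans hB)
        ((isPGroup_two hBel).to_le (inf_le_left : B ⊓ S ≤ B))
      have h1 : cj h (B ⊓ S) ≤ Q :=
        (le_inf hle ((cj_mono h inf_le_right).trans (cj_eq_of_mem_normalizer (hHS hh)).le)).trans hTS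
      rw [← cj_le_cj_iff (x := h), c.cj_Q hh]
      exact h1
    rw [← relIndex_subgroupOf hB, ← inf_relIndex_right ((centralizer (U' : Set (↥H ⧸ W₁.subgroupOf H))).comap f)]
    refine relIndex_le_of_le_left (fun x hx => ?_) index_ne_zero_of_finite
    exact hBS ⟨hx.2, ⟨x, hx.1, rfl⟩⟩
  · rw [← inf_relIndex_right ((centralizer (((B.subgroupOf H).map f : Subgroup _) : Set _)).comap f),
      ← relIndex_subgroupOf hW₂H (H := W₁ ⊔ (W₂ ⊓ centralizer (B : Set G)))]
    refine relIndex_le_of_le_left ?_ index_ne_zero_of_finite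
    rw [subgroupOf_sup hW₁H (inf_le_left.trans hW₂H)]
    refine sup_le (fun x hx => ⟨?_, hW₁₂ hx⟩) fun x hx => ⟨mem_centralizer_iff.2 ?_, hx.1⟩
    · show f x ∈ centralizer (((B.subgroupOf H).map f : Subgroup _) : Set (↥H ⧸ W₁.subgroupOf H))
      rw [show f x = 1 from (QuotientGroup.eq_one_iff x).2 hx]
      exact one_mem _
    · rintro _ ⟨b, hb, rfl⟩
      rw [← map_mul, ← map_mul]
      exact congrArg f (Subtype.ext (mem_centralizer_iff.1 hx.2 b hb))

/-- The case `V ≤ O₂(H)`. -/
theorem Ctx.false_of_le (hq : QFail V) (hVQ : V ≤ Cfsg.pCoreOf 2 H) (hVne : V ≠ ⊥)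
    (hno : ∀ R₀ : Subgroup G, R₀ ≠ ⊥ → R₀ ≤ Cfsg.pCoreOf 2 M₀ → ¬ M₀ ⊔ H ≤ normalizer (R₀ : Set G)) :
    False := by
  classical
  set K := Cfsg.oddGenerated H
  set Q := Cfsg.pCoreOf 2 H
  set R := Cfsg.pCoreOf 2 M₀
  obtain ⟨U, hUdef⟩ : ∃ U : Subgroup G, U = ⨆ h : ↥H, cj (h : G) V := ⟨_, rfl⟩
  have hmemU : ∀ {h : G}, h ∈ H → cj h V ≤ U := fun {h} hh =>
    hUdef ▸ le_iSup (fun h : ↥H => cj (h : G) V) ⟨h, hh⟩
  have hVU : V ≤ U := by have := hmemU H.one_mem; rwa [cj_one] at this
  have hUQ : U ≤ Q := hUdef ▸ iSup_le fun h => (cj_mono _ hVQ).trans (c.cj_Q h.2).le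
  have hHU : H ≤ normalizer (U : Set G) := fun g hg => by
    refine mem_normalizer_of_cj_eq (eq_of_le_of_card_ge ?_ (card_cj _ _).ge)
    rw [hUdef, cj_iSup]
    refine iSup_le fun h => ?_
    rw [← cj_mul]
    exact le_iSup (fun h : ↥H => cj (h : G) V) (⟨g, hg⟩ * h)
  have hcomm : ∀ a b : ↥H, cj (a : G) V ≤ centralizer (cj (b : G) V : Set G) := fun a b =>
    asym hq c.hVel ((((cj_mono _ hVQ).trans (c.cj_Q a.2).le)).trans (c.Q_normalizes b.2))
      ((((cj_mono _ hVQ).trans (c.cj_Q b.2).le)).trans (c.Q_normalizes a.2))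
  have hUc : U ≤ centralizer (U : Set G) := by
    rw [hUdef]
    exact iSup_le fun a => le_centralizer_iff.1 (iSup_le fun b => hcomm b a)
  have hUel : Cfsg.IsElementaryAbelian 2 U := by
    refine ⟨IsMulCommutative.of_comm fun a b => Subtype.ext (mem_centralizer_iff.1 (hUc b.2) a a.2), ?_⟩
    intro x hx
    rw [hUdef] at hx
    refine Subgroup.iSup_induction' (fun h : ↥H => cj (h : G) V) (C := fun y _ => y ^ 2 = 1)
      (fun h y hy => (isElementaryAbelian_cj c.hVel (h : G)).2 y hy) (one_pow _)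
      (fun y z hy hz h1 h2 => by
        rw [← hUdef] at hy hz
        rw [(show Commute y z from mem_centralizer_iff.1 (hUc hz) y hy).mul_pow, h1, h2, one_mul]) hx
  have hUR : U ≤ R := by
    show U ≤ Cfsg.pCoreOf 2 M₀
    rw [c.hR]
    exact le_inf (hUQ.trans c.hQT) (hUc.trans (centralizer_le hVU))
  have hUH : U ≤ H := hUQ.trans c.hQH
  have hgen : ∀ Y : Subgroup G, Y ≤ U → V ≤ Y → H ≤ normalizer (Y : Set G) → Y = U := by
    intro Y hYU hVY hHY
    refine le_antisymm hYU (hUdef ▸ iSup_le fun h => ?_)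
    exact (cj_mono _ hVY).trans (cj_eq_of_mem_normalizer (hHY h.2)).le
  -- the closure of `V` under `N`
  set W := ⨆ n : ↥N, cj (n : G) V
  have hWU : W ≤ U := iSup_le fun n => hmemU (c.hNH n.2)
  have hVW : V ≤ W := by
    refine le_trans ?_ (le_iSup (fun n : ↥N => cj (n : G) V) 1)
    rw [OneMemClass.coe_one, cj_one]
  have hNW : N ≤ normalizer (W : Set G) := fun g hg => by
    refine mem_normalizer_of_cj_eq (eq_of_le_of_card_ge ?_ (card_cj _ _).ge)
    rw [cj_iSup]
    refine iSup_le fun h => ?_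
    rw [← cj_mul]
    exact le_iSup (fun n : ↥N => cj (n : G) V) (⟨g, hg⟩ * h)
  have hM₀W : M₀ ≤ normalizer (W : Set G) := by
    rcases c.hI with hK | hV
    · rw [← oddGenerated_sup_sylow T c.hTM₀]
      refine sup_le (fun k hk => ?_) (c.hTN.trans hNW)
      refine mem_normalizer_of_cj_eq (eq_of_le_of_card_ge ?_ (card_cj _ _).ge)
      rw [cj_iSup]
      refine iSup_le fun n => ?_
      rw [show k = (n : G) * ((n : G)⁻¹ * k * n) * (n : G)⁻¹ by group, ← cj_mul,
        show (n : G) * ((n : G)⁻¹ * k * n) * (n : G)⁻¹ * n = n * ((n : G)⁻¹ * k * n) by group, cj_mul,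
        cj_eq_of_mem_normalizer (c.hM₀V (oddGenerated_le M₀ ((mem_normalizer_iff''.1 (hK n.2) k).1 hk)))]
      exact le_iSup (fun n : ↥N => cj (n : G) V) n
    · have e : W = V := le_antisymm (iSup_le fun n => (cj_eq_of_mem_normalizer (hV n.2)).le) hVW
      rw [e]; exact c.hM₀V
  have hHW : ¬ H ≤ normalizer (W : Set G) := fun h =>
    hno W (fun e => hVne (le_bot_iff.1 (e ▸ hVW))) (hWU.trans hUR) (sup_le hM₀W h)
  have hUK : ¬ K ≤ centralizer (U : Set G) := fun h =>
    hHW (c.normalizes_of (c.hTN.trans hNW) (le_normalizer_of_le_centralizer (h.trans (centralizer_le hWU))))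
  obtain ⟨g, hg₁, hg₂, hg₃, hg₄, hg₅⟩ := c.exists_far_pair hq hno hVne hUdef hUQ hUR
  have hconjside : cj g⁻¹ U ≤ H ∧ U ≤ normalizer (cj g⁻¹ U : Set G) ∧ ¬ cj g⁻¹ U ≤ Q := by
    refine ⟨?_, ?_, fun h => hg₅ ?_⟩
    · rw [← cj_le_cj_iff (x := g), cj_cj_inv]; exact hg₁
    · rw [← cj_le_cj_iff (x := g), cj_normalizer, cj_cj_inv]; exact hg₄
    · rw [← cj_le_cj_iff (x := g⁻¹), cj_inv_cj]; exact h
  -- the data of one side
  have side : ∀ B : Subgroup G, B ≤ H → Cfsg.IsElementaryAbelian 2 B → U ≤ normalizer (B : Set G) →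
      ∃ x : ℕ, (centralizer (U : Set G)).relIndex B ≤ Q.relIndex B * x ∧
        (x = 1 ∨ x ^ 2 < (centralizer ((B ⊓ Q : Subgroup G) : Set G)).relIndex U) := by
    intro B hBH hBel hUB
    refine ⟨(centralizer (U : Set G)).relIndex (B ⊓ Q), ?_, ?_⟩
    · rw [mul_comm, ← inf_relIndex_left B Q, ← inf_relIndex_right (centralizer (U : Set G)) (B ⊓ Q),
        relIndex_mul_relIndex _ _ _ inf_le_right inf_le_left]
      exact relIndex_le_of_le_left inf_le_left index_ne_zero_of_finite
    · have hquad : ⁅⁅U, B ⊓ Q⁆, B ⊓ Q⁆ = ⊥ := le_bot_iff.1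
        ((commutator_mono ((commutator_mono le_rfl inf_le_left).trans
          (le_normalizer_iff_commutator_le_right.1 hUB)) inf_le_left).trans
          (commutator_eq_bot_iff_le_centralizer.2 (le_centralizer_self hBel)).le)
      rcases c.sq_bound hq hUdef hUel inf_le_right (H34.isElementaryAbelian_mono hBel inf_le_left) hquad with h | h
      · exact Or.inl (relIndex_eq_one.2 h)
      · exact Or.inr h
  have hswap1 : (centralizer (U : Set G)).relIndex (cj g⁻¹ U) = (centralizer (cj g U : Set G)).relIndex U := by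
    rw [← relIndex_cj g, cj_centralizer, cj_cj_inv]
  have hswap2 : (centralizer (cj g⁻¹ U : Set G)).relIndex U = (centralizer (U : Set G)).relIndex (cj g U) := by
    rw [← relIndex_cj g, cj_centralizer, cj_cj_inv]
  have hel : ∀ x : G, Cfsg.IsElementaryAbelian 2 (cj x U) := isElementaryAbelian_cj hUel
  have hgt : 1 < Q.relIndex (cj g⁻¹ U) := by
    have h1 := relIndex_pos Q (cj g⁻¹ U)
    have h2 : Q.relIndex (cj g⁻¹ U) ≠ 1 := fun e => hconjside.2.2 (relIndex_eq_one.1 e)
    omega
  by_cases hI : ∃ D : Subgroup G, D ≤ U ∧ H ≤ normalizer (D : Set G) ∧ ¬ K ≤ centralizer (D : Set G) ∧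
      ¬ ⁅U, K⁆ ≤ D
  · -- two noncentral factors
    obtain ⟨D, hDU, hHD, hDK, hUD⟩ := hI
    have hDK' : ¬ ⁅D, K⁆ ≤ ⊥ := fun h =>
      hDK (le_centralizer_iff.1 (commutator_eq_bot_iff_le_centralizer.1 (le_bot_iff.1 h)))
    obtain ⟨W₁, W₂, -, h12, h2D, hn1, hn2, hQ2, hK2⟩ := c.exists_section hUc hUQ hDU bot_le
      (fun h _ => mem_normalizer_of_cj_eq (cj_bot h)) hHD hDK'
    obtain ⟨W₃, W₄, hD3, h34, h4U, hn3, hn4, hQ4, hK4⟩ := c.exists_section hUc hUQ le_rfl hDU hHD hHU hUD
    have hsq : ∀ B : Subgroup G, B ≤ H → Cfsg.IsElementaryAbelian 2 B →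
        Q.relIndex B ^ 2 ≤ (centralizer (B : Set G)).relIndex U := by
      intro B hBH hBel
      have k1 := c.section_bound h12 ((h2D.trans hDU).trans hUQ)
        (H34.isElementaryAbelian_mono hUel (h2D.trans hDU)) hn1 hn2 hQ2 hK2 hBH hBel
      have k2 := c.section_bound h34 (h4U.trans hUQ) (H34.isElementaryAbelian_mono hUel h4U) hn3 hn4 hQ4 hK4
        hBH hBel
      set C₄ := W₄ ⊓ centralizer (B : Set G)
      have h1 : (centralizer (B : Set G)).relIndex W₂ ≥
          (W₁ ⊔ (W₂ ⊓ centralizer (B : Set G))).relIndex W₂ := by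
        rw [← inf_relIndex_left W₂ (centralizer (B : Set G))]
        exact relIndex_le_of_le_left le_sup_right index_ne_zero_of_finite
      have h2 : (centralizer (B : Set G)).relIndex W₂ ≤ C₄.relIndex (W₃ ⊔ C₄) :=
        (relIndex_le_of_le_right ((h2D.trans hD3).trans le_sup_left) index_ne_zero_of_finite).trans
          (relIndex_le_of_le_left inf_le_right index_ne_zero_of_finite)
      have h3 : C₄.relIndex (W₃ ⊔ C₄) * (W₃ ⊔ C₄).relIndex W₄ = C₄.relIndex W₄ :=
        relIndex_mul_relIndex _ _ _ le_sup_right (sup_le h34 inf_le_left)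
      have h4 : C₄.relIndex W₄ ≤ (centralizer (B : Set G)).relIndex U := by
        rw [inf_relIndex_left]
        exact relIndex_le_of_le_right h4U index_ne_zero_of_finite
      rw [pow_two]
      exact (Nat.mul_le_mul ((k1.trans h1).trans h2) k2).trans (h3.le.trans h4)
    obtain ⟨x, hx1, hx2⟩ := side (cj g U) hg₂ (hel g) hg₃
    obtain ⟨x', hx1', hx2'⟩ := side (cj g⁻¹ U) hconjside.1 (hel g⁻¹) hconjside.2.1
    have ha := hsq (cj g U) hg₂ (hel g)
    have ha' := hsq (cj g⁻¹ U) hconjside.1 (hel g⁻¹)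
    have hm : (centralizer ((cj g U ⊓ Q : Subgroup G) : Set G)).relIndex U ≤
        (centralizer (cj g U : Set G)).relIndex U :=
      relIndex_le_of_le_left (centralizer_le inf_le_left) index_ne_zero_of_finite
    have hm' : (centralizer ((cj g⁻¹ U ⊓ Q : Subgroup G) : Set G)).relIndex U ≤
        (centralizer (cj g⁻¹ U : Set G)).relIndex U :=
      relIndex_le_of_le_left (centralizer_le inf_le_left) index_ne_zero_of_finite
    rw [hswap1] at hx1'
    rw [hswap2] at ha' hm'
    set c₁ := (centralizer (U : Set G)).relIndex (cj g U)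
    set c₂ := (centralizer (cj g U : Set G)).relIndex U
    set a := Q.relIndex (cj g U)
    set a' := Q.relIndex (cj g⁻¹ U)
    have key : ∀ {a x c c' y : ℕ}, c ≤ a * x → a ^ 2 ≤ c' → (x = 1 ∨ x ^ 2 < y) → y ≤ c' →
        c < c' ∨ c ^ 2 ≤ c' := by
      intro a x c c' y h1 h2 h3 h4
      rcases h3 with rfl | h3
      · refine Or.inr ?_
        rw [mul_one] at h1
        exact (Nat.pow_le_pow_left h1 2).trans h2
      · refine Or.inl (lt_of_not_ge fun hge => ?_)
        have e1 := Nat.pow_le_pow_left (hge.trans h1) 2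
        rw [mul_pow] at e1
        nlinarith [Nat.mul_le_mul h2 (le_of_lt (h3.trans_le h4)), Nat.zero_le (a ^ 2)]
    have k1 := key hx1 ha hx2 hm
    have k2 := key hx1' ha' hx2' hm'
    have h4 : 1 < c₁ := by nlinarith
    have h5 : 1 ≤ c₂ := relIndex_pos _ _
    rcases k1 with k1 | k1 <;> rcases k2 with k2 | k2 <;> nlinarith
  · -- one noncentral factor
    push Not at hI
    have hU2 : ∀ D : Subgroup G, D ≤ U → H ≤ normalizer (D : Set G) →
        K ≤ centralizer (D : Set G) ∨ ⁅U, K⁆ ≤ D := fun D hD hn => by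
      by_cases h : K ≤ centralizer (D : Set G)
      · exact Or.inl h
      · exact Or.inr (hI D hD hn h)
    have hQn : Q ≤ normalizer (U : Set G) := c.hQH.trans hHU
    have hUQU : ⁅U, Q⁆ ≤ U := le_normalizer_iff_commutator_le_left.1 hQn
    have hQU : ⁅U, Q⁆ ≤ centralizer (K : Set G) := by
      rcases hU2 ⁅U, Q⁆ hUQU (H83.le_normalizer_commutator hHU c.hHQ) with h | h
      · exact le_centralizer_iff.1 h
      exfalso
      set Y := W ⊔ ⁅U, Q⁆
      have hYU : Y ≤ U := sup_le hWU hUQU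
      have hHY : H ≤ normalizer (Y : Set G) := c.normalizes_of
        (H83.le_normalizer_sup (c.hTN.trans hNW) (c.hTH.trans (H83.le_normalizer_commutator hHU c.hHQ)))
        (le_normalizer_iff_commutator_le_left.2 (((commutator_mono hYU le_rfl).trans h).trans le_sup_right))
      have e := hgen Y hYU (hVW.trans le_sup_left) hHY
      refine hHW ?_
      rw [le_antisymm hWU (le_of_le_sup_commutator c.hQp hUQ le_rfl hWU hUc hQn
        ((c.hQT.trans c.hTN).trans hNW) e.ge)]
      exact hHU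
    have hQ0 := c.one_factor hq hVU hUel hUQ hHU hUK hgen hU2 hQU
    set F := U ⊓ centralizer (Q : Set G)
    have hSF : ⁅U, K⁆ ≤ F := by
      refine le_inf (le_normalizer_iff_commutator_le_left.1 ((oddGenerated_le H).trans hHU)) ?_
      refine commutator_eq_bot_iff_le_centralizer.1 (commutator_commutator_eq_bot_of_rotate ?_ ?_)
      · rw [commutator_comm K Q]; exact commutator_eq_bot_iff_le_centralizer.2 hQ0
      · rw [commutator_comm Q U]; exact commutator_eq_bot_iff_le_centralizer.2 hQU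
    have hHF : H ≤ normalizer (F : Set G) := le_normalizer_inf' hHU (le_normalizer_centralizer c.hHQ)
    have hFK : ¬ K ≤ centralizer (F : Set G) := fun h => hUK (le_centralizer_iff.1
      (commutator_eq_bot_iff_le_centralizer.1 (by
        rw [← c.comm_idem (c.hQp.to_le hUQ) hHU]
        exact le_bot_iff.1 ((commutator_mono hSF le_rfl).trans
          (commutator_eq_bot_iff_le_centralizer.2 (le_centralizer_iff.1 h)).le))))
    have hFU : F ≤ U := inf_le_left
    have hFel := H34.isElementaryAbelian_mono hUel hFU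
    have hFQ : Q ≤ centralizer (F : Set G) := le_centralizer_iff.1 inf_le_right
    have hFQ' : ⁅F, Q⁆ ≤ ⊥ := (commutator_eq_bot_iff_le_centralizer.2 inf_le_right).le
    have hFK' : ¬ ⁅F, K⁆ ≤ ⊥ := fun h =>
      hFK (le_centralizer_iff.1 (commutator_eq_bot_iff_le_centralizer.1 (le_bot_iff.1 h)))
    have hbound : ∀ B : Subgroup G, B ≤ H → Cfsg.IsElementaryAbelian 2 B →
        Q.relIndex B ≤ (centralizer (B : Set G)).relIndex F := fun B hBH hBel => by
      have := c.section_bound bot_le (hFU.trans hUQ) hFel (fun h _ => mem_normalizer_of_cj_eq (cj_bot h)) hHF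
        hFQ' hFK' hBH hBel
      rwa [bot_sup_eq, inf_relIndex_left] at this
    have hprod : ∀ B : Subgroup G, B ≤ H →
        (centralizer ((B ⊓ Q : Subgroup G) : Set G)).relIndex U * (centralizer (B : Set G)).relIndex F ≤
          (centralizer (B : Set G)).relIndex U ∧
        (F ⊔ (U ⊓ centralizer (B : Set G))).relIndex U * (centralizer (B : Set G)).relIndex F ≤
          (centralizer (B : Set G)).relIndex U := by
      intro B hBH
      set C := U ⊓ centralizer (B : Set G)
      have h1 : C.relIndex (F ⊔ C) * (F ⊔ C).relIndex U = (centralizer (B : Set G)).relIndex U := by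
        rw [relIndex_mul_relIndex _ _ _ le_sup_right (sup_le hFU inf_le_left), inf_relIndex_left]
      have h2 : (centralizer (B : Set G)).relIndex F ≤ C.relIndex (F ⊔ C) :=
        (relIndex_le_of_le_right le_sup_left index_ne_zero_of_finite).trans
          (relIndex_le_of_le_left inf_le_right index_ne_zero_of_finite)
      have h3 : (centralizer ((B ⊓ Q : Subgroup G) : Set G)).relIndex U ≤ (F ⊔ C).relIndex U :=
        relIndex_le_of_le_left (sup_le (inf_le_right.trans (centralizer_le inf_le_right))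
          (inf_le_right.trans (centralizer_le inf_le_left))) index_ne_zero_of_finite
      rw [← h1, mul_comm (C.relIndex _)]
      exact ⟨Nat.mul_le_mul h3 h2, Nat.mul_le_mul le_rfl h2⟩
    have analyse : ∀ {a x c c' y q p : ℕ}, c ≤ a * x → a ≤ q → (x = 1 ∨ x ^ 2 < y) → y * q ≤ c' → p * q ≤ c' →
        1 ≤ y → 1 ≤ p → 1 ≤ a → c ≤ c' ∧ (c' ≤ c → q ≤ a ∧ p = 1) := by
      intro a x c c' y q p h1 h2 h3 h4 h4' hy hp ha
      rcases h3 with rfl | h3
      · rw [mul_one] at h1
        refine ⟨?_, fun h => ⟨?_, ?_⟩⟩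
        · nlinarith
        · nlinarith
        · nlinarith
      · have h5 : c < c' := by
          rcases Nat.eq_zero_or_pos x with rfl | hx
          · nlinarith
          · have h6 : a * x < q * y := by
              calc a * x ≤ q * x ^ 2 := Nat.mul_le_mul h2 (Nat.le_self_pow two_ne_zero x)
                _ < q * y := Nat.mul_lt_mul_of_pos_left h3 (by omega)
            nlinarith
        exact ⟨h5.le, fun h => absurd h5 (not_lt.2 h)⟩
    obtain ⟨x, hx1, hx2⟩ := side (cj g U) hg₂ (hel g) hg₃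
    obtain ⟨x', hx1', hx2'⟩ := side (cj g⁻¹ U) hconjside.1 (hel g⁻¹) hconjside.2.1
    have A1 := analyse hx1 (hbound _ hg₂ (hel g)) hx2 (hprod _ hg₂).1 (hprod _ hg₂).2 (relIndex_pos _ _)
      (relIndex_pos _ _) (relIndex_pos _ _)
    have A2 := analyse hx1' (hbound _ hconjside.1 (hel g⁻¹)) hx2' (hprod _ hconjside.1).1 (hprod _ hconjside.1).2
      (relIndex_pos _ _) (relIndex_pos _ _) (relIndex_pos _ _)
    have hle := A1.1
    rw [← hswap1, ← hswap2] at hle
    obtain ⟨hoff, hp⟩ := A2.2 hle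
    set B := cj g⁻¹ U with hBdef
    have hBF : Q.relIndex B ≤ (centralizer (F : Set G)).relIndex B := by
      have hS : H ≤ normalizer ((H ⊓ centralizer (F : Set G) : Subgroup G) : Set G) :=
        le_normalizer_inf' le_normalizer (le_normalizer_centralizer hHF)
      have hTS := (c.normal_dichotomy inf_le_left hS).resolve_left fun h => hFK (h.trans inf_le_right)
      obtain ⟨h, hh, hle'⟩ := exists_conj_le T c.hTH (inf_le_left.trans hconjside.1)
        ((isPGroup_two (hel g⁻¹)).to_le (inf_le_left : B ⊓ centralizer (F : Set G) ≤ B))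
      have hBc : B ⊓ centralizer (F : Set G) ≤ Q := by
        rw [← cj_le_cj_iff (x := h), c.cj_Q hh]
        refine (le_inf hle' ?_).trans hTS
        exact (cj_mono h (inf_le_inf_right _ hconjside.1)).trans (cj_eq_of_mem_normalizer (hS hh)).le
      rw [← inf_relIndex_left B (centralizer (F : Set G))]
      exact relIndex_le_of_le_left hBc index_ne_zero_of_finite
    have hBnot : ¬ B ≤ centralizer (F : Set G) := fun h => by
      rw [relIndex_eq_one.2 h] at hBF
      omega
    have hres := c.residual_le hq hVU hHU hUel hFU (hFU.trans hUH) hHF hFQ hFK hQ0 hconjside.1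
      (isPGroup_two (hel g⁻¹))
      (fun b hb b' hb' => by
        haveI := (hel g⁻¹).1
        rw [commutatorElement_eq_one_iff_mul_comm.2 (setLike_mul_comm (s := B) hb hb')]
        exact one_mem _)
      (fun b hb => by rw [(hel g⁻¹).2 b hb]; exact one_mem _) hBnot (relIndex_eq_one.1 hp) (hoff.trans hBF)
    obtain ⟨R₀, h1, h2, h3⟩ := c.exists_common_of_le (fun e => hVne (le_bot_iff.1 (e ▸ c.hVR))) hres
    exact hno R₀ h1 h2 h3

end Cfsg.Agent.H60.Qrc
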