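import Cfsg.Agent.H60.Qrc.Basic

/-!
The standing hypotheses of the qrc lemma and their first consequences.
-/

set_option autoImplicit false
set_option linter.style.haveILetI false
set_option linter.unusedSectionVars false

open scoped commutatorElement

namespace Cfsg.Agent.H60.Qrc

open Subgroup
open Cfsg.Agent
open Cfsg.Agent.H34.MinOffender (cj mem_cj card_cj conj_mem_cj)
open Cfsg.Agent.H34.Para (cj_mul cj_one cj_mono cj_le cj_eq_self cj_eq_of_mem_normalizer mem_normalizer_of_cj_eq)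

universe u

variable {G : Type u} [Group G] [Finite G]

/-- The standing hypotheses. -/
structure Ctx (T : Sylow 2 G) (M₀ H N V : Subgroup G) : Prop where
  hE : Cfsg.IsOfEvenCharacteristic G
  hTH : (T : Subgroup G) ≤ H
  hTN : (T : Subgroup G) ≤ N
  hNH : N ≤ H
  hNne : N ≠ H
  hmax : ∀ X, (T : Subgroup G) ≤ X → X ≤ H → X ≠ H → X ≤ N
  hchar : H72.IsCharP 2 H
  hTM₀ : (T : Subgroup G) ≤ M₀
  hVM₀ : V ≤ M₀
  hM₀V : M₀ ≤ normalizer (V : Set G)
  hVel : Cfsg.IsElementaryAbelian 2 V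
  hred : ∀ X : Subgroup G, X ≤ M₀ → M₀ ≤ normalizer (X : Set G) →
    M₀ ⊓ centralizer (V : Set G) ≤ X →
      (∃ k : ℕ, (M₀ ⊓ centralizer (V : Set G)).relIndex X = 2 ^ k) → X = M₀ ⊓ centralizer (V : Set G)
  hR : Cfsg.pCoreOf 2 M₀ = (T : Subgroup G) ⊓ centralizer (V : Set G)
  hI : N ≤ normalizer (Cfsg.oddGenerated M₀ : Set G) ∨ N ≤ normalizer (V : Set G)

variable {T : Sylow 2 G} {M₀ H N V : Subgroup G}

theorem le_normalizer_of_forall {B X : Subgroup G} (h : ∀ b ∈ B, ∀ x ∈ X, b * x * b⁻¹ ∈ X) :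
    B ≤ normalizer (X : Set G) := fun b hb => by
  rw [mem_normalizer_iff]
  refine fun x => ⟨h b hb x, fun hx => ?_⟩
  have := h b⁻¹ (B.inv_mem hb) _ hx
  simpa [mul_assoc] using this

theorem oddGenerated_le (X : Subgroup G) : Cfsg.oddGenerated X ≤ X :=
  (closure_le _).2 fun _ hx => hx.1

theorem le_normalizer_oddGenerated (X : Subgroup G) :
    X ≤ normalizer (Cfsg.oddGenerated X : Set G) := by
  rw [H73.QT.oddGenerated_eq]
  exact le_normalizer.trans (H72.normalizer_le_normalizer_pResidual X)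

theorem oddGenerated_sup_sylow (T : Sylow 2 G) {X : Subgroup G} (hTX : (T : Subgroup G) ≤ X) :
    Cfsg.oddGenerated X ⊔ (T : Subgroup G) = X := by
  have h := congrArg (Subgroup.map X.subtype) (H22.pResidual_sup_sylow (T.subtype hTX))
  rwa [Subgroup.map_sup, Sylow.coe_subtype, subgroupOf_map_subtype, inf_eq_left.2 hTX,
    ← MonoidHom.range_eq_map, Subgroup.range_subtype, ← H73.QT.oddGenerated_eq] at h

variable (c : Ctx T M₀ H N V)
include c

theorem Ctx.hHne : ¬ H ≤ N := fun h => c.hNne (le_antisymm c.hNH h)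

/-- `O₂(H)` lies in `T`. -/
theorem Ctx.hQT : Cfsg.pCoreOf 2 H ≤ (T : Subgroup G) := H73.QT.pCoreOf_le_sylow T c.hTH

theorem Ctx.hQH : Cfsg.pCoreOf 2 H ≤ H := H72.pCoreOf_le 2 H

theorem Ctx.hQp : IsPGroup 2 (Cfsg.pCoreOf 2 H) := H72.pCoreOf_isPGroup 2 H

theorem Ctx.hHQ : H ≤ normalizer (Cfsg.pCoreOf 2 H : Set G) := H72.le_normalizer_pCoreOf 2 H

theorem Ctx.cj_Q {h : G} (hh : h ∈ H) : cj h (Cfsg.pCoreOf 2 H) = Cfsg.pCoreOf 2 H :=
  cj_eq_of_mem_normalizer (c.hHQ hh)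

theorem Ctx.cent_Q {x : G} (hx : x ∈ H) (hxc : x ∈ centralizer (Cfsg.pCoreOf 2 H : Set G)) :
    x ∈ Cfsg.pCoreOf 2 H := c.hchar x hx hxc

theorem Ctx.hR2 : IsPGroup 2 (Cfsg.pCoreOf 2 M₀) := H72.pCoreOf_isPGroup 2 M₀

theorem Ctx.hM₀R : M₀ ≤ normalizer (Cfsg.pCoreOf 2 M₀ : Set G) := H72.le_normalizer_pCoreOf 2 M₀

theorem Ctx.hRT : Cfsg.pCoreOf 2 M₀ ≤ (T : Subgroup G) := c.hR ▸ inf_le_left

theorem Ctx.hVR : V ≤ Cfsg.pCoreOf 2 M₀ := H72.le_pCoreOf c.hVM₀ c.hM₀V (isPGroup_two c.hVel)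

theorem Ctx.hVT : V ≤ (T : Subgroup G) := c.hVR.trans c.hRT

theorem Ctx.hVH : V ≤ H := c.hVT.trans c.hTH

theorem Ctx.hTV : (T : Subgroup G) ≤ normalizer (V : Set G) := c.hTM₀.trans c.hM₀V

theorem Ctx.hQV : Cfsg.pCoreOf 2 H ≤ normalizer (V : Set G) := c.hQT.trans c.hTV

theorem Ctx.Q_normalizes {h : G} (hh : h ∈ H) : Cfsg.pCoreOf 2 H ≤ normalizer (cj h V : Set G) := by
  rw [← cj_normalizer, ← c.cj_Q hh]
  exact cj_mono h c.hQV

theorem Ctx.cjV_le {h : G} (hh : h ∈ H) : cj h V ≤ H := cj_le hh c.hVH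

/-- The unique maximal subgroup over `T`, inside `H`. -/
theorem Ctx.unique : ∃! K : Subgroup ↥H, IsCoatom K ∧ (T : Subgroup G).subgroupOf H ≤ K := by
  have hne : N.subgroupOf H ≠ ⊤ := fun h => c.hHne (subgroupOf_eq_top.1 h)
  have key : ∀ K : Subgroup ↥H, K ≠ ⊤ → (T : Subgroup G).subgroupOf H ≤ K → K ≤ N.subgroupOf H := by
    intro K hK hTK x hx
    refine c.hmax (K.map H.subtype) (fun t ht => ⟨⟨t, c.hTH ht⟩, hTK ht, rfl⟩) (map_subtype_le _)
      (fun e => hK ?_) ⟨x, hx, rfl⟩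
    refine eq_top_iff.2 fun y _ => ?_
    obtain ⟨z, hz, e'⟩ := e.ge y.2
    rwa [show y = z from Subtype.ext e'.symm]
  have hTK : (T : Subgroup G).subgroupOf H ≤ N.subgroupOf H := fun x hx => c.hTN hx
  have hco : IsCoatom (N.subgroupOf H) :=
    ⟨hne, fun K hlt => by_contra fun hK => hlt.not_ge (key K hK (hTK.trans hlt.le))⟩
  refine ⟨_, ⟨hco, hTK⟩, fun K hK => ?_⟩
  rcases hK.1.le_iff.1 (key K hK.1.1 hK.2) with h | h
  · exact absurd h hne
  · exact h.symm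

/-- A normal subgroup with `D T = H` contains the elements of odd order. -/
theorem Ctx.oddGenerated_le_of_sup {D : Subgroup G} (hDH : D ≤ H) (hn : H ≤ normalizer (D : Set G))
    (hDT : D ⊔ (T : Subgroup G) = H) : Cfsg.oddGenerated H ≤ D := by
  refine (closure_le _).2 fun x hx => ?_
  have hx' : x ∈ D ⊔ (T : Subgroup G) := hDT.symm ▸ hx.1
  rw [← SetLike.mem_coe, coe_mul_of_right_le_normalizer_left _ _ (c.hTH.trans hn)] at hx'
  obtain ⟨d, hd, t, ht, e⟩ := hx'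
  obtain ⟨k, hk⟩ := T.2 ⟨t, ht⟩
  have hk' : t ^ 2 ^ k = 1 := by simpa using congrArg Subtype.val hk
  have hxk : x ^ 2 ^ k ∈ D := by
    haveI : (D.subgroupOf H).Normal := (normal_subgroupOf_iff_le_normalizer hDH).2 hn
    have : ((⟨x, hx.1⟩ : ↥H) : ↥H ⧸ D.subgroupOf H) ^ 2 ^ k = 1 := by
      have e1 : (⟨x, hx.1⟩ : ↥H) = ⟨d, hDH hd⟩ * ⟨t, c.hTH ht⟩ := Subtype.ext e.symm
      have e2 : ((⟨d, hDH hd⟩ : ↥H) : ↥H ⧸ D.subgroupOf H) = 1 :=
        (QuotientGroup.eq_one_iff _).2 hd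
      rw [e1, QuotientGroup.mk_mul, e2, one_mul, ← QuotientGroup.mk_pow]
      exact (QuotientGroup.eq_one_iff _).2 (show t ^ 2 ^ k ∈ D by rw [hk']; exact one_mem _)
    rw [← QuotientGroup.mk_pow] at this
    exact mem_subgroupOf.1 ((QuotientGroup.eq_one_iff (N := D.subgroupOf H) _).1 this)
  have hcop : (orderOf x).Coprime (2 ^ k) := (Nat.coprime_two_right.2 hx.2).pow_right k
  obtain ⟨m, hm⟩ := exists_pow_eq_self_of_coprime (x := x) (n := 2 ^ k) hcop.symm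
  exact hm ▸ pow_mem hxk m

theorem Ctx.normal_dichotomy {D : Subgroup G} (hDH : D ≤ H) (hn : H ≤ normalizer (D : Set G)) :
    Cfsg.oddGenerated H ≤ D ∨ (T : Subgroup G) ⊓ D ≤ Cfsg.pCoreOf 2 H := by
  by_cases hDT : D ⊔ (T : Subgroup G) = H
  · exact Or.inl (c.oddGenerated_le_of_sup hDH hn hDT)
  · refine Or.inr ?_
    have hDTN : D ⊔ (T : Subgroup G) ≤ N := c.hmax _ le_sup_right (sup_le hDH c.hTH) hDT
    set X := (T : Subgroup G) ⊓ D with hX
    set Y := H ⊓ normalizer (X : Set G)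
    have hTY : (T : Subgroup G) ≤ Y :=
      le_inf c.hTH ((le_inf le_normalizer (c.hTH.trans hn)).trans inf_normalizer_le_normalizer_inf)
    by_cases hYH : Y = H
    · exact H72.le_pCoreOf (inf_le_left.trans c.hTH) (inf_eq_left.1 hYH) (T.2.to_le inf_le_left)
    · exfalso
      have hYN : Y ≤ N := c.hmax Y hTY inf_le_left hYH
      refine c.hHne fun g hg => ?_
      -- Frattini
      set T' : Subgroup G := cj g (T : Subgroup G)
      have hXT' : cj g X ≤ D := (cj_mono g inf_le_right).trans (cj_eq_of_mem_normalizer (hn hg)).le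
      obtain ⟨d, hd, hdX⟩ : ∃ d ∈ D, cj d (cj g X) ≤ X := by
        obtain ⟨d, hd, hle⟩ := exists_conj_le (T := T) (Y := D ⊔ (T : Subgroup G)) le_sup_right
          (hXT'.trans le_sup_left) (isPGroup_cj (T.2.to_le inf_le_left) g)
        rw [← SetLike.mem_coe, coe_mul_of_right_le_normalizer_left _ _ (c.hTH.trans hn)] at hd
        obtain ⟨d', hd', t, ht, rfl⟩ := hd
        have hd'' : t⁻¹ * d' * t ∈ D := (mem_normalizer_iff''.1 (hn (c.hTH ht)) d').1 hd'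
        refine ⟨_, hd'', le_inf ?_ ((cj_mono _ hXT').trans (cj_eq_self hd'').le)⟩
        rw [show t⁻¹ * d' * t = t⁻¹ * (d' * t) by group, cj_mul]
        exact cj_le ((T : Subgroup G).inv_mem ht) hle
      have hmem : d * g ∈ Y := by
        refine ⟨H.mul_mem (hDH hd) hg, mem_normalizer_of_cj_eq (eq_of_le_of_card_ge ?_ (card_cj _ _).ge)⟩
        rw [cj_mul]; exact hdX
      have h1 := hYN hmem
      have h2 : d ∈ N := hDTN (le_sup_left (b := (T : Subgroup G)) hd)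
      simpa using N.mul_mem (N.inv_mem h2) h1

end Cfsg.Agent.H60.Qrc
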