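import Cfsg.Agent.H60.Qrc.Basic
import Cfsg.Agent.H34.Para.Ext

/-!
A normal elementary abelian subgroup seen as a faithful module for a minimal parabolic: no over-offenders.
-/

set_option autoImplicit false
set_option linter.style.haveILetI false
set_option linter.unusedSectionVars false

open scoped commutatorElement

namespace Cfsg.Agent.H60.Qrc

open Subgroup
open Cfsg.Agent.H34.MinOffender (cj mem_cj card_cj conj_mem_cj)
open Cfsg.Agent.H34.Para (FFP PMin MinOff)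
open Cfsg.Agent.H34.Star (semiRep)

universe u

variable {X : Type u} [Group X] [Finite X]

/-- A module for a minimal parabolic with trivial `2`-core. -/
structure Mdl (T : Sylow 2 X) (N U : Subgroup X) : Prop where
  el : Cfsg.IsElementaryAbelian 2 U
  hTN : (T : Subgroup X) ≤ N
  hNne : N ≠ ⊤
  hmax : ∀ Y : Subgroup X, (T : Subgroup X) ≤ Y → Y ≠ ⊤ → Y ≤ N
  dich : ∀ D : Subgroup X, D.Normal → D ⊔ (T : Subgroup X) = ⊤ ∨ (T : Subgroup X) ⊓ D ≤ centralizer (U : Set X)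
  nontriv : centralizer (U : Set X) ⊔ (T : Subgroup X) ≠ ⊤

variable (U : Subgroup X) [U.Normal]

/-- The action. -/
noncomputable abbrev act' : X →* Equiv.Perm ↥U := (semiRep U).π

/-- The translations. -/
noncomputable abbrev trn : ↥U →* Equiv.Perm ↥U := (semiRep U).θ

/-- The module inside the permutation group. -/
noncomputable abbrev mdlV : Subgroup (Equiv.Perm ↥U) := (trn U).range

variable {U}

theorem act'_conj (g : X) (v : ↥U) : act' U g * trn U v * (act' U g)⁻¹ =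
    trn U ⟨g * v * g⁻¹, Normal.conj_mem inferInstance _ v.2 g⟩ :=
  (semiRep U).conj g v _

theorem act'_ker : (act' U).ker = centralizer (U : Set X) := (semiRep U).ker

theorem trn_inj : Function.Injective (trn U) := (semiRep U).inj

theorem act'_eq_one {g : X} : act' U g = 1 ↔ g ∈ centralizer (U : Set X) := by
  rw [← act'_ker, MonoidHom.mem_ker]

theorem act'_comm_iff (g : X) (v : ↥U) :
    act' U g * trn U v = trn U v * act' U g ↔ g * v = v * g := by
  rw [← mul_inv_eq_iff_eq_mul, act'_conj]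
  constructor
  · intro h
    exact mul_inv_eq_iff_eq_mul.1 (congrArg Subtype.val (trn_inj h))
  · intro h
    exact congrArg (trn U) (Subtype.ext (mul_inv_eq_iff_eq_mul.2 h))

theorem act'_commutator (g : X) (v : ↥U) :
    ⁅act' U g, trn U v⁆ = trn U ⟨⁅g, (v : X)⁆, by
      rw [commutatorElement_def]; exact U.mul_mem (Normal.conj_mem inferInstance _ v.2 g) (U.inv_mem v.2)⟩ := by
  rw [commutatorElement_def, act'_conj, ← map_inv, ← map_mul]
  rfl

theorem mdl_mem_cent {B : Subgroup X} {v : ↥U} :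
    trn U v ∈ mdlV U ⊓ centralizer (B.map (act' U) : Set (Equiv.Perm ↥U)) ↔
      (v : X) ∈ centralizer (B : Set X) := by
  constructor
  · intro h
    exact mem_centralizer_iff.2 fun b hb =>
      (act'_comm_iff b v).1 (mem_centralizer_iff.1 h.2 _ ⟨b, hb, rfl⟩)
  · intro h
    refine ⟨⟨v, rfl⟩, mem_centralizer_iff.2 ?_⟩
    rintro _ ⟨b, hb, rfl⟩
    exact (act'_comm_iff b v).2 (mem_centralizer_iff.1 h b hb)

theorem mdl_card : Nat.card ↥(mdlV U) = Nat.card U :=
  (Nat.card_congr (MonoidHom.ofInjective trn_inj).toEquiv).symm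

theorem mdl_card_cent (B : Subgroup X) :
    Nat.card ↥(mdlV U ⊓ centralizer (B.map (act' U) : Set (Equiv.Perm ↥U))) =
      Nat.card ↥(U ⊓ centralizer (B : Set X)) := by
  symm
  refine Nat.card_congr (Equiv.ofBijective
    (fun v => ⟨trn U ⟨(v : X), v.2.1⟩, mdl_mem_cent.2 v.2.2⟩) ⟨fun a b h => ?_, ?_⟩)
  · exact Subtype.ext (congrArg (fun x : ↥U => (x : X)) (trn_inj (U := U) (congrArg Subtype.val h)))
  · rintro ⟨_, ⟨⟨v, rfl⟩, hv⟩⟩
    exact ⟨⟨(v : X), v.2, mdl_mem_cent.1 ⟨⟨v, rfl⟩, hv⟩⟩, rfl⟩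

theorem map_act'_card (B : Subgroup X) :
    Nat.card ↥(B.map (act' U)) = (centralizer (U : Set X)).relIndex B := by
  rw [← act'_ker, relIndex_ker]

theorem act'_sq {B : Subgroup X} (hsq : ∀ b ∈ B, b ^ 2 ∈ centralizer (U : Set X)) :
    ∀ a ∈ B.map (act' U), a ^ 2 = 1 := by
  rintro _ ⟨b, hb, rfl⟩
  rw [← map_pow, act'_eq_one]
  exact hsq b hb

theorem act'_comm {B : Subgroup X} (hcomm : ∀ b ∈ B, ∀ b' ∈ B, ⁅b, b'⁆ ∈ centralizer (U : Set X)) :
    ∀ a ∈ B.map (act' U), ∀ a' ∈ B.map (act' U), a * a' = a' * a := by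
  rintro _ ⟨b, hb, rfl⟩ _ ⟨b', hb', rfl⟩
  rw [← commutatorElement_eq_one_iff_mul_comm, ← map_commutatorElement, act'_eq_one]
  exact hcomm b hb b' hb'

namespace Mdl

variable {T : Sylow 2 X} {N : Subgroup X} (m : Mdl T N U)
include m

theorem comm : ∀ a ∈ mdlV U, ∀ b ∈ mdlV U, a * b = b * a := by
  rintro _ ⟨v, rfl⟩ _ ⟨w, rfl⟩
  haveI := m.el.1
  rw [← map_mul, ← map_mul, mul_comm']

theorem expV : ∀ a ∈ mdlV U, a ^ 2 = 1 := by
  rintro _ ⟨v, rfl⟩
  rw [← map_pow, show v ^ 2 = 1 from Subtype.ext (by simpa using m.el.2 v v.2), map_one]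

theorem hPV : (act' U).range ≤ normalizer (mdlV U : Set (Equiv.Perm ↥U)) := by
  rintro _ ⟨g, rfl⟩
  refine H34.Para.mem_normalizer_of_cj_eq (eq_of_le_of_card_ge ?_ (card_cj _ _).ge)
  rintro _ ⟨_, ⟨v, rfl⟩, rfl⟩
  exact ⟨_, (act'_conj g v).symm⟩

theorem faith : (act' U).range ⊓ centralizer (mdlV U : Set (Equiv.Perm ↥U)) = ⊥ := by
  refine le_bot_iff.1 ?_
  rintro _ ⟨⟨g, rfl⟩, hg⟩
  rw [mem_bot, act'_eq_one]
  exact mem_centralizer_iff.2 fun v hv =>
    ((act'_comm_iff g ⟨v, hv⟩).1 (mem_centralizer_iff.1 hg _ ⟨_, rfl⟩).symm).symm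

theorem cent_le : centralizer (U : Set X) ≤ N :=
  le_sup_left.trans (m.hmax _ le_sup_right m.nontriv)

theorem pmin : PMin 2 (act' U).range ((T : Subgroup X).map (act' U)) (N.map (act' U)) where
  hTM := map_mono m.hTN
  hMP := by rintro _ ⟨g, -, rfl⟩; exact ⟨g, rfl⟩
  hne := fun e => m.hNne (eq_top_iff.2 fun g _ => by
    obtain ⟨n, hn, e'⟩ := e.ge ⟨g, rfl⟩
    have hk : n⁻¹ * g ∈ centralizer (U : Set X) := by
      rw [← act'_eq_one, map_mul, map_inv, e', inv_mul_cancel]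
    simpa using N.mul_mem hn (m.cent_le hk))
  Tp := T.2.map _
  syl := fun R hR hR2 hTR => by
    have h := (T.mapSurjective (act' U).rangeRestrict_surjective).is_maximal'
      (Q := R.subgroupOf (act' U).range) (hR2.of_equiv (subgroupOfEquivOfLe hR).symm) ?_
    · refine le_antisymm (fun r hr => ?_) hTR
      have h' : (⟨r, hR hr⟩ : (act' U).range) ∈ R.subgroupOf (act' U).range := hr
      rw [h, Sylow.coe_mapSurjective] at h'
      obtain ⟨t, ht, e⟩ := h'
      exact ⟨t, ht, congrArg Subtype.val e⟩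
    · rw [Sylow.coe_mapSurjective]
      rintro _ ⟨t, ht, rfl⟩
      exact hTR ⟨t, ht, rfl⟩
  max := fun Y hY hTY hne => by
    have hne' : Y.comap (act' U) ≠ ⊤ := fun e => hne (le_antisymm hY (by
      rintro _ ⟨g, rfl⟩
      exact mem_comap.1 (e.ge (mem_top g))))
    have hle := m.hmax _ (fun t ht => show act' U t ∈ Y from hTY ⟨t, ht, rfl⟩) hne'
    intro y hy
    obtain ⟨g, rfl⟩ := hY hy
    exact ⟨g, hle hy, rfl⟩

theorem op1 : ∀ K ≤ (act' U).range, IsPGroup 2 K →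
    (act' U).range ≤ normalizer (K : Set (Equiv.Perm ↥U)) → K = ⊥ := by
  intro K hK hK2 hn
  set P := (act' U).range
  set Tb := (T : Subgroup X).map (act' U)
  have hTP : Tb ≤ P := m.pmin.hTP
  have hKT : K ≤ Tb := le_sup_right.trans (m.pmin.syl (Tb ⊔ K) (sup_le hTP hK)
    ((T.2.map _).to_sup_of_normal_right' hK2 (hTP.trans hn)) le_sup_left).le
  have hDn : (K.comap (act' U)).Normal := ⟨fun d hd g => by
    show act' U (g * d * g⁻¹) ∈ K
    rw [map_mul, map_mul, map_inv]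
    exact (mem_normalizer_iff.1 (hn ⟨g, rfl⟩) _).1 hd⟩
  rcases m.dich _ hDn with h | h
  · exfalso
    refine m.pmin.hne (le_antisymm m.pmin.hMP ?_)
    rintro _ ⟨g, rfl⟩
    have hg : g ∈ K.comap (act' U) ⊔ (T : Subgroup X) := h.ge (mem_top g)
    have := mem_map_of_mem (act' U) hg
    rw [Subgroup.map_sup] at this
    exact m.pmin.hTM (sup_le ((map_comap_le _ _).trans hKT) le_rfl this)
  · refine le_bot_iff.1 fun k hk => ?_
    obtain ⟨t, ht, rfl⟩ := hKT hk
    exact mem_bot.2 (act'_eq_one.2 (h ⟨ht, hk⟩))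

theorem ffp (hz : ∃ z ∈ mdlV U, z ∈ centralizer ((T : Subgroup X).map (act' U) : Set (Equiv.Perm ↥U)) ∧
      z ∉ centralizer ((act' U).range : Set (Equiv.Perm ↥U))) :
    FFP 2 (mdlV U) (act' U).range ((T : Subgroup X).map (act' U)) (N.map (act' U)) :=
  ⟨m.comm, m.expV, m.hPV, m.faith, m.pmin, m.op1, hz⟩

/-- An elementary abelian subgroup with nonnegative gain yields the standing hypotheses and the bound. -/
theorem ffp_of_offender {A : Subgroup (Equiv.Perm ↥U)} (hAP : A ≤ (act' U).range) (hne : A ≠ ⊥)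
    (hAc : ∀ a ∈ A, ∀ b ∈ A, a * b = b * a) (hAe : ∀ a ∈ A, a ^ 2 = 1)
    (hAl : Nat.card ↥(mdlV U) ≤
      Nat.card A * Nat.card ↥(mdlV U ⊓ centralizer (A : Set (Equiv.Perm ↥U)))) :
    FFP 2 (mdlV U) (act' U).range ((T : Subgroup X).map (act' U)) (N.map (act' U)) := by
  classical
  haveI : Fact (Nat.Prime 2) := ⟨Nat.prime_two⟩
  let good : Set (Subgroup (Equiv.Perm ↥U)) := {B | B ≤ (act' U).range ∧ B ≠ ⊥ ∧
    (∀ a ∈ B, ∀ b ∈ B, a * b = b * a) ∧ (∀ a ∈ B, a ^ 2 = 1)}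
  obtain ⟨B, ⟨hB, hBne, hBc, hBe⟩, hmax⟩ := Set.exists_max_image good
    (fun B => Nat.card B * Nat.card ↥(mdlV U ⊓ centralizer (B : Set (Equiv.Perm ↥U)))) (Set.toFinite _)
    ⟨A, hAP, hne, hAc, hAe⟩
  refine m.ffp (H34.Para.fixed_moved m.comm m.expV m.hPV m.faith m.pmin m.op1 hB hBne hBc hBe
    fun C hC => ?_)
  by_cases hC1 : C = ⊥
  · subst hC1
    refine le_trans (le_trans ?_ hAl) (hmax A ⟨hAP, hne, hAc, hAe⟩)
    rw [card_bot, one_mul]
    exact card_le_of_le inf_le_left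
  · exact hmax C ⟨hC.trans hB, hC1, fun a ha b hb => hBc a (hC ha) b (hC hb), fun a ha => hBe a (hC ha)⟩

/-- There are no over-offenders on a module. -/
theorem bound {B : Subgroup X} (hcomm : ∀ b ∈ B, ∀ b' ∈ B, ⁅b, b'⁆ ∈ centralizer (U : Set X))
    (hsq : ∀ b ∈ B, b ^ 2 ∈ centralizer (U : Set X)) :
    (centralizer (U : Set X)).relIndex B ≤ (centralizer (B : Set X)).relIndex U := by
  haveI : Fact (Nat.Prime 2) := ⟨Nat.prime_two⟩
  set Bb := B.map (act' U) with hBb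
  have hBP : Bb ≤ (act' U).range := by rintro _ ⟨g, -, rfl⟩; exact ⟨g, rfl⟩
  have key : Nat.card Bb * Nat.card ↥(mdlV U ⊓ centralizer (Bb : Set (Equiv.Perm ↥U))) ≤
      Nat.card ↥(mdlV U) := by
    by_contra hlt
    rw [not_le] at hlt
    have hne : Bb ≠ ⊥ := fun e => absurd hlt (not_lt.2 (by
      rw [e, card_bot, one_mul]; exact card_le_of_le inf_le_left))
    have h := m.ffp_of_offender hBP hne (act'_comm hcomm) (act'_sq hsq) hlt.le
    exact absurd (h.bound hBP (act'_comm hcomm) (act'_sq hsq)) (not_le.2 hlt)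
  rw [hBb, map_act'_card, mdl_card_cent, mdl_card] at key
  have e : Nat.card ↥(U ⊓ centralizer (B : Set X)) * (centralizer (B : Set X)).relIndex U = Nat.card U := by
    rw [← inf_relIndex_left U (centralizer (B : Set X)), ← relIndex_bot_left, ← relIndex_bot_left,
      relIndex_mul_relIndex _ _ _ bot_le inf_le_left]
  rw [← e, mul_comm] at key
  exact Nat.le_of_mul_le_mul_left key Nat.card_pos

end Mdl

end Cfsg.Agent.H60.Qrc
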