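import Cfsg.Prelude.Def_Quasithin
import Cfsg.Agent.H34.Para.Two
import Cfsg.Agent.H34.Para.Orbit
import Mathlib

/-!
The Sylow subgroup of `O²(P)` for a minimal parabolic with an offender, as a target of the
commutators and the elements of odd order coming from the members inside the maximal subgroup.
-/

set_option autoImplicit false
set_option linter.style.haveILetI false
set_option maxHeartbeats 1000000

namespace Cfsg.Agent.H60.Qrc

open Subgroup
open Cfsg.Agent.H34.Para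
open Cfsg.Agent.H34.MinOffender (cj mem_cj conj_mem_cj card_cj)
open scoped commutatorElement Matrix

universe u

variable {G : Type u} [Group G] [Finite G] {V P T M A₀ : Subgroup G}

/-- The Sylow subgroup of `O²(P)` is the product of its parts in an orbit of commuting factors. -/
theorem sylow_le_of_orbit (pm : PMin 2 P T M) {E₀ : Subgroup G} (hE₀ : E₀ ≤ P)
    (hsup : (⨆ t : ↥T, cj (t : G) E₀) ⊔ T = P)
    (hcomm : ∀ t ∈ T, cj t E₀ ≠ E₀ → ∀ x ∈ cj t E₀, ∀ y ∈ E₀, x * y = y * x)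
    (hdisj : ∀ g ∈ E₀, g ∈ (⨆ b : {b : ↥T // cj (b : G) E₀ ≠ E₀}, cj ((b : ↥T) : G) E₀) → g = 1) :
    T ⊓ Cfsg.oddGenerated P ≤ ⨆ t : ↥T, (T ⊓ cj (t : G) E₀) := by
  classical
  haveI : Fact (Nat.Prime 2) := ⟨Nat.prime_two⟩
  have hTP : T ≤ P := pm.hTP
  set K : Subgroup G := ⨆ t : ↥T, cj (t : G) E₀ with hKdef
  set U : Subgroup G := ⨆ t : ↥T, (T ⊓ cj (t : G) E₀) with hUdef
  have hEP : ∀ t : ↥T, cj (t : G) E₀ ≤ P := fun t => cj_le (hTP t.2) hE₀
  have hEK : ∀ t : ↥T, cj (t : G) E₀ ≤ K := fun t => le_iSup (fun t : ↥T => cj (t : G) E₀) t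
  have hKP : K ≤ P := iSup_le hEP
  have hKcj : ∀ s ∈ T, cj s K ≤ K := fun s hs => by
    rw [hKdef, cj, Subgroup.map_iSup]
    refine iSup_le fun t => ?_
    show cj s (cj (t : G) E₀) ≤ K
    rw [← cj_mul]
    exact hEK (⟨s, hs⟩ * t)
  have hTK : T ≤ normalizer (K : Set G) := fun s hs =>
    mem_normalizer_of_cj_eq (eq_of_le_of_card_ge (hKcj s hs) (card_cj _ _).ge)
  have hsplit : ∀ g ∈ P, ∃ t ∈ T, ∃ k ∈ K, t * k = g := fun g hg => by
    have h1 : g ∈ (↑(T ⊔ K) : Set G) := by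
      rw [SetLike.mem_coe, sup_comm, hsup]; exact hg
    rw [coe_mul_of_left_le_normalizer_right T K hTK] at h1
    exact Set.mem_mul.1 h1
  have hgen : ∀ a b : ↥T, cj (a : G) E₀ ≠ cj (b : G) E₀ →
      ∀ x ∈ cj (a : G) E₀, ∀ y ∈ cj (b : G) E₀, x * y = y * x := by
    intro a b hne x hx y hy
    have hne' : cj ((b : G)⁻¹ * a) E₀ ≠ E₀ := fun e => hne (by
      conv_rhs => rw [← e, ← cj_mul, mul_inv_cancel_left])
    have h1 : (b : G)⁻¹ * x * b ∈ cj ((b : G)⁻¹ * a) E₀ := by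
      rw [cj_mul]; simpa using conj_mem_cj (x := (b : G)⁻¹) hx
    have e1 := hcomm _ (T.mul_mem (T.inv_mem b.2) a.2) hne' _ h1 _ (mem_cj.1 hy)
    have e2 := congrArg (fun z => (b : G) * z * (b : G)⁻¹) e1
    simpa [mul_assoc] using e2
  -- every element of odd order lies in `K`
  have hodd : Cfsg.oddGenerated P ≤ K := by
    refine (closure_le _).2 ?_
    rintro g ⟨hg, hgo⟩
    have hK : ∀ g ∈ P, g ∈ normalizer (K : Set G) := fun g hg => by
      obtain ⟨t, ht, k, hk, rfl⟩ := hsplit g hg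
      exact mul_mem (hTK ht) (le_normalizer hk)
    obtain ⟨t, ht, k, hk, e⟩ := hsplit g hg
    obtain ⟨j, hj⟩ := pm.Tp ⟨t, ht⟩
    have hj' : t ^ (2 ^ j) = 1 := congrArg Subtype.val hj
    have hpow : ∀ m : ℕ, ∃ k' ∈ K, g ^ m = t ^ m * k' := by
      intro m
      induction m with
      | zero => exact ⟨1, one_mem _, by simp⟩
      | succ m ih =>
        obtain ⟨k', hk', e'⟩ := ih
        refine ⟨t⁻¹ * k' * t * k, mul_mem ?_ hk, ?_⟩
        · exact (mem_normalizer_iff''.1 (hTK ht) k').1 hk'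
        · rw [pow_succ, e', pow_succ, ← e]; group
    obtain ⟨k', hk', e'⟩ := hpow (2 ^ j)
    rw [hj', one_mul] at e'
    obtain ⟨i, hi⟩ : ∃ i, (g ^ (2 ^ j)) ^ i = g := by
      have hco : (orderOf g).Coprime (2 ^ j) := by
        refine Nat.Coprime.pow_right _ ?_
        exact Nat.coprime_two_right.2 hgo
      exact exists_pow_eq_self_of_coprime hco.symm
    show g ∈ K
    rw [← hi, e']
    exact K.pow_mem hk' i
  -- induction over the factors
  have main : ∀ s : Finset ↥T, ∀ x ∈ T, x ∈ (⨆ t ∈ s, cj (t : G) E₀) → x ∈ U := by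
    intro s
    induction s using Finset.induction with
    | empty =>
      intro x _ hx
      simp only [Finset.notMem_empty, iSup_false, iSup_bot, mem_bot] at hx
      rw [hx]; exact one_mem _
    | @insert a s has ih =>
      intro x hxT hx
      rw [Finset.iSup_insert] at hx
      by_cases hdup : ∃ b ∈ s, cj (b : G) E₀ = cj (a : G) E₀
      · obtain ⟨b, hb, e⟩ := hdup
        exact ih x hxT ((sup_le (e.ge.trans (le_iSup₂ (f := fun (t : ↥T) (_ : t ∈ s) => cj (t : G) E₀) b hb))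
          le_rfl) hx)
      push Not at hdup
      set E := cj (a : G) E₀ with hE
      set F := ⨆ t ∈ s, cj (t : G) E₀ with hF
      have hFc : ∀ f ∈ F, ∀ e ∈ E, f * e = e * f := by
        intro f hf e he
        have hle : F ≤ centralizer ({e} : Set G) := iSup₂_le fun b hb y hy =>
          mem_centralizer_singleton_iff.2 (hgen b a (hdup b hb) y hy e he)
        exact mem_centralizer_singleton_iff.1 (hle hf)
      have hEF : ∀ g ∈ E, g ∈ F → g = 1 := by
        intro g hg hgF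
        have hle : F ≤ cj (a : G) (⨆ b : {b : ↥T // cj (b : G) E₀ ≠ E₀}, cj ((b : ↥T) : G) E₀) := by
          refine iSup₂_le fun b hb => ?_
          have hne : cj ((a⁻¹ * b : ↥T) : G) E₀ ≠ E₀ := fun e => hdup b hb (by
            rw [hE]; conv_rhs => rw [← e, ← cj_mul]
            simp)
          refine le_trans ?_ (cj_mono _ (le_iSup (fun b : {b : ↥T // cj (b : G) E₀ ≠ E₀} =>
            cj ((b : ↥T) : G) E₀) ⟨a⁻¹ * b, hne⟩))
          rw [← cj_mul]
          simp
        have h1 := hdisj _ (mem_cj.1 hg) (mem_cj.1 (hle hgF))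
        calc g = (a : G) * ((a : G)⁻¹ * g * a) * (a : G)⁻¹ := by group
          _ = 1 := by rw [h1]; group
      have hKE : K ≤ normalizer (E : Set G) := iSup_le fun b => by
        by_cases hbe : cj (b : G) E₀ = E
        · rw [hbe]; exact le_normalizer
        · exact le_trans (fun y hy => mem_centralizer_iff.2 fun e he => (hgen b a hbe y hy e he).symm)
            (centralizer_le_normalizer _)
      -- projection to the new factor
      let X : Subgroup G :=
        { carrier := {e | e ∈ E ∧ ∃ f ∈ F, e * f ∈ T}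
          one_mem' := ⟨one_mem _, 1, one_mem _, by simp⟩
          mul_mem' := by
            rintro e e' ⟨he, f, hf, h1⟩ ⟨he', f', hf', h2⟩
            refine ⟨mul_mem he he', f * f', mul_mem hf hf', ?_⟩
            have := T.mul_mem h1 h2
            rwa [show e * f * (e' * f') = e * (f * e') * f' by group, hFc f hf e' he',
              show e * (e' * f) * f' = e * e' * (f * f') by group] at this
          inv_mem' := by
            rintro e ⟨he, f, hf, h1⟩
            refine ⟨inv_mem he, f⁻¹, inv_mem hf, ?_⟩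
            have := T.inv_mem h1
            rwa [← hFc f hf e he, mul_inv_rev] at this }
      have hXp : IsPGroup 2 X := by
        rintro ⟨e, he, f, hf, h1⟩
        obtain ⟨j, hj⟩ := pm.Tp ⟨_, h1⟩
        refine ⟨j, Subtype.ext (hEF _ (pow_mem he _) ?_)⟩
        have hj' : (e * f) ^ (2 ^ j) = 1 := congrArg Subtype.val hj
        rw [(show Commute e f from (hFc f hf e he).symm).mul_pow] at hj'
        show e ^ 2 ^ j ∈ F
        rw [show e ^ 2 ^ j = (f ^ 2 ^ j)⁻¹ from eq_inv_of_mul_eq_one_left hj']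
        exact inv_mem (pow_mem hf _)
      have hXE : X ≤ E := fun e he => he.1
      obtain ⟨z, hz, hzT⟩ := pm.sylow_conj le_rfl hTP (hXE.trans (hEP a)) hXp
      obtain ⟨t, ht, k, hk, rfl⟩ := hsplit z hz
      have hkX : cj k X ≤ T ⊓ E := by
        refine le_inf ?_ ?_
        · rw [← cj_inv_cj t (cj k X), ← cj_mul t k]
          exact (cj_mono _ hzT).trans (cj_le_self (T.inv_mem ht))
        · exact (cj_mono _ hXE).trans (cj_eq_of_mem_normalizer (hKE hk)).le
      have hTX : T ⊓ E ≤ X := fun e he => ⟨he.2, 1, one_mem _, by simpa using he.1⟩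
      have hXeq : T ⊓ E = X := eq_of_le_of_card_ge hTX (by
        rw [← card_cj k X]; exact card_le_of_le hkX)
      have hx' : x ∈ (↑(E ⊔ F) : Set G) := hx
      rw [coe_mul_of_left_le_normalizer_right E F (fun e he => centralizer_le_normalizer _
        (mem_centralizer_iff.2 fun f hf => hFc f hf e he))] at hx'
      obtain ⟨e, he, f, hf, rfl⟩ := Set.mem_mul.1 hx'
      have heT : e ∈ T ⊓ E := hXeq.ge ⟨he, f, hf, hxT⟩
      refine mul_mem (le_iSup (fun t : ↥T => T ⊓ cj (t : G) E₀) a heT) (ih f ?_ hf)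
      have := T.mul_mem (T.inv_mem heT.1) hxT
      rwa [inv_mul_cancel_left] at this
  intro x hx
  haveI : Fintype ↥T := Fintype.ofFinite _
  refine main Finset.univ x hx.1 ?_
  simpa using hodd hx.2

/-! ### Members of order at least three -/

section chart

variable {A L : Subgroup G} {F : Type} [Field F] [Fintype F] {C : Type*} [AddCommGroup C]
  (c : Chart 2 V P T M A L F C)
include c

theorem two_eq_zero : (2 : F) = 0 := by
  haveI : Fact (Nat.Prime 2) := ⟨Nat.prime_two⟩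
  have := congrArg Prod.fst (c.p_smul ((1 : F), (0 : F), (0 : C)))
  simpa [two_nsmul, one_add_one_eq_two] using this

theorem eq_one_of_sq {a : F} (ha : a * a = 1) : a = 1 := by
  have h2 := two_eq_zero c
  have h : (a - 1) * (a - 1) = 0 := by linear_combination ha + (1 - a) * h2
  exact sub_eq_zero.1 (mul_self_eq_zero.1 h)

theorem eq_one_of_pow {a : F} : ∀ {j : ℕ}, a ^ (2 ^ j) = 1 → a = 1
  | 0, ha => by simpa using ha
  | j + 1, ha => eq_one_of_pow (eq_one_of_sq c (by rw [← pow_two, ← pow_mul, ← pow_succ]; exact ha))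

/-- Inside `L` the Sylow subgroup is the member. -/
theorem inf_chart_eq : T ⊓ L = A := by
  classical
  haveI : Fact (Nat.Prime 2) := ⟨Nat.prime_two⟩
  by_contra hne
  obtain ⟨g, hg, hgA, hgN⟩ := exists_normalizer_gt (p := 2) (c.base.pm.Tp.to_le inf_le_left)
    (le_inf c.hAT c.hAL) (fun e => hne e.symm)
  have hgP : g ∈ P := c.hLP hg.2
  have hgA' : cj g A = A := cj_eq_of_mem_normalizer hgN
  obtain ⟨j, hj⟩ := c.base.pm.Tp ⟨g, hg.1⟩
  have hj' : g ^ (2 ^ j) = 1 := congrArg Subtype.val hj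
  set r : Matrix.SpecialLinearGroup (Fin 2) F := c.rho ⟨g, hg.2⟩ with hr
  set m : Matrix (Fin 2) (Fin 2) F := (r : Matrix (Fin 2) (Fin 2) F) with hm
  have hact : ∀ w, ![(act c.e g w).1, (act c.e g w).2.1] = m *ᵥ ![w.1, w.2.1] := c.act_rho ⟨g, hg.2⟩
  have h10 : m 1 0 = 0 := by
    have h1 := congrFun (hact ((1 : F), (0 : F), (0 : C))) 1
    have h2 := c.preserves_U hgP hgA' (w := ((1 : F), (0 : F), (0 : C))) rfl
    simpa [Matrix.mulVec, dotProduct, Fin.sum_univ_two, h2] using h1.symm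
  have hdet : m 0 0 * m 1 1 = 1 := by
    have := r.2
    rw [Matrix.det_fin_two] at this
    rw [← hm, h10, mul_zero, sub_zero] at this
    exact this
  have hpow : ∀ k : ℕ, ((r ^ k : Matrix.SpecialLinearGroup (Fin 2) F) : Matrix (Fin 2) (Fin 2) F) 1 0 = 0 ∧
      ((r ^ k : Matrix.SpecialLinearGroup (Fin 2) F) : Matrix (Fin 2) (Fin 2) F) 1 1 = (m 1 1) ^ k := by
    intro k
    induction k with
    | zero => simp
    | succ k ih =>
      rw [pow_succ, Matrix.SpecialLinearGroup.coe_mul]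
      simp only [Matrix.mul_apply, Fin.sum_univ_two, ih.1, ih.2, ← hm, h10]
      exact ⟨by ring, by ring⟩
  have hrj : r ^ (2 ^ j) = 1 := by
    rw [hr, ← map_pow, ← map_one c.rho]
    exact congrArg c.rho (Subtype.ext hj')
  have hd : m 1 1 = 1 := eq_one_of_pow c (j := j) (by
    rw [← (hpow _).2, hrj]; simp)
  have ha : m 0 0 = 1 := by rw [hd, mul_one] at hdet; exact hdet
  refine hgA ?_
  have hag : (⟨g, hg.2⟩ : ↥L) = ⟨c.up (m 0 1), c.hAL (c.up_mem _)⟩ := by
    apply c.rho.injective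
    refine Subtype.ext (Matrix.ext_of_mulVec_single fun i => ?_)
    have e1 := hact (![1, 0] i, ![0, 1] i, (0 : C))
    have e2 := c.act_rho ⟨c.up (m 0 1), c.hAL (c.up_mem _)⟩ (![1, 0] i, ![0, 1] i, (0 : C))
    have hs : (![![1, 0] i, ![0, 1] i] : Fin 2 → F) = Pi.single i 1 := by
      funext k; fin_cases i <;> fin_cases k <;> simp
    simp only at e1 e2
    rw [hs] at e1 e2
    rw [← hr, ← e2, c.act_up]
    funext k
    fin_cases i <;> fin_cases k <;>
      simp [← hm, Matrix.mulVec, dotProduct, Fin.sum_univ_two, ha, hd, h10]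
  rw [show g = c.up (m 0 1) from congrArg Subtype.val hag]
  exact c.up_mem _

/-- Nothing nontrivial of `L` centralises `L`. -/
theorem chart_center {g : G} (hg : g ∈ L) (hc : ∀ y ∈ L, y * g = g * y) : g = 1 := by
  set r : Matrix.SpecialLinearGroup (Fin 2) F := c.rho ⟨g, hg⟩ with hr
  set m : Matrix (Fin 2) (Fin 2) F := (r : Matrix (Fin 2) (Fin 2) F) with hm
  have hcm : ∀ s : Matrix.SpecialLinearGroup (Fin 2) F,
      (s : Matrix (Fin 2) (Fin 2) F) * m = m * (s : Matrix (Fin 2) (Fin 2) F) := by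
    intro s
    obtain ⟨y, rfl⟩ := c.rho.surjective s
    have : y * ⟨g, hg⟩ = ⟨g, hg⟩ * y := Subtype.ext (hc y y.2)
    have := congrArg (fun z => ((c.rho z : Matrix.SpecialLinearGroup (Fin 2) F) : Matrix (Fin 2) (Fin 2) F)) this
    simpa using this
  have e1 := hcm ⟨!![1, 1; 0, 1], by simp [Matrix.det_fin_two]⟩
  have e2 := hcm ⟨!![1, 0; 1, 1], by simp [Matrix.det_fin_two]⟩
  have a1 : m 0 0 + m 1 0 = m 0 0 := by
    have := congrFun (congrFun e1 0) 0; simpa [Matrix.mul_apply, Fin.sum_univ_two] using this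
  have a2 : m 0 1 + m 1 1 = m 0 0 + m 0 1 := by
    have := congrFun (congrFun e1 0) 1; simpa [Matrix.mul_apply, Fin.sum_univ_two] using this
  have a3 : m 0 0 = m 0 0 + m 0 1 := by
    have := congrFun (congrFun e2 0) 0; simpa [Matrix.mul_apply, Fin.sum_univ_two] using this
  have h10 : m 1 0 = 0 := left_eq_add.1 a1.symm
  have h01 : m 0 1 = 0 := left_eq_add.1 a3
  have h11 : m 1 1 = m 0 0 := by rw [h01, zero_add, add_zero] at a2; exact a2
  have hdet : m 0 0 * m 0 0 = 1 := by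
    have := r.2
    rw [Matrix.det_fin_two, ← hm, h10, h11, mul_zero, sub_zero] at this
    exact this
  have h00 := eq_one_of_sq c hdet
  have : r = 1 := Subtype.ext (by
    rw [← hm, Matrix.SpecialLinearGroup.coe_one]
    ext i k; fin_cases i <;> fin_cases k <;> simp [h10, h01, h11, h00])
  rw [hr, ← map_one c.rho] at this
  exact congrArg Subtype.val (c.rho.injective this)

/-- The member through the torus of a conjugate component. -/
theorem conj_member_le {W : Subgroup G}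
    (hcomm : ∀ X : Subgroup G, Mem P A X → X ≤ M → ∀ a ∈ X, ∀ o ∈ M, Odd (orderOf o) → ⁅a, o⁆ ∈ W)
    {t : G} (ht : t ∈ T) : cj t A ≤ W := by
  classical
  haveI : Fact (Nat.Prime 2) := ⟨Nat.prime_two⟩
  have htM : t ∈ M := c.base.pm.hTM ht
  obtain ⟨l, hl⟩ : ∃ l : Fˣ, l ≠ 1 := by
    by_contra hall
    push Not at hall
    haveI : Subsingleton Fˣ := ⟨fun a b => (hall a).trans (hall b).symm⟩
    have := Fintype.card_le_one_iff_subsingleton.2 (inferInstance : Subsingleton Fˣ)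
    rw [Fintype.card_units] at this
    have := c.hq
    omega
  have hl2 : (1 : F) - (l : F) * l ≠ 0 := fun e =>
    hl (Units.ext (eq_one_of_sq c (sub_eq_zero.1 e).symm))
  -- the torus element has odd order
  have hmul : ∀ a b : Fˣ, c.hh (a * b) = c.hh a * c.hh b := fun a b =>
    c.ext (c.hhP _) (P.mul_mem (c.hhP a) (c.hhP b)) fun w => by
      rw [act_mul c.e (c.hPV (c.hhP a)) (c.hPV (c.hhP b)), c.act_hh, c.act_hh, c.act_hh]
      simp [mul_assoc, mul_comm, mul_left_comm]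
  let hom : Fˣ →* G := MonoidHom.mk' c.hh hmul
  have hodd : Odd (orderOf (c.hh l)) := by
    refine Odd.of_dvd_nat ?_ ((orderOf_map_dvd hom l).trans (orderOf_dvd_natCard l))
    rw [Nat.card_units, Nat.card_eq_fintype_card]
    have h2 : Even (Fintype.card F) := by
      haveI : CharP F 2 := CharTwo.of_one_ne_zero_of_two_eq_zero one_ne_zero (two_eq_zero c)
      exact FiniteField.even_card_iff_char_two.1 (ringChar.eq F 2) |> Nat.even_iff.2
    exact Nat.Even.sub_odd (by have := c.hq; omega) h2 odd_one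
  rintro _ ⟨a, ha, rfl⟩
  obtain ⟨s₀, rfl⟩ := c.up_all a ha
  set s := s₀ / (1 - (l : F) * l) with hs
  have hconj : c.hh l * c.up (-s) * (c.hh l)⁻¹ = c.up ((l : F) * l * (-s)) := by
    have hmem : c.hh l * c.up (-s) * (c.hh l)⁻¹ ∈ A :=
      (c.cj_hh l).le (conj_mem_cj (c.up_mem (-s)))
    obtain ⟨t', ht'⟩ := c.up_all _ hmem
    rw [ht']
    congr 1
    have h1 := congrArg (fun g => (act c.e g ((0 : F), (1 : F), (0 : C))).1) ht'
    rw [act_mul c.e (c.hPV (P.mul_mem (c.hhP l) (c.upP _))) (c.hPV (P.inv_mem (c.hhP l))),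
      act_mul c.e (c.hPV (c.hhP l)) (c.hPV (c.upP _)), c.act_hh_inv, c.act_up, c.act_hh, c.act_up] at h1
    simpa [mul_assoc, mul_comm, mul_left_comm] using h1.symm
  have hneg : (c.up s)⁻¹ = c.up (-s) := inv_eq_of_mul_eq_one_right (by
    rw [c.up_add, add_neg_cancel, c.up_zero])
  have hkey : ⁅c.up s, c.hh l⁆ = c.up s₀ := by
    rw [commutatorElement_def, mul_assoc, mul_assoc, ← mul_assoc (c.hh l), hneg, hconj, c.up_add]
    congr 1
    have hsval : s * (1 - (l : F) * l) = s₀ := by rw [hs, div_mul_cancel₀ _ hl2]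
    linear_combination hsval
  show t * c.up s₀ * t⁻¹ ∈ W
  rw [← hkey, show t * ⁅c.up s, c.hh l⁆ * t⁻¹ = ⁅t * c.up s * t⁻¹, t * c.hh l * t⁻¹⁆ by
    simp only [commutatorElement_def]; group]
  refine hcomm (cj t A) (c.memA.cj (c.base.hTP ht)) ((cj_le ht c.hAT).trans c.base.pm.hTM) _
    (conj_mem_cj (c.up_mem s)) _ (M.mul_mem (M.mul_mem htM (c.hh_M l)) (M.inv_mem htM)) ?_
  rw [show t * c.hh l * t⁻¹ = (MulAut.conj t).toMonoidHom (c.hh l) from rfl,
    orderOf_injective (MulAut.conj t).toMonoidHom (MulAut.conj t).injective]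
  exact hodd

/-- Members of order at least three. -/
theorem residual_chart {W : Subgroup G}
    (hcomm : ∀ X : Subgroup G, Mem P A X → X ≤ M → ∀ a ∈ X, ∀ o ∈ M, Odd (orderOf o) → ⁅a, o⁆ ∈ W) :
    T ⊓ Cfsg.oddGenerated P ≤ W := by
  haveI : Fact (Nat.Prime 2) := ⟨Nat.prime_two⟩
  have hTP := c.base.hTP
  have hLK : L ≤ ⨆ t : ↥T, cj (t : G) L := by
    refine le_trans ?_ (le_iSup (fun t : ↥T => cj (t : G) L) 1)
    rw [OneMemClass.coe_one, cj_one]
  have hsup : (⨆ t : ↥T, cj (t : G) L) ⊔ T = P := by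
    refine le_antisymm (sup_le (iSup_le fun t => cj_le (hTP t.2) c.hLP) hTP) ?_
    by_contra hne
    exact c.hLM ((hLK.trans le_sup_left).trans (c.base.pm.max _
      (sup_le (iSup_le fun t => cj_le (hTP t.2) c.hLP) hTP) le_sup_right fun e => hne e.ge))
  have hcc : ∀ t ∈ T, cj t L ≠ L → ∀ x ∈ cj t L, ∀ y ∈ L, x * y = y * x := fun t ht hne =>
    (c.orbit_pair ht).elim (fun e => absurd e hne) fun h => h.2.2
  refine (sylow_le_of_orbit c.base.pm c.hLP hsup hcc ?_).trans (iSup_le fun t => ?_)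
  · intro g hg hg'
    refine chart_center c hg fun y hy => ?_
    have hle : (⨆ b : {b : ↥T // cj (b : G) L ≠ L}, cj ((b : ↥T) : G) L) ≤ centralizer ({y} : Set G) :=
      iSup_le fun b x hx => mem_centralizer_singleton_iff.2 (hcc _ b.1.2 b.2 x hx y hy)
    exact (mem_centralizer_singleton_iff.1 (hle hg')).symm
  · rintro x ⟨hxT, hxL⟩
    refine conj_member_le c hcomm t.2 ?_
    have hxL' : (t : G)⁻¹ * x * t ∈ L := mem_cj.1 hxL
    refine mem_cj.2 ?_
    exact (inf_chart_eq c).le ⟨T.mul_mem (T.mul_mem (T.inv_mem t.2) hxT) t.2, hxL'⟩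

end chart

/-! ### Members of order two -/

/-- Even permutations fixing a point are products of three-cycles avoiding it. -/
theorem even_fix_mem {n : ℕ} (x : Fin n) (π : Equiv.Perm (Fin n)) (hs : Equiv.Perm.sign π = 1) (hx : π x = x) :
    π ∈ closure {σ : Equiv.Perm (Fin n) | ∃ a b d, a ≠ b ∧ b ≠ d ∧ a ≠ d ∧ a ≠ x ∧ b ≠ x ∧ d ≠ x ∧
      σ = Equiv.swap b d * Equiv.swap b a} := by
  classical
  generalize hk : π.support.card = k
  induction k using Nat.strong_induction_on generalizing π with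
  | _ k ih =>
    by_cases h1 : π = 1
    · subst h1; exact one_mem _
    obtain ⟨a, ha⟩ : π.support.Nonempty :=
      Finset.nonempty_iff_ne_empty.2 fun e => h1 (Equiv.Perm.support_eq_empty_iff.1 e)
    have hab : a ≠ π a := (Equiv.Perm.mem_support.1 ha).symm
    have hb : π a ∈ π.support := Equiv.Perm.apply_mem_support.2 ha
    obtain ⟨d, hd, hda, hdb⟩ : ∃ d ∈ π.support, d ≠ a ∧ d ≠ π a := by
      by_contra hall
      push Not at hall
      have hsub : π.support ⊆ {a, π a} := fun y hy => by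
        by_cases hya : y = a
        · simp [hya]
        · simp [hall y hy hya]
      have heq : π.support = {a, π a} := Finset.Subset.antisymm hsub (by
        intro y hy
        simp only [Finset.mem_insert, Finset.mem_singleton] at hy
        rcases hy with rfl | rfl
        exacts [ha, hb])
      have hsw : π.IsSwap := Equiv.Perm.card_support_eq_two.1 (by rw [heq, Finset.card_pair hab])
      rw [hsw.sign_eq] at hs
      exact absurd hs (by decide)
    have hnx : ∀ y ∈ π.support, y ≠ x := fun y hy e => Equiv.Perm.mem_support.1 hy (e ▸ hx)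
    set τ := Equiv.swap (π a) d * Equiv.swap (π a) a with hτ
    have hτmem : τ ∈ closure {σ : Equiv.Perm (Fin n) | ∃ a b d, a ≠ b ∧ b ≠ d ∧ a ≠ d ∧ a ≠ x ∧ b ≠ x ∧ d ≠ x ∧
        σ = Equiv.swap b d * Equiv.swap b a} :=
      subset_closure ⟨a, π a, d, hab, hdb.symm, hda.symm, hnx a ha, hnx _ hb, hnx d hd, rfl⟩
    have hτfix : ∀ y, y ∉ π.support → τ y = y := fun y hy => by
      have n1 : y ≠ a := fun e => hy (e ▸ ha)
      have n2 : y ≠ π a := fun e => hy (e ▸ hb)
      have n3 : y ≠ d := fun e => hy (e ▸ hd)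
      rw [hτ, Equiv.Perm.mul_apply, Equiv.swap_apply_of_ne_of_ne n2 n1, Equiv.swap_apply_of_ne_of_ne n2 n3]
    have hfa : (τ * π) a = a := by
      rw [Equiv.Perm.mul_apply, hτ, Equiv.Perm.mul_apply, Equiv.swap_apply_left,
        Equiv.swap_apply_of_ne_of_ne hab hda.symm]
    have hsub : (τ * π).support ⊆ π.support.erase a := fun y hy => by
      rw [Finset.mem_erase]
      refine ⟨fun e => Equiv.Perm.mem_support.1 hy (e ▸ hfa), ?_⟩
      by_contra hy'
      refine Equiv.Perm.mem_support.1 hy ?_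
      rw [Equiv.Perm.mul_apply, Equiv.Perm.notMem_support.1 hy', hτfix y hy']
    have hlt : (τ * π).support.card < k :=
      hk ▸ lt_of_le_of_lt (Finset.card_le_card hsub) (Finset.card_erase_lt_of_mem ha)
    have h2 := ih _ hlt (τ * π) (by
      rw [map_mul, hτ, map_mul, Equiv.Perm.sign_swap hdb.symm, Equiv.Perm.sign_swap hab.symm, hs]
      rfl) (by
      rw [Equiv.Perm.mul_apply, hx]
      exact hτfix x fun e => hnx x e rfl) rfl
    have h3 := mul_mem (inv_mem hτmem) h2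
    rwa [inv_mul_cancel_left] at h3

section two

variable {Wsp : Type*} [AddCommGroup Wsp] {n : ℕ}

/-- The even part of the group of a frame. -/
def evenGrp (e : Additive ↥V ≃+ Wsp) (P A₀ : Subgroup G) {S : TS Wsp} (F : Frame S n) : Subgroup G :=
  closure {g | ∃ c ∈ F.pairs, ∃ d ∈ F.pairs, g = elt e P A₀ c * elt e P A₀ d}

variable {h : FFP 2 V P T M} {e : Additive ↥V ≃+ Wsp} {S : TS Wsp} (R : Real h e A₀ S)
include R

theorem evenGrp_le (F : Frame S n) : evenGrp e P A₀ F ≤ R.grp F :=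
  (closure_le _).2 (by rintro _ ⟨c, hc, d, hd, rfl⟩; exact mul_mem (R.el_grp F hc) (R.el_grp F hd))

theorem evenGrp_rel (F : Frame S n) {g : G} (hg : g ∈ evenGrp e P A₀ F) :
    ∃ π, R.Rel F g π ∧ Equiv.Perm.sign π = 1 := by
  refine closure_induction ?_ ⟨1, R.rel_one F, map_one _⟩ ?_ ?_ hg
  · rintro _ ⟨c, ⟨i, j, hij, rfl⟩, d, ⟨k, l, hkl, rfl⟩, rfl⟩
    refine ⟨_, R.rel_mul F (R.el_mem (F.mem i j hij)) (R.el_mem (F.mem k l hkl)) (R.rel_swap F hij)
      (R.rel_swap F hkl), ?_⟩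
    rw [map_mul, Equiv.Perm.sign_swap hij, Equiv.Perm.sign_swap hkl]
    rfl
  · rintro a b ha hb ⟨π, h1, h1'⟩ ⟨σ, h2, h2'⟩
    exact ⟨π * σ, R.rel_mul F (R.grp_le F (evenGrp_le R F ha)) (R.grp_le F (evenGrp_le R F hb)) h1 h2,
      by rw [map_mul, h1', h2', one_mul]⟩
  · rintro a ha ⟨π, h1, h1'⟩
    exact ⟨π⁻¹, R.rel_inv F (R.grp_le F (evenGrp_le R F ha)) h1, by rw [map_inv, h1', inv_one]⟩

theorem evenGrp_image {g : G} (hg : g ∈ P) (F : Frame S n) :
    evenGrp e P A₀ (R.image hg F) = cj g (evenGrp e P A₀ F) := by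
  rw [evenGrp, evenGrp, cj, MonoidHom.map_closure, R.image_pairs]
  congr 1
  ext x
  constructor
  · rintro ⟨_, ⟨c, hc, rfl⟩, _, ⟨d, hd, rfl⟩, rfl⟩
    refine ⟨_, ⟨c, hc, d, hd, rfl⟩, ?_⟩
    rw [(R.map_ctr hg (F.pairs_ctr hc)).2.1, (R.map_ctr hg (F.pairs_ctr hd)).2.1]
    simp [mul_assoc]
  · rintro ⟨_, ⟨c, hc, d, hd, rfl⟩, rfl⟩
    refine ⟨_, ⟨c, hc, rfl⟩, _, ⟨d, hd, rfl⟩, ?_⟩
    rw [(R.map_ctr hg (F.pairs_ctr hc)).2.1, (R.map_ctr hg (F.pairs_ctr hd)).2.1]
    simp [mul_assoc]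

/-- An element fixing the set of pairs of a frame permutes its points. -/
theorem exists_rel (F₀ : Frame S n) (hn5 : 5 ≤ n) {t : G} (htP : t ∈ P)
    (htF : act e t '' F₀.pairs = F₀.pairs) : ∃ π, R.Rel F₀ t π := by
  classical
  have hPV := h.hPV
  have himg : ∀ i j, i ≠ j → ∃ a b, a ≠ b ∧ act e t (F₀.ω i + F₀.ω j) = F₀.ω a + F₀.ω b := fun i j hij => by
    obtain ⟨a, b, hab, e'⟩ : act e t (F₀.ω i + F₀.ω j) ∈ F₀.pairs :=
      htF ▸ ⟨_, F₀.mem_pairs hij, rfl⟩
    exact ⟨a, b, hab, e'⟩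
  let f : Fin n → Fin n → Finset (Fin n) := fun i j =>
    Finset.univ.filter fun a => ∃ b, a ≠ b ∧ act e t (F₀.ω i + F₀.ω j) = F₀.ω a + F₀.ω b
  have hf : ∀ i j a b, a ≠ b → act e t (F₀.ω i + F₀.ω j) = F₀.ω a + F₀.ω b → f i j = {a, b} := by
    intro i j a b hab e'
    ext x
    simp only [f, Finset.mem_filter, Finset.mem_univ, true_and, Finset.mem_insert, Finset.mem_singleton]
    constructor
    · rintro ⟨y, hxy, e''⟩
      rcases F₀.inj x y a b hxy hab (e''.symm.trans e') with ⟨h', -⟩ | ⟨h', -⟩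
      exacts [.inl h', .inr h']
    · rintro (rfl | rfl)
      · exact ⟨b, hab, e'⟩
      · exact ⟨a, hab.symm, e'.trans (add_comm _ _)⟩
  have hinj' : ∀ v w, act e t v = act e t w → v = w := fun v w e' => by
    have := congrArg (act e t⁻¹) e'
    rwa [act_inv_act e (hPV htP), act_inv_act e (hPV htP)] at this
  obtain ⟨π, hπ⟩ := perm_of_pairs hn5 f (fun i j => by simp only [f, add_comm (F₀.ω i) (F₀.ω j)])
    (fun i j hij => by
      obtain ⟨a, b, hab, e'⟩ := himg i j hij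
      rw [hf i j a b hab e', Finset.card_pair hab])
    (fun i j k l hij hkl e' => by
      obtain ⟨a, b, hab, e1⟩ := himg i j hij
      obtain ⟨a', b', hab', e2⟩ := himg k l hkl
      rw [hf i j a b hab e1, hf k l a' b' hab' e2] at e'
      refine F₀.inj i j k l hij hkl (hinj' _ _ ?_)
      rw [e1, e2]
      have h1 : a ∈ ({a', b'} : Finset (Fin n)) := e' ▸ Finset.mem_insert_self _ _
      have h2 : b ∈ ({a', b'} : Finset (Fin n)) := e' ▸ Finset.mem_insert_of_mem (Finset.mem_singleton_self _)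
      simp only [Finset.mem_insert, Finset.mem_singleton] at h1 h2
      rcases h1 with rfl | rfl <;> rcases h2 with rfl | rfl <;>
        first | rfl | exact add_comm _ _ | exact absurd rfl hab)
    (fun i j k hij hik hjk => by
      obtain ⟨a, b, hab, e1⟩ := himg i j hij
      obtain ⟨a', b', hab', e2⟩ := himg i k hik
      have h1 : S.φ (F₀.ω a + F₀.ω b) (F₀.ω a' + F₀.ω b') = 1 := by
        rw [← e1, ← e2, (R.map_ctr htP (F₀.mem i j hij)).2.2, F₀.pair i j i k hij hik]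
        simp [ind, hik, hij.symm, hjk]
      rw [F₀.pair a b a' b' hab hab'] at h1
      rw [hf i j a b hab e1, hf i k a' b' hab' e2]
      simp only [Finset.mem_insert, Finset.mem_singleton]
      by_cases c1 : a = a'
      · exact ⟨a, .inl rfl, .inl c1⟩
      by_cases c2 : a = b'
      · exact ⟨a, .inl rfl, .inr c2⟩
      by_cases c3 : b = a'
      · exact ⟨b, .inr rfl, .inl c3⟩
      by_cases c4 : b = b'
      · exact ⟨b, .inr rfl, .inr c4⟩
      simp [ind, c1, c2, c3, c4] at h1)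
    (fun i j k l hij hkl h1 h2 h3 h4' a ha hb => by
      obtain ⟨x, y, hxy, e1⟩ := himg i j hij
      obtain ⟨x', y', hxy', e2⟩ := himg k l hkl
      have h0 : S.φ (F₀.ω x + F₀.ω y) (F₀.ω x' + F₀.ω y') = 0 := by
        rw [← e1, ← e2, (R.map_ctr htP (F₀.mem i j hij)).2.2, F₀.pair i j k l hij hkl]
        simp [ind, h1, h2, h3, h4']
      have hne : F₀.ω x + F₀.ω y ≠ F₀.ω x' + F₀.ω y' := by
        rw [← e1, ← e2]
        intro e'
        rcases F₀.inj i j k l hij hkl (hinj' _ _ e') with ⟨z, -⟩ | ⟨z, -⟩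
        exacts [h1 z, h2 z]
      rw [F₀.pair x y x' y' hxy hxy'] at h0
      rw [hf i j x y hxy e1] at ha
      rw [hf k l x' y' hxy' e2] at hb
      simp only [Finset.mem_insert, Finset.mem_singleton] at ha hb
      rcases ha with rfl | rfl <;> rcases hb with rfl | rfl
      · by_cases c : y = y'
        · exact hne (by rw [c])
        · simp [ind, hxy.symm, hxy', c] at h0
      · by_cases c : y = x'
        · exact hne (by rw [c, add_comm])
        · simp [ind, hxy.symm, hxy'.symm, c] at h0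
      · by_cases c : x = y'
        · exact hne (by rw [c, add_comm])
        · simp [ind, hxy, hxy', c] at h0
      · by_cases c : x = x'
        · exact hne (by rw [c])
        · simp [ind, hxy, hxy'.symm, c] at h0)
  refine ⟨π, fun i j hij => ?_⟩
  obtain ⟨a, b, hab, e1⟩ := himg i j hij
  have e2 := hπ i j hij
  rw [hf i j a b hab e1] at e2
  rw [e1]
  have h1 : a ∈ ({π i, π j} : Finset (Fin n)) := e2 ▸ Finset.mem_insert_self _ _
  have h2 : b ∈ ({π i, π j} : Finset (Fin n)) := e2 ▸ Finset.mem_insert_of_mem (Finset.mem_singleton_self _)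
  simp only [Finset.mem_insert, Finset.mem_singleton] at h1 h2
  rcases h1 with rfl | rfl <;> rcases h2 with rfl | rfl <;>
    first | rfl | exact add_comm _ _ | exact absurd rfl hab

/-- An element of the group of a frame fixes its set of pairs. -/
theorem grp_image_pairs (F : Frame S n) {g : G} (hg : g ∈ R.grp F) : act e g '' F.pairs = F.pairs := by
  obtain ⟨π, hπ⟩ := R.rel_exists F hg
  ext c
  constructor
  · rintro ⟨_, ⟨a, b, hab, rfl⟩, rfl⟩
    exact ⟨π a, π b, fun e' => hab (π.injective e'), hπ a b hab⟩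
  · rintro ⟨a, b, hab, rfl⟩
    refine ⟨_, F.mem_pairs (fun e' => hab (π.symm.injective e')), ?_⟩
    rw [hπ _ _ (fun e' => hab (π.symm.injective e'))]
    simp

/-- The even part of the Sylow subgroup of the group of a closed frame. -/
theorem frame_even_le {Wt : Subgroup G} (F : Frame S n) (hF : R.Closed F) (hn : 3 ≤ n) (hnodd : Odd n)
    (hodd : ∀ o ∈ closure {g : G | ∃ X, Mem P A₀ X ∧ X ≤ M ∧ g ∈ X}, Odd (orderOf o) → o ∈ Wt) :
    T ⊓ evenGrp e P A₀ F ≤ Wt := by
  classical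
  haveI : Fact (Nat.Prime 2) := ⟨Nat.prime_two⟩
  have hTP := h.hTP
  have hPV := h.hPV
  rintro g ⟨hgT, hgE⟩
  obtain ⟨π, hπ, hsign⟩ := evenGrp_rel R F hgE
  have hgF : g ∈ R.grp F := evenGrp_le R F hgE
  by_cases hn3 : n = 3
  · subst hn3
    have hp : ∀ k : ℕ, R.Rel F (g ^ k) (π ^ k) := by
      intro k
      induction k with
      | zero => simpa using R.rel_one F
      | succ k ih =>
        rw [pow_succ, pow_succ]
        exact R.rel_mul F (P.pow_mem (hTP hgT) k) (hTP hgT) ih hπ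
    obtain ⟨j, hj⟩ := h.pm.Tp ⟨g, hgT⟩
    have hj' : g ^ (2 ^ j) = 1 := congrArg Subtype.val hj
    have h1 : π ^ (2 ^ j) = 1 := by
      have := hp (2 ^ j)
      rw [hj'] at this
      exact R.rel_unique F le_rfl this (R.rel_one F)
    have h3 : ∀ σ : Equiv.Perm (Fin 3), Equiv.Perm.sign σ = 1 → σ ^ 3 = 1 := by decide
    have hd1 : orderOf π ∣ 2 ^ j := orderOf_dvd_of_pow_eq_one h1
    have hd2 : orderOf π ∣ 3 := orderOf_dvd_of_pow_eq_one (h3 π hsign)
    have hπ1 : π = 1 := orderOf_eq_one_iff.1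
      (Nat.eq_one_of_dvd_coprimes (Nat.Coprime.pow_left j (by norm_num)) hd1 hd2)
    rw [R.rel_faithful F hF hgF (hπ1 ▸ hπ)]
    exact one_mem _
  have hn5 : 5 ≤ n := by obtain ⟨k, rfl⟩ := hnodd; omega
  -- the stabiliser of the frame in `T` fixes a point
  let T₀ : Subgroup G :=
    { carrier := {t | t ∈ T ∧ act e t '' F.pairs = F.pairs}
      one_mem' := ⟨T.one_mem, by simp [Set.image_congr' (fun c => act_one e c)]⟩
      mul_mem' := by
        rintro a b ⟨ha, a1⟩ ⟨hb, b1⟩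
        refine ⟨T.mul_mem ha hb, ?_⟩
        rw [Set.image_congr' (fun c => act_mul e (hPV (hTP ha)) (hPV (hTP hb)) c), ← Set.image_image, b1, a1]
      inv_mem' := by
        rintro a ⟨ha, a1⟩
        refine ⟨T.inv_mem ha, ?_⟩
        conv_lhs => rw [← a1]
        rw [Set.image_image, Set.image_congr' (fun c => act_inv_act e (hPV (hTP ha)) c), Set.image_id'] }
  have hrelT : ∀ t : ↥T₀, ∃ π, R.Rel F (t : G) π := fun t => exists_rel R F hn5 (hTP t.2.1) t.2.2
  choose qf hqf using hrelT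
  let qh : ↥T₀ →* Equiv.Perm (Fin n) := MonoidHom.mk' qf fun a b =>
    R.rel_unique F hn (hqf (a * b)) (R.rel_mul F (hTP a.2.1) (hTP b.2.1) (hqf a) (hqf b))
  have hQ : IsPGroup 2 qh.range :=
    IsPGroup.of_surjective (h.pm.Tp.to_le fun t (ht : t ∈ T₀) => ht.1) qh.rangeRestrict
      qh.rangeRestrict_surjective
  obtain ⟨x, hx⟩ := hQ.nonempty_fixed_point_of_prime_not_dvd_card (Fin n) (by
    rw [Nat.card_fin]; exact fun hd => Nat.not_even_iff_odd.2 hnodd (even_iff_two_dvd.2 hd))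
  have hxfix : ∀ t : ↥T₀, qf t x = x := fun t => hx (⟨qh t, t, rfl⟩ : qh.range)
  -- members avoiding the point lie in `M`
  let Pz : Set Wsp := {c | ∃ i j, i ≠ j ∧ i ≠ x ∧ j ≠ x ∧ c = F.ω i + F.ω j}
  let Pi : Set Wsp := {c | ∃ t ∈ T, c ∈ act e t '' Pz}
  have hsub : Pz ⊆ F.pairs := by
    rintro _ ⟨i, j, hij, -, -, rfl⟩
    exact F.mem_pairs hij
  have hPi0 : ∀ c ∈ Pi, c ∈ F.pairs → c ∈ Pz := by
    rintro _ ⟨t, ht, ⟨_, ⟨i, j, hij, hi, hj, rfl⟩, rfl⟩⟩ hc
    have htF : act e t '' F.pairs = F.pairs := by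
      rw [← R.image_pairs (hTP ht)]
      have hm : act e t (F.ω i + F.ω j) ∈ (R.image (hTP ht) F).pairs := by
        rw [R.image_pairs]; exact ⟨_, F.mem_pairs hij, rfl⟩
      exact le_antisymm (R.closed_subset hF hc hm) (R.closed_subset (R.closed_image _ hF) hm hc)
    set t₀ : ↥T₀ := ⟨t, ht, htF⟩
    refine ⟨qf t₀ i, qf t₀ j, fun e' => hij ((qf t₀).injective e'), fun e' => hi ?_, fun e' => hj ?_,
      hqf t₀ i j hij⟩
    · exact (qf t₀).injective (e'.trans (hxfix t₀).symm)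
    · exact (qf t₀).injective (e'.trans (hxfix t₀).symm)
  have hPiT : ∀ t ∈ T, ∀ c, c ∈ Pi ↔ act e t c ∈ Pi := by
    intro t ht c
    constructor
    · rintro ⟨s, hs, ⟨d, hd, rfl⟩⟩
      exact ⟨t * s, T.mul_mem ht hs, d, hd, act_mul e (hPV (hTP ht)) (hPV (hTP hs)) d⟩
    · rintro ⟨s, hs, ⟨d, hd, e'⟩⟩
      refine ⟨t⁻¹ * s, T.mul_mem (T.inv_mem ht) hs, d, hd, ?_⟩
      rw [act_mul e (inv_mem (hPV (hTP ht))) (hPV (hTP hs)), e', act_inv_act e (hPV (hTP ht))]
  let X : Subgroup G :=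
    { carrier := {g | g ∈ P ∧ ∀ c, c ∈ Pi ↔ act e g c ∈ Pi}
      one_mem' := ⟨P.one_mem, fun c => by rw [act_one]⟩
      mul_mem' := by
        rintro a b ⟨ha, a1⟩ ⟨hb, b1⟩
        exact ⟨P.mul_mem ha hb, fun c => by rw [act_mul e (hPV ha) (hPV hb)]; exact (b1 c).trans (a1 _)⟩
      inv_mem' := by
        rintro a ⟨ha, a1⟩
        refine ⟨P.inv_mem ha, fun c => ?_⟩
        have := a1 (act e a⁻¹ c)
        rw [act_act_inv e (hPV ha)] at this
        exact this.symm }
  have hXM : X ≤ M := by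
    refine h.pm.max X (fun g hg => hg.1) (fun t ht => ⟨hTP ht, hPiT t ht⟩) fun e' => ?_
    have others : ∀ s : Finset (Fin n), s.card ≤ 2 → ∃ y, y ∉ s := by
      intro s hs
      by_contra hall
      push Not at hall
      have := Finset.card_le_card (show Finset.univ ⊆ s from fun y _ => hall y)
      rw [Finset.card_univ, Fintype.card_fin] at this
      omega
    obtain ⟨a, ha⟩ := others {x} (by simp)
    obtain ⟨b, hb⟩ := others {x, a} Finset.card_le_two
    simp only [Finset.mem_insert, Finset.mem_singleton, not_or] at ha hb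
    have hgX : elt e P A₀ (F.ω a + F.ω x) ∈ X := e'.symm ▸ R.el_mem (F.mem a x ha)
    have h1 : F.ω a + F.ω b ∈ Pi :=
      ⟨1, T.one_mem, _, ⟨a, b, Ne.symm hb.2, ha, hb.1, rfl⟩, act_one e _⟩
    have h2 := (hgX.2 _).1 h1
    rw [R.rel_swap F ha a b (Ne.symm hb.2), Equiv.swap_apply_left,
      Equiv.swap_apply_of_ne_of_ne hb.2 hb.1] at h2
    obtain ⟨i', j', hij', hi', hj', e''⟩ := hPi0 _ h2 (F.mem_pairs (Ne.symm hb.1))
    rcases F.inj x b i' j' (Ne.symm hb.1) hij' e'' with ⟨z, -⟩ | ⟨z, -⟩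
    · exact hi' z.symm
    · exact hj' z.symm
  have hmemM : ∀ a b, a ≠ b → a ≠ x → b ≠ x → elt e P A₀ (F.ω a + F.ω b) ∈ M := by
    intro a b hab ha hb
    set d := F.ω a + F.ω b with hd
    have hdc : d ∈ S.ctr := F.mem a b hab
    have fwd : ∀ c ∈ Pi, act e (elt e P A₀ d) c ∈ Pi := by
      intro c hc
      by_cases hcp : c ∈ F.pairs
      · obtain ⟨i, j, hij, hi, hj, rfl⟩ := hPi0 c hc hcp
        rw [R.rel_swap F hab i j hij]
        refine ⟨1, T.one_mem, _, ⟨_, _, fun z => hij ((Equiv.swap a b).injective z), ?_, ?_, rfl⟩, act_one e _⟩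
        · intro z
          exact hi ((Equiv.swap a b).injective (z.trans (Equiv.swap_apply_of_ne_of_ne (Ne.symm ha) (Ne.symm hb)).symm))
        · intro z
          exact hj ((Equiv.swap a b).injective (z.trans (Equiv.swap_apply_of_ne_of_ne (Ne.symm ha) (Ne.symm hb)).symm))
      · have hcc : c ∈ S.ctr := by
          obtain ⟨t, ht, ⟨c', hc', rfl⟩⟩ := hc
          exact (R.map_ctr (hTP ht) (F.pairs_ctr (hsub hc'))).1
        rw [R.act_el hdc, S.symm d hdc c hcc, hF c hcc hcp d (F.mem_pairs hab), sm_zero, add_zero]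
        exact hc
    refine hXM ⟨R.el_mem hdc, fun c => ⟨fwd c, fun hc => ?_⟩⟩
    have h1 := fwd _ hc
    rwa [← act_mul e (hPV (R.el_mem hdc)) (hPV (R.el_mem hdc)), (R.tr hdc).sq h e, act_one] at h1
  -- three-cycles avoiding the point
  let D : Subgroup (Equiv.Perm (Fin n)) :=
    { carrier := {σ | ∃ k ∈ Wt ⊓ R.grp F, R.Rel F k σ}
      one_mem' := ⟨1, one_mem _, R.rel_one _⟩
      mul_mem' := by
        rintro σ τ ⟨k, hk, h1⟩ ⟨k', hk', h2⟩
        exact ⟨k * k', mul_mem hk hk', R.rel_mul _ (R.grp_le _ hk.2) (R.grp_le _ hk'.2) h1 h2⟩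
      inv_mem' := by
        rintro σ ⟨k, hk, h1⟩
        exact ⟨k⁻¹, inv_mem hk, R.rel_inv _ (R.grp_le _ hk.2) h1⟩ }
  have hπx : π x = x := by
    have := R.rel_unique F hn hπ (hqf ⟨g, hgT, grp_image_pairs R F hgF⟩)
    rw [this]; exact hxfix _
  obtain ⟨k, hk, hkπ⟩ : π ∈ D := by
    refine (closure_le D).2 ?_ (even_fix_mem x π hsign hπx)
    rintro _ ⟨a, b, d, hab, hbd, had, ha, hb, hd, rfl⟩
    set u := elt e P A₀ (F.ω b + F.ω d) with hu
    set v := elt e P A₀ (F.ω b + F.ω a) with hv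
    have hu1 := R.el_grp F (F.mem_pairs hbd)
    have hv1 := R.el_grp F (F.mem_pairs (Ne.symm hab))
    have hr := R.rel_mul F (R.el_mem (F.mem b d hbd)) (R.el_mem (F.mem b a (Ne.symm hab)))
      (R.rel_swap F hbd) (R.rel_swap F (Ne.symm hab))
    refine ⟨u * v, ⟨hodd _ (mul_mem (subset_closure ?_) (subset_closure ?_)) ?_, mul_mem hu1 hv1⟩, hr⟩
    · exact ⟨zpowers u, (R.tr (F.mem b d hbd)).isMem, zpowers_le.2 (hmemM b d hbd hb hd), mem_zpowers _⟩
    · exact ⟨zpowers v, (R.tr (F.mem b a (Ne.symm hab))).isMem, zpowers_le.2 (hmemM b a (Ne.symm hab) hb ha),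
        mem_zpowers _⟩
    · have hP' : u * v ∈ P := R.grp_le F (mul_mem hu1 hv1)
      have h3 : (Equiv.swap b d * Equiv.swap b a) ^ 3 = 1 := by
        rw [← (Equiv.Perm.isThreeCycle_swap_mul_swap_same hbd (Ne.symm hab) had.symm).orderOf]
        exact pow_orderOf_eq_one _
      have hr3 := R.rel_mul F (P.mul_mem hP' hP') hP' (R.rel_mul F hP' hP' hr hr) hr
      rw [show Equiv.swap b d * Equiv.swap b a * (Equiv.swap b d * Equiv.swap b a) *
        (Equiv.swap b d * Equiv.swap b a) = (Equiv.swap b d * Equiv.swap b a) ^ 3 by rw [pow_three, mul_assoc],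
        h3] at hr3
      have h1 := R.rel_faithful F hF (mul_mem (mul_mem (mul_mem hu1 hv1) (mul_mem hu1 hv1)) (mul_mem hu1 hv1)) hr3
      exact Odd.of_dvd_nat (by decide : Odd 3) (orderOf_dvd_of_pow_eq_one (by rw [pow_three, ← mul_assoc]; exact h1))
  have hgk := R.rel_mul F (R.grp_le _ hgF) (P.inv_mem (R.grp_le _ hk.2)) hπ (R.rel_inv F (R.grp_le _ hk.2) hkπ)
  rw [mul_inv_cancel] at hgk
  rw [mul_inv_eq_one.1 (R.rel_faithful F hF (mul_mem hgF (inv_mem hk.2)) hgk)]
  exact hk.1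

end two

/-- Members of order two. -/
theorem residual_two (h : FFP 2 V P T M) (hA₀P : A₀ ≤ P) (hA₀ : MinOff 2 V A₀) (hq : Nat.card ↥A₀ = 2)
    {Wt : Subgroup G}
    (hodd : ∀ o ∈ closure {g : G | ∃ X, Mem P A₀ X ∧ X ≤ M ∧ g ∈ X}, Odd (orderOf o) → o ∈ Wt) :
    T ⊓ Cfsg.oddGenerated P ≤ Wt := by
  classical
  haveI : Fact (Nat.Prime 2) := ⟨Nat.prime_two⟩
  letI : CommGroup ↥V :=
    { (inferInstance : Group ↥V) with mul_comm := fun a b => Subtype.ext (h.comm a a.2 b b.2) }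
  let e : Additive ↥V ≃+ Additive ↥V := AddEquiv.refl _
  obtain ⟨S, hctr, hphi⟩ := exists_ts h e hA₀P hA₀
  have R : Real h e A₀ S := ⟨hA₀P, hA₀, hctr, hphi⟩
  obtain ⟨n, F₀, hn, hF₀, hFM, c₀, hc₀, hc₀T⟩ := exists_closed_frame h e R hq
  obtain ⟨⟨m, hm, hnm⟩, -⟩ := components_of_frame h e R F₀ hn hF₀ hFM
  have hnodd : Odd n := by
    rw [hnm]; exact (Nat.even_pow.2 ⟨even_two, by omega⟩).add_one
  have hTP := h.hTP
  have hPV := h.hPV
  set E₀ := evenGrp e P A₀ F₀ with hE₀def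
  have hE₀P : E₀ ≤ P := (evenGrp_le R F₀).trans (R.grp_le F₀)
  have hK : E₀ ≤ ⨆ t : ↥T, cj (t : G) E₀ := by
    refine le_trans ?_ (le_iSup (fun t : ↥T => cj (t : G) E₀) 1)
    rw [OneMemClass.coe_one, cj_one]
  have hsup : (⨆ t : ↥T, cj (t : G) E₀) ⊔ T = P := by
    have hle := sup_le (iSup_le fun t : ↥T => cj_le (hTP t.2) hE₀P) hTP
    refine le_antisymm hle ?_
    by_contra hne
    refine hFM (le_trans ((closure_le _).2 ?_) (h.pm.max _ hle le_sup_right fun e' => hne e'.ge))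
    rintro _ ⟨c, hc, rfl⟩
    rw [SetLike.mem_coe, ← mul_inv_cancel_right (elt e P A₀ c) (elt e P A₀ c₀)]
    exact mul_mem (mem_sup_left (hK (subset_closure ⟨c, hc, c₀, hc₀, rfl⟩)))
      (mem_sup_right (T.inv_mem hc₀T))
  have horth : ∀ t ∈ T, cj t E₀ ≠ E₀ → ∀ c ∈ act e t '' F₀.pairs, ∀ d ∈ F₀.pairs, S.φ c d = 0 := by
    intro t ht hne c hc d hd
    rw [← R.image_pairs (hTP ht)] at hc
    refine hF₀ c ((R.image (hTP ht) F₀).pairs_ctr hc) (fun hc' => hne ?_) d hd
    rw [hE₀def, ← evenGrp_image R (hTP ht), evenGrp, evenGrp,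
      Set.Subset.antisymm (R.closed_subset hF₀ hc' hc) (R.closed_subset (R.closed_image _ hF₀) hc hc')]
  have hgrp : ∀ t, ∀ ht : t ∈ T, cj t E₀ ≤ R.grp (R.image (hTP ht) F₀) := fun t ht => by
    rw [hE₀def, ← evenGrp_image R (hTP ht)]
    exact evenGrp_le R _
  refine (sylow_le_of_orbit h.pm hE₀P hsup ?_ ?_).trans (iSup_le fun t => ?_)
  · intro t ht hne x hx y hy
    have hle : R.grp (R.image (hTP ht) F₀) ≤ centralizer ((R.grp F₀ : Subgroup G) : Set G) := by
      refine (closure_le _).2 ?_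
      rintro _ ⟨c, hc, rfl⟩
      refine SetLike.mem_coe.2 (le_centralizer_iff.1 (?_ : R.grp F₀ ≤
        centralizer ((zpowers (elt e P A₀ c) : Subgroup G) : Set G)) (mem_zpowers _))
      refine (closure_le _).2 ?_
      rintro _ ⟨d, hd, rfl⟩
      refine mem_centralizer_iff.2 ?_
      rintro _ ⟨k, rfl⟩
      have hc' : c ∈ act e t '' F₀.pairs := R.image_pairs (hTP ht) F₀ ▸ hc
      exact ((show Commute (elt e P A₀ c) (elt e P A₀ d) from
        R.el_comm ((R.image (hTP ht) F₀).pairs_ctr hc) (F₀.pairs_ctr hd)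
          (horth t ht hne c hc' d hd)).zpow_left k).eq
    exact (mem_centralizer_iff.1 (hle (hgrp t ht hx)) y (evenGrp_le R F₀ hy)).symm
  · intro g hg hg'
    let Fix : Subgroup G :=
      { carrier := {g | g ∈ P ∧ ∀ c ∈ F₀.pairs, act e g c = c}
        one_mem' := ⟨P.one_mem, fun c _ => act_one e c⟩
        mul_mem' := by
          rintro a b ⟨ha, a1⟩ ⟨hb, b1⟩
          exact ⟨P.mul_mem ha hb, fun c hc => by rw [act_mul e (hPV ha) (hPV hb), b1 c hc, a1 c hc]⟩
        inv_mem' := by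
          rintro a ⟨ha, a1⟩
          refine ⟨P.inv_mem ha, fun c hc => ?_⟩
          conv_lhs => rw [← a1 c hc]
          exact act_inv_act e (hPV ha) c }
    have hle : (⨆ b : {b : ↥T // cj (b : G) E₀ ≠ E₀}, cj ((b : ↥T) : G) E₀) ≤ Fix := by
      refine iSup_le fun b x hx => ?_
      have hx' := hgrp _ b.1.2 hx
      refine ⟨R.grp_le _ hx', fun c hc => R.grp_fix _ hx' fun d hd => ?_⟩
      exact horth _ b.1.2 b.2 d (R.image_pairs (hTP b.1.2) F₀ ▸ hd) c hc
    refine R.rel_faithful F₀ hF₀ (evenGrp_le R F₀ hg) fun i j hij => ?_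
    exact (hle hg').2 _ (F₀.mem_pairs hij)
  · rw [hE₀def, ← evenGrp_image R (hTP t.2)]
    exact frame_even_le R _ (R.closed_image _ hF₀) hn hnodd hodd

/-- The Sylow subgroup of `O²(P)` lies in `W`. -/
theorem sylow_residual_le {V P T M A₀ W : Subgroup G}
    (h : FFP 2 V P T M) (hA₀P : A₀ ≤ P) (hA₀ : MinOff 2 V A₀)
    (hcomm : ∀ X : Subgroup G, Mem P A₀ X → X ≤ M → ∀ a ∈ X, ∀ o ∈ M, Odd (orderOf o) → ⁅a, o⁆ ∈ W)
    (hodd : ∀ o ∈ closure {g : G | ∃ X, Mem P A₀ X ∧ X ≤ M ∧ g ∈ X}, Odd (orderOf o) → o ∈ W) :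
    T ⊓ Cfsg.oddGenerated P ≤ W := by
  classical
  haveI : Fact (Nat.Prime 2) := ⟨Nat.prime_two⟩
  have h2 : 2 ≤ Nat.card ↥A₀ := by
    have := (one_lt_card_iff_ne_bot A₀).2 hA₀.ne
    omega
  rcases Nat.eq_or_lt_of_le h2 with hq | hq
  · exact residual_two h hA₀P hA₀ hq.symm hodd
  obtain ⟨k, hk, L, R, hLP, -, hkT, hLM, hB, hnormp⟩ := h.exists_good hA₀P hA₀
  obtain ⟨F, iF, iF', C, iC, ⟨c⟩⟩ := exists_chart h (hA₀.cj (h.hPV hk)) hkT hLP hLM hB hnormp
    (by rw [card_cj]; omega)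
  refine residual_chart c fun X hX => hcomm X ?_
  obtain ⟨g, hg, rfl⟩ := hX
  exact (show Mem P A₀ (cj k A₀) from ⟨k, hk, rfl⟩).cj hg

end Cfsg.Agent.H60.Qrc
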