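import Mathlib

/-!
A central section with a complement inside a Sylow subgroup is trivial in a group generated by elements
of odd order (transfer).
-/

set_option autoImplicit false
set_option linter.style.haveILetI false

namespace Cfsg.Agent.H60.Qrc

open Subgroup
open scoped commutatorElement

variable {L : Type*} [Group L] [Finite L]

theorem central_le_complement (S : Sylow 2 L) (Z R : Subgroup L)
    (hodd : closure {x : L | Odd (orderOf x)} = ⊤) (hS : (S : Subgroup L) = R ⊔ Z) (hZ : Z ≤ center L)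
    (hRn : (S : Subgroup L) ≤ normalizer (R : Set L)) : Z ≤ R := by
  classical
  haveI : Fact (Nat.Prime 2) := ⟨Nat.prime_two⟩
  have hR : R ≤ (S : Subgroup L) := hS ▸ le_sup_left
  haveI : (R.subgroupOf (S : Subgroup L)).Normal := (normal_subgroupOf_iff_le_normalizer hR).2 hRn
  let A := ↥(S : Subgroup L) ⧸ R.subgroupOf (S : Subgroup L)
  have hrep : ∀ a : A, ∃ z : ↥(S : Subgroup L), (z : L) ∈ Z ∧ (z : A) = a := by
    intro a
    induction a using QuotientGroup.induction_on with
    | H s =>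
      have hs : (s : L) ∈ Z ⊔ R := by
        rw [sup_comm, ← hS]
        exact s.2
      rw [← SetLike.mem_coe, coe_mul_of_left_le_normalizer_right _ _
        ((hS ▸ le_sup_right : Z ≤ (S : Subgroup L)).trans hRn)] at hs
      obtain ⟨z, hz, r, hr, e⟩ := hs
      refine ⟨⟨z, (hS ▸ le_sup_right : Z ≤ (S : Subgroup L)) hz⟩, hz, ?_⟩
      rw [QuotientGroup.eq, mem_subgroupOf]
      show z⁻¹ * (s : L) ∈ R
      rw [← e, inv_mul_cancel_left]
      exact hr
  letI : CommGroup A :=
    { (inferInstance : Group A) with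
      mul_comm := fun a b => by
        obtain ⟨x, hx, rfl⟩ := hrep a
        obtain ⟨y, -, rfl⟩ := hrep b
        rw [← QuotientGroup.mk_mul, ← QuotientGroup.mk_mul]
        exact congrArg _ (Subtype.ext (mem_center_iff.1 (hZ hx) y).symm) }
  let φ : ↥(S : Subgroup L) →* A := QuotientGroup.mk' _
  have h1 : ∀ g : L, φ.transfer g = 1 := by
    intro g
    have hg : g ∈ closure {x : L | Odd (orderOf x)} := hodd.ge (mem_top g)
    induction hg using closure_induction with
    | mem x hx =>
      obtain ⟨k, hk⟩ := (S.2.to_quotient (R.subgroupOf (S : Subgroup L))) (φ.transfer x)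
      have h2 : (φ.transfer x) ^ orderOf x = 1 := by rw [← map_pow, pow_orderOf_eq_one, map_one]
      have h3 := (pow_gcd_eq_one (a := φ.transfer x) (m := 2 ^ k) (n := orderOf x)).2 ⟨hk, h2⟩
      rwa [Nat.Coprime.gcd_eq_one ((Nat.coprime_two_left.2 hx).pow_left k), pow_one] at h3
    | one => exact map_one _
    | mul a b _ _ ha hb => rw [map_mul, ha, hb, one_mul]
    | inv a _ ha => rw [map_inv, ha, inv_one]
  intro z hz
  have hzS : z ∈ (S : Subgroup L) := hS ▸ mem_sup_right hz
  have key : ∀ (k : ℕ) (g₀ : L), g₀⁻¹ * z ^ k * g₀ ∈ (S : Subgroup L) → g₀⁻¹ * z ^ k * g₀ = z ^ k :=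
    fun k g₀ _ => by
      rw [mul_assoc, ← mem_center_iff.1 (pow_mem (hZ hz) k) g₀, inv_mul_cancel_left]
  have h4 := MonoidHom.transfer_eq_pow φ z key
  rw [h1] at h4
  have h5 : φ ⟨z, hzS⟩ ^ (S : Subgroup L).index = 1 := by
    rw [← map_pow]
    exact (congrArg φ (Subtype.ext (by simp) : (⟨z, hzS⟩ : ↥(S : Subgroup L)) ^ (S : Subgroup L).index =
      ⟨z ^ (S : Subgroup L).index, _⟩)).trans h4.symm
  obtain ⟨k, hk⟩ := (S.2.to_quotient (R.subgroupOf (S : Subgroup L))) (φ ⟨z, hzS⟩)
  have h6 := (pow_gcd_eq_one (a := φ ⟨z, hzS⟩) (m := 2 ^ k) (n := (S : Subgroup L).index)).2 ⟨hk, h5⟩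
  have hodd' : Odd (S : Subgroup L).index := by
    rw [Nat.odd_iff]
    have := S.not_dvd_index
    omega
  rw [Nat.Coprime.gcd_eq_one ((Nat.coprime_two_left.2 hodd').pow_left k), pow_one] at h6
  exact (QuotientGroup.eq_one_iff (N := R.subgroupOf (S : Subgroup L)) _).1 h6

end Cfsg.Agent.H60.Qrc
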