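import Cfsg.Agent.H60.Qrc.Ctx
import Cfsg.Agent.H60.Qrc.Module
import Cfsg.Agent.H60.Qrc.Transfer
import Cfsg.Agent.H60.Qrc.Residual

/-!
An exact offender on the fixed points of `O₂(H)` forces a Sylow `2`-subgroup of `O²(H)` into `O₂(M₀)`.
-/

set_option autoImplicit false
set_option linter.style.haveILetI false
set_option linter.unusedSectionVars false
set_option maxHeartbeats 1000000

open scoped commutatorElement

namespace Cfsg.Agent.H60.Qrc

open Subgroup
open Cfsg.Agent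
open Cfsg.Agent.H34.MinOffender (cj mem_cj card_cj conj_mem_cj)
open Cfsg.Agent.H34.Para (cj_mul cj_one cj_mono cj_le cj_eq_self cj_inv_cj cj_cj_inv cj_eq_of_mem_normalizer
  mem_normalizer_of_cj_eq MinOff Mem FFP)

universe u

theorem map_cj {A B : Type*} [Group A] [Group B] (f : A →* B) (h : A) (Y : Subgroup A) :
    (cj h Y).map f = cj (f h) (Y.map f) := by
  rw [cj, cj, Subgroup.map_map, Subgroup.map_map]
  congr 1
  ext x
  simp

theorem exists_odd_lift {A B : Type*} [Group A] [Finite A] [Group B] (f : A →* B) {x : A}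
    (h : Odd (orderOf (f x))) : ∃ z ∈ zpowers x, Odd (orderOf z) ∧ f z = f x := by
  haveI : Fact (Nat.Prime 2) := ⟨Nat.prime_two⟩
  set k := (orderOf x).factorization 2
  obtain ⟨j, hj⟩ := exists_pow_eq_self_of_coprime (x := f x) (n := 2 ^ k)
    ((Nat.coprime_two_left.2 h).pow_left k)
  refine ⟨(x ^ 2 ^ k) ^ j, (zpowers x).pow_mem ((zpowers x).pow_mem (mem_zpowers x) _) _, ?_,
    by rw [map_pow, map_pow, hj]⟩
  refine Odd.of_dvd_nat ?_ (orderOf_pow_dvd j)
  rw [orderOf_pow' x (pow_ne_zero _ two_ne_zero), Nat.gcd_eq_right (Nat.ordProj_dvd (orderOf x) 2),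
    Nat.odd_iff]
  have := Nat.not_dvd_ordCompl Nat.prime_two (orderOf_pos x).ne'
  omega

variable {G : Type u} [Group G] [Finite G]

theorem mem_centralizer_subgroupOf {H F : Subgroup G} (hFH : F ≤ H) {g : ↥H} :
    g ∈ centralizer ((F.subgroupOf H : Subgroup ↥H) : Set ↥H) ↔ (g : G) ∈ centralizer (F : Set G) := by
  rw [mem_centralizer_iff, mem_centralizer_iff]
  exact ⟨fun h f hf => congrArg Subtype.val (h ⟨f, hFH hf⟩ hf), fun h f hf => Subtype.ext (h f hf)⟩

variable {T : Sylow 2 G} {M₀ H N V : Subgroup G}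

theorem Ctx.odd_mem {x : G} (c : Ctx T M₀ H N V) (hx : x ∈ H) (ho : Odd (orderOf x)) :
    x ∈ Cfsg.oddGenerated H := have := c.hTH; subset_closure ⟨hx, ho⟩

variable (c : Ctx T M₀ H N V)
include c

theorem Ctx.hRN : Cfsg.pCoreOf 2 M₀ ≤ N := c.hRT.trans c.hTN

/-- A normal subgroup of `N` meeting `T` in `O₂(M₀)`. -/
theorem Ctx.exists_cstar :
    ∃ C : Subgroup G, C ≤ N ∧ N ≤ normalizer (C : Set G) ∧ (T : Subgroup G) ⊓ C = Cfsg.pCoreOf 2 M₀ := by
  rcases c.hI with hK | hV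
  swap
  · refine ⟨N ⊓ centralizer (V : Set G), inf_le_left, ?_, ?_⟩
    · refine (le_inf le_normalizer fun n hn => mem_normalizer_of_cj_eq ?_).trans inf_normalizer_le_normalizer_inf
      rw [cj_centralizer, cj_eq_of_mem_normalizer (hV hn)]
    · rw [← inf_assoc, inf_eq_left.2 c.hTN, c.hR]
  set K₀ := Cfsg.oddGenerated M₀
  set W := Cfsg.pCoreOf 2 K₀
  have hNW : N ≤ normalizer (W : Set G) := hK.trans
    (H83.normalizer_le_map_char K₀ (Cfsg.pCore 2 ↥K₀) (H51.pCore_characteristic 2 ↥K₀))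
  have hK₀M : K₀ ≤ M₀ := oddGenerated_le M₀
  have hM₀W : M₀ ≤ normalizer (W : Set G) := (le_normalizer_oddGenerated M₀).trans
    (H83.normalizer_le_map_char K₀ (Cfsg.pCore 2 ↥K₀) (H51.pCore_characteristic 2 ↥K₀))
  have hWR : W ≤ Cfsg.pCoreOf 2 M₀ :=
    H72.le_pCoreOf ((H72.pCoreOf_le 2 K₀).trans hK₀M) hM₀W (H72.pCoreOf_isPGroup 2 K₀)
  let C : Subgroup G :=
    { carrier := {n | n ∈ N ∧ ∀ k ∈ K₀, ⁅k, n⁆ ∈ W}
      one_mem' := ⟨N.one_mem, fun k _ => by simp [one_mem]⟩
      mul_mem' := by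
        rintro a b ⟨ha, a1⟩ ⟨hb, b1⟩
        refine ⟨mul_mem ha hb, fun k hk => ?_⟩
        rw [show ⁅k, a * b⁆ = ⁅k, a⁆ * (a * ⁅k, b⁆ * a⁻¹) by simp only [commutatorElement_def]; group]
        exact mul_mem (a1 k hk) ((mem_normalizer_iff.1 (hNW ha) _).1 (b1 k hk))
      inv_mem' := by
        rintro a ⟨ha, a1⟩
        refine ⟨inv_mem ha, fun k hk => ?_⟩
        rw [show ⁅k, a⁻¹⁆ = a⁻¹ * ⁅k, a⁆⁻¹ * a by simp only [commutatorElement_def]; group]
        exact (mem_normalizer_iff''.1 (hNW ha) _).1 (inv_mem (a1 k hk)) }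
  have hC : N ≤ normalizer (C : Set G) := by
    refine le_normalizer_of_forall fun n hn x hx => ⟨mul_mem (mul_mem hn hx.1) (inv_mem hn), fun k hk => ?_⟩
    have h1 := (mem_normalizer_iff.1 (hNW hn) _).1 (hx.2 _ ((mem_normalizer_iff''.1 (hK hn) k).1 hk))
    rwa [show n * ⁅n⁻¹ * k * n, x⁆ * n⁻¹ = ⁅k, n * x * n⁻¹⁆ by simp only [commutatorElement_def]; group] at h1
  refine ⟨C, fun n hn => hn.1, hC, le_antisymm ?_ (le_inf c.hRT fun r hr => ⟨c.hRN hr, fun k hk => ?_⟩)⟩
  · set Y := (T : Subgroup G) ⊓ C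
    have hTY : (T : Subgroup G) ≤ normalizer (Y : Set G) :=
      (le_inf le_normalizer (c.hTN.trans hC)).trans inf_normalizer_le_normalizer_inf
    have hm : ∀ m ∈ M₀, cj m Y ≤ (T : Subgroup G) := by
      intro m hm
      have hm' : m ∈ K₀ ⊔ (T : Subgroup G) := (oddGenerated_sup_sylow T c.hTM₀).symm ▸ hm
      rw [← SetLike.mem_coe, coe_mul_of_right_le_normalizer_left _ _
        (c.hTM₀.trans (le_normalizer_oddGenerated M₀))] at hm'
      obtain ⟨k, hk, t, ht, rfl⟩ := hm'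
      rw [cj_mul, cj_eq_of_mem_normalizer (hTY ht)]
      rintro _ ⟨y, hy, rfl⟩
      have e : k * y * k⁻¹ = ⁅k, y⁆ * y := by rw [commutatorElement_def]; group
      show k * y * k⁻¹ ∈ (T : Subgroup G)
      rw [e]
      exact mul_mem (c.hRT (hWR (hy.2.2 k hk))) hy.1
    let X : Subgroup G := ⨆ m : ↥M₀, cj (m : G) Y
    have hXn : M₀ ≤ normalizer (X : Set G) := fun g hg => by
      refine mem_normalizer_of_cj_eq (eq_of_le_of_card_ge ?_ (card_cj _ _).ge)
      rw [cj_iSup]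
      refine iSup_le fun m => ?_
      rw [← cj_mul]
      exact le_iSup (fun m : ↥M₀ => cj (m : G) Y) (⟨g, hg⟩ * m)
    have hXT : X ≤ (T : Subgroup G) := iSup_le fun m => hm m m.2
    refine le_trans ?_ (H72.le_pCoreOf (hXT.trans c.hTM₀) hXn (T.2.to_le hXT))
    refine le_trans ?_ (le_iSup (fun m : ↥M₀ => cj (m : G) Y) 1)
    rw [OneMemClass.coe_one, cj_one]
  · have h1 : ⁅k, r⁆ ∈ K₀ ⊓ Cfsg.pCoreOf 2 M₀ :=
      ⟨le_normalizer_iff_commutator_le_left.1 ((c.hRT.trans c.hTM₀).trans (le_normalizer_oddGenerated M₀))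
          (commutator_mem_commutator hk hr),
        le_normalizer_iff_commutator_le_right.1 (hK₀M.trans c.hM₀R) (commutator_mem_commutator hk hr)⟩
    refine H72.le_pCoreOf (H := K₀) inf_le_left
      ((le_inf le_normalizer (hK₀M.trans c.hM₀R)).trans inf_normalizer_le_normalizer_inf)
      (c.hR2.to_le inf_le_right) h1

/-- Being Sylow in `O²(H)R`, the subgroup `R = O₂(M₀)` gives a common normal subgroup. -/
theorem Ctx.exists_common_of_le (hne : Cfsg.pCoreOf 2 M₀ ≠ ⊥)
    (hle : (T : Subgroup G) ⊓ Cfsg.oddGenerated H ≤ Cfsg.pCoreOf 2 M₀) :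
    ∃ R₀ : Subgroup G, R₀ ≠ ⊥ ∧ R₀ ≤ Cfsg.pCoreOf 2 M₀ ∧ M₀ ⊔ H ≤ normalizer (R₀ : Set G) := by
  set K := Cfsg.oddGenerated H
  set R := Cfsg.pCoreOf 2 M₀
  have hH2 : Cfsg.pCore 2 ↥H ≠ ⊥ := by
    intro e
    have hQ : Cfsg.pCoreOf 2 H = ⊥ := by rw [Cfsg.pCoreOf, e, Subgroup.map_bot]
    refine hne (le_bot_iff.1 ((c.hRT.trans c.hTH).trans fun x hx => ?_))
    have hxc : x ∈ centralizer (Cfsg.pCoreOf 2 H : Set G) := by
      rw [hQ]
      refine mem_centralizer_iff.2 fun y hy => ?_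
      rw [SetLike.mem_coe, mem_bot] at hy
      rw [hy, one_mul, mul_one]
    have := c.cent_Q hx hxc
    rwa [hQ] at this
  refine H73.QT.exists_common c.hE T M₀ H c.hTM₀ c.hTH hH2 c.unique R hne c.hRT ?_ c.hM₀R
  set L := K ⊔ R
  have hKH : K ≤ H := oddGenerated_le H
  have hLH : L ≤ H := sup_le hKH (c.hRT.trans c.hTH)
  have hHL : H ≤ normalizer (L : Set G) := by
    rw [← oddGenerated_sup_sylow T c.hTH]
    exact sup_le ((le_sup_left : K ≤ L).trans le_normalizer)
      (H83.le_normalizer_sup (c.hTH.trans (le_normalizer_oddGenerated H)) (c.hTM₀.trans c.hM₀R))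
  have hTL : (T : Subgroup G) ⊓ L ≤ R := by
    intro x hx'
    obtain ⟨hxT, hx⟩ := mem_inf.1 hx'
    change x ∈ ((K ⊔ R : Subgroup G) : Set G) at hx
    rw [coe_mul_of_right_le_normalizer_left _ _
      ((c.hRT.trans c.hTH).trans (le_normalizer_oddGenerated H))] at hx
    obtain ⟨k, hk, r, hr, rfl⟩ := hx
    refine mul_mem (hle ⟨?_, hk⟩) hr
    have := mul_mem hxT (inv_mem (c.hRT hr))
    rwa [mul_inv_cancel_right] at this
  obtain ⟨P, hP⟩ := (c.hR2.of_equiv (subgroupOfEquivOfLe (le_sup_right : R ≤ L)).symm).exists_le_sylow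
  refine ⟨P, le_antisymm (fun x hx => ?_) hP⟩
  haveI : Fact (Nat.Prime 2) := ⟨Nat.prime_two⟩
  obtain ⟨h, hh, hhT⟩ := exists_conj_le T c.hTH ((map_subtype_le (P : Subgroup ↥L)).trans hLH) (P.2.map _)
  have hcard : Nat.card ↥((P : Subgroup ↥L).map L.subtype) ≤ Nat.card R := by
    rw [← card_cj h]
    exact card_le_of_le ((le_inf hhT ((cj_mono h (map_subtype_le _)).trans
      (cj_eq_of_mem_normalizer (hHL hh)).le)).trans hTL)
  have := eq_of_le_of_card_ge (show R ≤ (P : Subgroup ↥L).map L.subtype from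
    fun r hr => ⟨⟨r, mem_sup_right hr⟩, hP hr, rfl⟩) hcard
  exact (this.ge ⟨x, hx, rfl⟩ : (x : G) ∈ R)

/-- An exact offender on fixed points of `O₂(H)`. -/
theorem Ctx.residual_le (hq : QFail V) {U F B : Subgroup G} (hVU : V ≤ U) (hHU : H ≤ normalizer (U : Set G))
    (hUel : Cfsg.IsElementaryAbelian 2 U) (hFU : F ≤ U) (hFH : F ≤ H) (hHF : H ≤ normalizer (F : Set G))
    (hFQ : Cfsg.pCoreOf 2 H ≤ centralizer (F : Set G))
    (hFK : ¬ Cfsg.oddGenerated H ≤ centralizer (F : Set G))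
    (hQ0 : ⁅Cfsg.pCoreOf 2 H, Cfsg.oddGenerated H⁆ ≤ centralizer (U : Set G))
    (hB : B ≤ H) (hBp : IsPGroup 2 B) (hcomm : ∀ b ∈ B, ∀ b' ∈ B, ⁅b, b'⁆ ∈ centralizer (F : Set G))
    (hsq : ∀ b ∈ B, b ^ 2 ∈ centralizer (F : Set G)) (hBF : ¬ B ≤ centralizer (F : Set G))
    (hsplit : U ≤ F ⊔ (U ⊓ centralizer (B : Set G)))
    (hoff : (centralizer (B : Set G)).relIndex F ≤ (centralizer (F : Set G)).relIndex B) :
    (T : Subgroup G) ⊓ Cfsg.oddGenerated H ≤ Cfsg.pCoreOf 2 M₀ := by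
  classical
  haveI : Fact (Nat.Prime 2) := ⟨Nat.prime_two⟩
  set K := Cfsg.oddGenerated H
  set Q := Cfsg.pCoreOf 2 H
  set R := Cfsg.pCoreOf 2 M₀
  have hKH : K ≤ H := oddGenerated_le H
  set F' := F.subgroupOf H
  haveI hF'n : F'.Normal := (normal_subgroupOf_iff_le_normalizer hFH).2 hHF
  set T' := T.subtype c.hTH
  have hT' : (T' : Subgroup ↥H) = (T : Subgroup G).subgroupOf H := Sylow.coe_subtype T c.hTH
  set N' := N.subgroupOf H
  have hFel : Cfsg.IsElementaryAbelian 2 F := H34.isElementaryAbelian_mono hUel hFU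
  have hmemT : ∀ {x : ↥H}, x ∈ (T' : Subgroup ↥H) ↔ (x : G) ∈ (T : Subgroup G) := fun {x} => by
    rw [hT', mem_subgroupOf]
  have hKsup : ∀ D : Subgroup ↥H, D.Normal → D ⊔ (T' : Subgroup ↥H) = ⊤ → K ≤ D.map H.subtype := by
    intro D hD e
    have hn : H ≤ normalizer (D.map H.subtype : Set G) := by
      have h := Subgroup.le_normalizer_map (H := D) H.subtype
      rwa [normalizer_eq_top_iff.2 hD, ← MonoidHom.range_eq_map, Subgroup.range_subtype] at h
    refine c.oddGenerated_le_of_sup (map_subtype_le _) hn ?_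
    have h1 := congrArg (Subgroup.map H.subtype) e
    rwa [Subgroup.map_sup, hT', subgroupOf_map_subtype, inf_eq_left.2 c.hTH, ← MonoidHom.range_eq_map,
      Subgroup.range_subtype] at h1
  have m : Mdl T' N' F' :=
    { el := ⟨IsMulCommutative.of_comm fun a b => Subtype.ext (Subtype.ext (by
          haveI := hFel.1
          exact setLike_mul_comm (s := F) a.2 b.2)),
        fun a ha => Subtype.ext (hFel.2 a ha)⟩
      hTN := fun x hx => c.hTN (hmemT.1 hx)
      hNne := fun e => c.hHne (subgroupOf_eq_top.1 e)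
      hmax := fun Y hTY hY x hx => by
        refine c.hmax (Y.map H.subtype) (fun t ht => ⟨⟨t, c.hTH ht⟩, hTY (hmemT.2 ht), rfl⟩)
          (map_subtype_le _) (fun e => hY ?_) ⟨x, hx, rfl⟩
        refine eq_top_iff.2 fun y _ => ?_
        obtain ⟨z, hz, e'⟩ := e.ge y.2
        rwa [show y = z from Subtype.ext e'.symm]
      dich := fun D hD => by
        rw [or_iff_not_imp_left]
        intro hne x hx
        rw [mem_centralizer_subgroupOf hFH]
        have hn : H ≤ normalizer (D.map H.subtype : Set G) := by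
          have h := Subgroup.le_normalizer_map (H := D) H.subtype
          rwa [normalizer_eq_top_iff.2 hD, ← MonoidHom.range_eq_map, Subgroup.range_subtype] at h
        rcases c.normal_dichotomy (map_subtype_le _) hn with h | h
        · exfalso
          refine hne (eq_top_iff.2 fun y _ => ?_)
          have hy : (y : G) ∈ (D.map H.subtype) ⊔ (T : Subgroup G) := by
            refine sup_le_sup_right h _ ?_
            rw [oddGenerated_sup_sylow T c.hTH]; exact y.2
          rw [← inf_eq_left.2 c.hTH, ← subgroupOf_map_subtype, ← hT', ← Subgroup.map_sup] at hy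
          obtain ⟨z, hz, e⟩ := hy
          rwa [show y = z from Subtype.ext e.symm]
        · exact hFQ (h ⟨hmemT.1 hx.1, ⟨x, hx.2, rfl⟩⟩)
      nontriv := fun e => hFK fun x hx => by
        obtain ⟨y, hy, rfl⟩ := hKsup _ inferInstance e hx
        exact (mem_centralizer_subgroupOf hFH).1 hy }
  set π := act' F'
  have hker : ∀ {g : ↥H}, π g = 1 ↔ (g : G) ∈ centralizer (F : Set G) := fun {g} => by
    rw [act'_eq_one, mem_centralizer_subgroupOf hFH]
  set Bh := B.subgroupOf H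
  have hcomm' : ∀ b ∈ Bh, ∀ b' ∈ Bh, ⁅b, b'⁆ ∈ centralizer (F' : Set ↥H) := fun b hb b' hb' => by
    rw [mem_centralizer_subgroupOf hFH]
    exact hcomm b hb b' hb'
  have hsq' : ∀ b ∈ Bh, b ^ 2 ∈ centralizer (F' : Set ↥H) := fun b hb => by
    rw [mem_centralizer_subgroupOf hFH]
    exact hsq b hb
  set Bb := Bh.map π
  have hBP : Bb ≤ π.range := by rintro _ ⟨g, -, rfl⟩; exact ⟨g, rfl⟩
  have hBne : Bb ≠ ⊥ := fun e => hBF fun b hb => hker.1 (by
    have : π ⟨b, hB hb⟩ ∈ Bb := ⟨_, hb, rfl⟩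
    rwa [e, mem_bot] at this)
  -- orders inside `G`
  have hidxF : ∀ {Y : Subgroup G}, Y ≤ H →
      (centralizer (F' : Set ↥H)).relIndex (Y.subgroupOf H) = (centralizer (F : Set G)).relIndex Y := by
    intro Y hY
    rw [← inf_relIndex_right (centralizer (F' : Set ↥H)), ← inf_relIndex_right (centralizer (F : Set G)),
      ← relIndex_subgroupOf hY (H := centralizer (F : Set G) ⊓ Y)]
    congr 1
    ext x
    simp only [mem_inf, mem_subgroupOf, mem_centralizer_subgroupOf hFH, F']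
  have hidxC : ∀ {Y : Subgroup G}, Y ≤ H →
      (centralizer (Y.subgroupOf H : Set ↥H)).relIndex F' = (centralizer (Y : Set G)).relIndex F := by
    intro Y hY
    rw [← inf_relIndex_right (centralizer (Y.subgroupOf H : Set ↥H)), ← inf_relIndex_right (centralizer (Y : Set G)),
      ← relIndex_subgroupOf hFH (H := centralizer (Y : Set G) ⊓ F)]
    congr 1
    ext x
    simp only [mem_inf, mem_subgroupOf, mem_centralizer_subgroupOf hY, F']
  have hmdl : ∀ Y : Subgroup ↥H, Nat.card ↥(mdlV F' ⊓ centralizer (Y.map π : Set (Equiv.Perm ↥F'))) *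
      (centralizer (Y : Set ↥H)).relIndex F' = Nat.card ↥(mdlV F') := fun Y => by
    rw [mdl_card_cent, mdl_card, ← inf_relIndex_left F' (centralizer (Y : Set ↥H)), ← relIndex_bot_left,
      ← relIndex_bot_left, relIndex_mul_relIndex _ _ _ bot_le inf_le_left]
  have hBl : Nat.card ↥(mdlV F') ≤
      Nat.card Bb * Nat.card ↥(mdlV F' ⊓ centralizer (Bb : Set (Equiv.Perm ↥F'))) := by
    rw [← hmdl Bh, map_act'_card, hidxF hB, hidxC hB, mul_comm]
    exact Nat.mul_le_mul_right _ hoff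
  have h : FFP 2 (mdlV F') π.range ((T' : Subgroup ↥H).map π) (N'.map π) :=
    m.ffp_of_offender hBP hBne (act'_comm hcomm') (act'_sq hsq') hBl
  -- a minimal offender inside the image
  obtain ⟨A₀, hA₀B, hA₀⟩ : ∃ A₀ ≤ Bb, MinOff 2 (mdlV F') A₀ := by
    let good : Set (Subgroup (Equiv.Perm ↥F')) := {A | A ≤ Bb ∧ A ≠ ⊥ ∧ Nat.card ↥(mdlV F') ≤
      Nat.card A * Nat.card ↥(mdlV F' ⊓ centralizer (A : Set (Equiv.Perm ↥F')))}
    obtain ⟨A, ⟨hA, hAne, hAl⟩, hmin⟩ := Set.exists_min_image good (fun A => Nat.card A) (Set.toFinite _)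
      ⟨Bb, le_rfl, hBne, hBl⟩
    refine ⟨A, hA, ⟨fun a ha b hb => act'_comm hcomm' a (hA ha) b (hA hb), fun a ha => act'_sq hsq' a (hA ha),
      hAne, hAl, fun C hC hCne hCA => lt_of_not_ge fun hge => hCA ?_⟩⟩
    exact eq_of_le_of_card_ge hC (hmin C ⟨hC.trans hA, hCne, hAl.trans hge⟩)
  have hA₀P : A₀ ≤ π.range := hA₀B.trans hBP
  -- lifts of members
  set B₀ := ((Bh ⊓ A₀.comap π).map H.subtype)
  have hB₀B : B₀ ≤ B := by rintro _ ⟨x, hx, rfl⟩; exact hx.1
  have hlift : ∀ X, Mem π.range A₀ X → ∃ Y : Subgroup G, Y ≤ H ∧ IsPGroup 2 Y ∧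
      (Y.subgroupOf H).map π = X ∧ U ≤ F ⊔ (U ⊓ centralizer (Y : Set G)) := by
    rintro X ⟨_, ⟨h₀, rfl⟩, rfl⟩
    refine ⟨cj (h₀ : G) B₀, cj_le h₀.2 (hB₀B.trans hB), isPGroup_cj (hBp.to_le hB₀B) _, ?_, ?_⟩
    · have e : (cj (h₀ : G) B₀).subgroupOf H = cj h₀ (Bh ⊓ A₀.comap π) := by
        refine map_injective H.subtype_injective ?_
        rw [subgroupOf_map_subtype, inf_eq_left.2 (cj_le h₀.2 (hB₀B.trans hB)), map_cj]
        rfl
      rw [e, map_cj]
      congr 1
      refine le_antisymm ?_ fun a ha => ?_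
      · rintro _ ⟨x, hx, rfl⟩; exact hx.2
      · obtain ⟨x, hx, rfl⟩ := hA₀B ha
        exact ⟨x, ⟨hx, ha⟩, rfl⟩
    · have h1 := cj_mono (h₀ : G) (hsplit.trans (sup_le_sup_left (inf_le_inf_left U (centralizer_le hB₀B)) F))
      rwa [cj_eq_of_mem_normalizer (hHU h₀.2), cj_sup, cj_inf, cj_eq_of_mem_normalizer (hHF h₀.2),
        cj_eq_of_mem_normalizer (hHU h₀.2), cj_centralizer] at h1
  -- lifts inside `T` lie in `R`
  have hinR : ∀ Y : Subgroup G, Y ≤ (T : Subgroup G) → Mem π.range A₀ ((Y.subgroupOf H).map π) →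
      U ≤ F ⊔ (U ⊓ centralizer (Y : Set G)) → Y ≤ R := by
    intro Y hYT hmem hsp
    have hYH : Y ≤ H := hYT.trans c.hTH
    have hXP := h.mem_le hA₀P hA₀ hmem
    have hXm := h.mem_minOff hA₀P hA₀ hmem
    have hcF : ∀ {y : G}, y ∈ Y → y ∈ centralizer (F : Set G) → y ∈ centralizer (U : Set G) := by
      intro y hy hyF
      exact le_centralizer_iff.1 (hsp.trans (sup_le (le_centralizer_iff.1 (zpowers_le.2 hyF))
        (inf_le_right.trans (centralizer_le (SetLike.coe_subset_coe.2 (zpowers_le.2 hy)))))) (mem_zpowers y)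
    have hFn : F ≤ normalizer ((U ⊓ centralizer (Y : Set G) : Subgroup G) : Set G) :=
      (hFU.trans (le_centralizer_self hUel)).trans ((centralizer_le inf_le_left).trans (centralizer_le_normalizer _))
    have hsplit' : ∀ v ∈ U, ∃ f ∈ F, ∃ w ∈ U, w ∈ centralizer (Y : Set G) ∧ v = f * w := by
      intro v hv
      have := hsp hv
      rw [← SetLike.mem_coe, coe_mul_of_left_le_normalizer_right _ _ hFn] at this
      obtain ⟨f, hf, w, hw, rfl⟩ := this
      exact ⟨f, hf, w, hw.1, hw.2, rfl⟩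
    have hUab : ∀ a ∈ U, ∀ b ∈ U, a * b = b * a := fun a ha b hb =>
      mem_centralizer_iff.1 (le_centralizer_self hUel hb) a ha
    have hπmem : ∀ {y : G} (hy : y ∈ Y), π ⟨y, hYH hy⟩ ∈ (Y.subgroupOf H).map π := fun hy => ⟨_, hy, rfl⟩
    have hfixed : ∀ {y f : G} (hy : y ∈ Y), f ∈ F → π (⟨y, hYH hy⟩ : ↥H) ≠ 1 → y * f = f * y →
        f ∈ centralizer (Y : Set G) := by
      intro y f hy hf hne hc'
      have h1 := h.fix hXP hXm (hπmem hy) hne (v := trn F' ⟨⟨f, hFH hf⟩, hf⟩) ⟨_, rfl⟩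
        ((act'_comm_iff _ _).2 (Subtype.ext hc'))
      have h2 := mdl_mem_cent.1 h1
      exact (mem_centralizer_subgroupOf hYH).1 h2
    intro y hy
    rw [show R = (T : Subgroup G) ⊓ centralizer (V : Set G) from c.hR]
    refine ⟨hYT hy, ?_⟩
    by_contra hyV
    -- elements centralising `V` centralise `F`
    have hCF : ∀ z ∈ Y, z ∈ centralizer (V : Set G) → z ∈ centralizer (F : Set G) := by
      intro z hz hzV
      by_contra hzF
      refine hyV (mem_centralizer_iff.2 fun v hv => ?_)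
      obtain ⟨f, hf, w, hw, hwY, rfl⟩ := hsplit' v (hVU hv)
      have hzf : z * f = f * z := by
        have e1 := mem_centralizer_iff.1 hzV _ hv
        have e2 : z * w = w * z := mem_centralizer_iff.1 hwY z hz
        refine mul_right_cancel (b := w) ?_
        rw [mul_assoc f z w, e2, ← mul_assoc f w z, e1, mul_assoc]
      have hfY := hfixed hz hf (fun e => hzF (hker.1 e)) hzf
      exact (mem_centralizer_iff.1 (mul_mem hfY hwY) y hy).symm
    have hYN : Y ≤ normalizer (V : Set G) := hYT.trans c.hTV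
    have hcommY : ∀ b ∈ Y, ∀ b' ∈ Y, ⁅b, b'⁆ ∈ centralizer (V : Set G) := by
      intro b hb b' hb'
      refine centralizer_le hVU (hcF (Y.commutator_le_self (commutator_mem_commutator hb hb')) ?_)
      have e := hXm.commA _ (hπmem hb) _ (hπmem hb')
      have := hker.1 (show π ⁅(⟨b, hYH hb⟩ : ↥H), ⟨b', hYH hb'⟩⁆ = 1 by
        rw [map_commutatorElement, commutatorElement_eq_one_iff_mul_comm.2 e])
      exact this
    have hsqY : ∀ b ∈ Y, b ^ 2 ∈ centralizer (V : Set G) := by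
      intro b hb
      refine centralizer_le hVU (hcF (pow_mem hb 2) ?_)
      exact hker.1 (show π ((⟨b, hYH hb⟩ : ↥H) ^ 2) = 1 by rw [map_pow]; exact hXm.expA _ (hπmem hb))
    have hind : Cfsg.InducesElemAbelianTwoGroupOn Y V :=
      ⟨fun h' => hyV (h' hy), hsqY, fun b hb b' hb' => by
        simpa [commutatorElement_def] using hcommY b hb b' hb'⟩
    have hquad : ⁅⁅V, Y⁆, Y⁆ = ⊥ := by
      rw [commutator_eq_bot_iff_le_centralizer, commutator_le]
      intro v hv b hb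
      obtain ⟨f, hf, w, hw, hwY, rfl⟩ := hsplit' v (hVU hv)
      have hbf : b * f * b⁻¹ ∈ F := H34.conj_mem_of_mem_normalizer (hHF (hYH hb)) hf
      have hbw : b * w⁻¹ * b⁻¹ = w⁻¹ := by
        rw [mem_centralizer_iff.1 (inv_mem hwY) b hb, mul_inv_cancel_right]
      have e1 : ⁅f * w, b⁆ = ⁅b, f⁆⁻¹ := by
        rw [show ⁅f * w, b⁆ = f * w * (b * w⁻¹ * b⁻¹) * (b * f⁻¹ * b⁻¹) by rw [commutatorElement_def]; group,
          hbw, mul_inv_cancel_right, commutatorElement_def]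
        group
      rw [e1]
      refine inv_mem ?_
      have h2 := h.quad hXP hXm (hπmem hb) (v := trn F' ⟨⟨f, hFH hf⟩, hf⟩) ⟨_, rfl⟩
      rw [act'_commutator] at h2
      exact (mem_centralizer_subgroupOf hYH).1 (mdl_mem_cent.1 h2)
    have hlt := hq Y ((T.2).to_le hYT) hYN hind hquad
    rw [inf_centralizer_relIndex] at hlt
    have hgain : (centralizer (F : Set G)).relIndex Y ≤ (centralizer (V : Set G)).relIndex Y := by
      rw [← inf_relIndex_right (centralizer (V : Set G))]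
      exact relIndex_le_of_le_left (fun z hz => hCF z hz.2 hz.1) index_ne_zero_of_finite
    have hcost : (centralizer (Y : Set G)).relIndex V ≤ (centralizer (F : Set G)).relIndex Y := by
      refine le_trans (relIndex_le_of_le_right hVU index_ne_zero_of_finite) ?_
      have hU : (centralizer (Y : Set G)).relIndex U ≤ (centralizer (Y : Set G)).relIndex F := by
        have hle : U ≤ F ⊔ (U ⊓ centralizer (Y : Set G)) := hsp
        have heq : U = F ⊔ (U ⊓ centralizer (Y : Set G)) := le_antisymm hle (sup_le hFU inf_le_left)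
        have k := card_sup_mul_card_inf_of_le_normalizer hFn
        rw [← heq, show F ⊓ (U ⊓ centralizer (Y : Set G)) = F ⊓ centralizer (Y : Set G) by
          rw [← inf_assoc, inf_eq_left.2 hFU]] at k
        have key : ∀ W : Subgroup G, Nat.card ↥(W ⊓ centralizer (Y : Set G)) *
            (centralizer (Y : Set G)).relIndex W = Nat.card W := fun W => by
          rw [← inf_relIndex_left W (centralizer (Y : Set G)), ← relIndex_bot_left, ← relIndex_bot_left,
            relIndex_mul_relIndex _ _ _ bot_le inf_le_left]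
        rw [← key U, ← key F] at k
        exact (Nat.eq_of_mul_eq_mul_left (n := Nat.card ↥(U ⊓ centralizer (Y : Set G)) *
          Nat.card ↥(F ⊓ centralizer (Y : Set G))) (Nat.mul_pos Nat.card_pos Nat.card_pos) (by linarith [k])).le
      refine hU.trans (le_of_eq ?_)
      rw [← hidxC hYH, ← hidxF hYH, ← map_act'_card (U := F')]
      refine Nat.eq_of_mul_eq_mul_left (Nat.card_pos
        (α := ↥(mdlV F' ⊓ centralizer ((Y.subgroupOf H).map π : Set (Equiv.Perm ↥F'))))) ?_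
      rw [hmdl, h.card_eq hXP hXm, mul_comm]
    have hpos := relIndex_pos (centralizer (V : Set G)) Y
    nlinarith
  obtain ⟨C, hCN, hNC, hTC⟩ := c.exists_cstar
  -- members in the image of `N` come from `C`
  have hCfN : H ⊓ centralizer (F : Set G) ≤ N := fun x hx =>
    m.cent_le (show (⟨x, hx.1⟩ : ↥H) ∈ centralizer (F' : Set ↥H) from (mem_centralizer_subgroupOf hFH).2 hx.2)
  have hinC : ∀ X, Mem π.range A₀ X → X ≤ N'.map π → X ≤ (C.subgroupOf H).map π := by
    intro X hX hXN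
    obtain ⟨Y, hYH, hY2, hYX, hYsp⟩ := hlift X hX
    have hYN : Y ≤ N := by
      intro y hy
      obtain ⟨n, hn, e⟩ := hXN (hYX ▸ ⟨⟨y, hYH hy⟩, hy, rfl⟩ : π ⟨y, hYH hy⟩ ∈ X)
      have hk := hker.1 (show π (n⁻¹ * ⟨y, hYH hy⟩) = 1 by rw [map_mul, map_inv, e, inv_mul_cancel])
      have := N.mul_mem hn (hCfN ⟨H.mul_mem (H.inv_mem n.2) (hYH hy), hk⟩)
      simpa using this
    obtain ⟨n, hn, hle⟩ := exists_conj_le T c.hTN hYN hY2
    have hnH : n ∈ H := c.hNH hn
    have h1 : cj n Y ≤ R := by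
      refine hinR _ hle ?_ ?_
      · have e : (cj n Y).subgroupOf H = cj (⟨n, hnH⟩ : ↥H) (Y.subgroupOf H) := by
          refine map_injective H.subtype_injective ?_
          rw [subgroupOf_map_subtype, inf_eq_left.2 (cj_le hnH hYH), map_cj, subgroupOf_map_subtype,
            inf_eq_left.2 hYH]
          rfl
        rw [e, map_cj, hYX]
        exact hX.cj ⟨_, rfl⟩
      · have h1 := cj_mono n hYsp
        rwa [cj_eq_of_mem_normalizer (hHU hnH), cj_sup, cj_inf, cj_eq_of_mem_normalizer (hHF hnH),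
          cj_eq_of_mem_normalizer (hHU hnH), cj_centralizer] at h1
    have h2 : Y ≤ C := by
      rw [← cj_le_cj_iff (x := n), cj_eq_of_mem_normalizer (hNC hn)]
      exact h1.trans (hTC.ge.trans inf_le_right)
    exact hYX ▸ map_mono (fun y hy => h2 hy)
  have hCH : C ≤ H := hCN.trans c.hNH
  set W := ((C ⊓ K).subgroupOf H).map π
  have hres := sylow_residual_le h hA₀P hA₀ (W := W) ?_ ?_
  rotate_left
  · intro X hX hXN a ha o ho hodd
    obtain ⟨b, hb, rfl⟩ := hinC X hX hXN ha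
    obtain ⟨n, hn, rfl⟩ := ho
    obtain ⟨z, hz, hzo, hzn⟩ := exists_odd_lift π hodd
    have hzN : (z : G) ∈ N := (zpowers_le.2 hn : zpowers n ≤ N') hz
    rw [← hzn, ← map_commutatorElement]
    refine ⟨_, ⟨?_, ?_⟩, rfl⟩
    · exact le_normalizer_iff_commutator_le_left.1 hNC (commutator_mem_commutator hb hzN)
    · exact le_normalizer_iff_commutator_le_right.1 (le_normalizer_oddGenerated H)
        (commutator_mem_commutator b.2 (c.odd_mem z.2 (by rwa [Subgroup.orderOf_coe])))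
  · intro o ho hodd
    have hle : closure {g | ∃ X, Mem π.range A₀ X ∧ X ≤ N'.map π ∧ g ∈ X} ≤ (C.subgroupOf H).map π :=
      (closure_le _).2 fun g ⟨X, hX, hXN, hg⟩ => hinC X hX hXN hg
    obtain ⟨n, hn, rfl⟩ := hle ho
    obtain ⟨z, hz, hzo, hzn⟩ := exists_odd_lift π hodd
    rw [← hzn]
    exact ⟨z, ⟨(zpowers_le.2 hn : zpowers n ≤ C.subgroupOf H) hz, c.odd_mem z.2 (by rwa [coe_subtype, Subgroup.orderOf_coe])⟩, rfl⟩
  -- back to `H`
  have hKn : N ≤ normalizer (K : Set G) := c.hNH.trans (le_normalizer_oddGenerated H)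
  have hsplitT : (T : Subgroup G) ⊓ K ≤ (C ⊓ K) ⊔ (H ⊓ centralizer (F : Set G)) := by
    rintro t ⟨htT, htK⟩
    have hodd : Cfsg.oddGenerated H ≤ ((Cfsg.oddGenerated π.range).comap π).map H.subtype := by
      refine (closure_le _).2 fun x hx => ⟨⟨x, hx.1⟩, subset_closure ⟨⟨_, rfl⟩, ?_⟩, rfl⟩
      exact Odd.of_dvd_nat (by rw [← orderOf_coe]; exact hx.2) (orderOf_map_dvd π _)
    obtain ⟨y, hy, e⟩ := hodd htK
    have hyT : y ∈ (T' : Subgroup ↥H) := hmemT.2 (by rw [show (y : G) = t from e]; exact htT)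
    obtain ⟨w, hw, e'⟩ := hres ⟨⟨y, hyT, rfl⟩, hy⟩
    have hk := hker.1 (show π (w⁻¹ * y) = 1 by rw [map_mul, map_inv, e', inv_mul_cancel])
    have h2 : (w : G) * ((w⁻¹ * y : ↥H) : G) ∈ (C ⊓ K) ⊔ (H ⊓ centralizer (F : Set G)) :=
      mul_mem (mem_sup_left hw) (mem_sup_right ⟨(w⁻¹ * y).2, hk⟩)
    rw [← show (y : G) = t from e]
    simpa using h2
  set Z := H ⊓ centralizer (F : Set G)
  have hTZ : (T : Subgroup G) ⊓ Z ≤ Q := by
    have hn : H ≤ normalizer (Z : Set G) :=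
      (le_inf le_normalizer fun g hg => mem_normalizer_of_cj_eq (by
        rw [cj_centralizer, cj_eq_of_mem_normalizer (hHF hg)])).trans inf_normalizer_le_normalizer_inf
    exact (c.normal_dichotomy inf_le_left hn).resolve_left fun h' => hFK (h'.trans inf_le_right)
  have hTK : (T : Subgroup G) ⊓ K ≤ (R ⊓ K) ⊔ (Q ⊓ K) := by
    set T'' := T.subtype c.hTN
    haveI : ((C ⊓ K).subgroupOf N).Normal :=
      (normal_subgroupOf_iff_le_normalizer (inf_le_left.trans hCN)).2
        ((le_inf hNC hKn).trans inf_normalizer_le_normalizer_inf)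
    haveI : (Z.subgroupOf N).Normal :=
      (normal_subgroupOf_iff_le_normalizer hCfN).2 ((le_inf (c.hNH.trans le_normalizer) fun g hg =>
        mem_normalizer_of_cj_eq (by rw [cj_centralizer, cj_eq_of_mem_normalizer (hHF (c.hNH hg))])).trans
        inf_normalizer_le_normalizer_inf)
    have e := congrArg (Subgroup.map N.subtype)
      (sylow_inf_sup T'' ((C ⊓ K).subgroupOf N) (Z.subgroupOf N))
    have hmap : ∀ Y : Subgroup G, Y ≤ N → ((T'' : Subgroup ↥N) ⊓ Y.subgroupOf N).map N.subtype =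
        (T : Subgroup G) ⊓ Y := fun Y hY => by
      rw [map_inf _ _ _ N.subtype_injective, Sylow.coe_subtype, subgroupOf_map_subtype, subgroupOf_map_subtype,
        inf_eq_left.2 c.hTN, inf_eq_left.2 hY]
    rw [← subgroupOf_sup (inf_le_left.trans hCN) hCfN, Subgroup.map_sup, hmap _ (sup_le (inf_le_left.trans hCN) hCfN),
      hmap _ (inf_le_left.trans hCN), hmap _ hCfN] at e
    rintro t ⟨htT, htK⟩
    have ht : t ∈ ((T : Subgroup G) ⊓ (C ⊓ K)) ⊔ ((T : Subgroup G) ⊓ Z) :=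
      e.le ⟨htT, hsplitT ⟨htT, htK⟩⟩
    have hle : ((T : Subgroup G) ⊓ (C ⊓ K)) ⊔ ((T : Subgroup G) ⊓ Z) ≤ (R ⊓ K) ⊔ Q := by
      rw [← inf_assoc, hTC]
      exact sup_le_sup_left hTZ _
    have ht' := hle ht
    rw [← SetLike.mem_coe, coe_mul_of_left_le_normalizer_right _ _
      ((inf_le_right.trans hKH).trans c.hHQ)] at ht'
    obtain ⟨r, hr, q, hq', rfl⟩ := ht'
    have hrK : r ∈ K := hr.2
    exact mul_mem (mem_sup_left hr) (mem_sup_right ⟨hq', by simpa using mul_mem (inv_mem hrK) htK⟩)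
  -- the central part lies in `R`
  have hQR : Q ⊓ K ≤ R := by
    have hQ0R : ⁅Q, K⁆ ≤ R ⊓ Q := le_inf ((le_inf (le_trans ?_ c.hQT) (hQ0.trans (centralizer_le hVU))).trans c.hR.ge) ?_
    rotate_left
    · exact le_normalizer_iff_commutator_le_left.1 (hKH.trans c.hHQ)
    · exact le_normalizer_iff_commutator_le_left.1 (hKH.trans c.hHQ)
    set Z0 := (R ⊓ Q ⊓ K).subgroupOf K
    have hcommK : ⁅Q ⊓ K, K⁆ ≤ R ⊓ Q ⊓ K :=
      le_inf ((commutator_mono inf_le_left le_rfl).trans hQ0R)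
        ((commutator_mono inf_le_right le_rfl).trans K.commutator_le_self)
    haveI hZ0n : Z0.Normal := (normal_subgroupOf_iff_le_normalizer inf_le_right).2
      (le_normalizer_iff_commutator_le_left.2 ((commutator_mono (inf_le_inf_right K inf_le_right) le_rfl).trans hcommK))
    let f : ↥K →* ↥K ⧸ Z0 := QuotientGroup.mk' Z0
    obtain ⟨S, hS⟩ : ∃ S : Sylow 2 ↥K, (S : Subgroup ↥K) = (T : Subgroup G).subgroupOf K := by
      haveI : (K.subgroupOf H).Normal := (normal_subgroupOf_iff_le_normalizer hKH).2 (le_normalizer_oddGenerated H)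
      obtain ⟨P, hP⟩ := H44.exists_sylow_eq_subgroupOf T' (K.subgroupOf H)
      refine ⟨P.comapOfInjective (subgroupOfEquivOfLe hKH).symm.toMonoidHom (subgroupOfEquivOfLe hKH).symm.injective ?_, ?_⟩
      · intro x _
        exact ⟨_, (subgroupOfEquivOfLe hKH).symm_apply_apply x⟩
      · ext x
        show (subgroupOfEquivOfLe hKH).symm x ∈ (P : Subgroup _) ↔ _
        rw [hP, mem_subgroupOf, hmemT, mem_subgroupOf]
        rfl
    have hfs : Function.Surjective f := QuotientGroup.mk'_surjective Z0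
    have hle := central_le_complement (S.mapSurjective hfs) (((Q ⊓ K).subgroupOf K).map f)
      (((R ⊓ K).subgroupOf K).map f) ?_ ?_ ?_ ?_
    · intro q hq'
      obtain ⟨r, hr, e⟩ := hle (show f ⟨q, hq'.2⟩ ∈ _ from ⟨_, hq', rfl⟩)
      have : r⁻¹ * ⟨q, hq'.2⟩ ∈ Z0 := QuotientGroup.eq.1 e
      have := mul_mem hr.1 this.1.1
      simpa using this
    · refine eq_top_iff.2 fun y _ => ?_
      obtain ⟨⟨x, hx⟩, rfl⟩ := hfs y
      have hgen : K ≤ ((closure {x : ↥K ⧸ Z0 | Odd (orderOf x)}).comap f).map K.subtype := by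
        refine (closure_le _).2 fun z hz => ⟨⟨z, subset_closure hz⟩, subset_closure ?_, rfl⟩
        exact Odd.of_dvd_nat (by rw [← orderOf_coe]; exact hz.2) (orderOf_map_dvd f _)
      obtain ⟨z, hz, e⟩ := hgen hx
      rwa [show (⟨x, hx⟩ : ↥K) = z from Subtype.ext e.symm]
    · rw [Sylow.coe_mapSurjective, hS, ← Subgroup.map_sup,
        ← subgroupOf_sup (inf_le_right : R ⊓ K ≤ K) (inf_le_right : Q ⊓ K ≤ K)]
      congr 1
      ext x
      refine ⟨fun hx => hTK ⟨hx, x.2⟩, fun hx => ?_⟩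
      exact (sup_le (inf_le_left.trans c.hRT) (inf_le_left.trans c.hQT) : _ ≤ (T : Subgroup G)) hx
    · rintro _ ⟨z, hz, rfl⟩
      refine mem_center_iff.2 fun y => ?_
      obtain ⟨x, rfl⟩ := hfs y
      refine (commutatorElement_eq_one_iff_mul_comm.1 ?_).symm
      rw [← map_commutatorElement]
      exact (QuotientGroup.eq_one_iff _).2 (hcommK (commutator_mem_commutator hz x.2))
    · rw [Sylow.coe_mapSurjective, hS]
      rintro _ ⟨t, ht, rfl⟩
      refine mem_normalizer_of_cj_eq ?_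
      rw [← map_cj]
      congr 1
      refine cj_eq_of_mem_normalizer (mem_normalizer_iff.2 fun x => ?_)
      have h1 := mem_normalizer_iff.1 (c.hM₀R (c.hTM₀ ht)) (x : G)
      simp only [mem_subgroupOf, mem_inf, Subgroup.coe_mul, Subgroup.coe_inv, SetLike.coe_mem, true_and, and_true]
      exact ⟨fun hx => ⟨h1.1 hx, mul_mem (mul_mem t.2 x.2) (inv_mem t.2)⟩, fun hx => h1.2 hx.1⟩
  exact hTK.trans (sup_le inf_le_left hQR)

end Cfsg.Agent.H60.Qrc
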